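import Mathlib

/-!
Project PS (statement S0725): a primitive group of degree `n` that does not contain the
alternating group has order at most `4 ^ n`.  Definitions and the statements of the pieces.
The proofs on paper are in `stubs/notes/h87_ps.md`.
-/

set_option autoImplicit false

namespace Cfsg.Agent.H87.PS

open Equiv MulAction

universe u

section Defs

variable {α : Type u} [Fintype α] [DecidableEq α]

/-- Every non-trivial element moves at least `m` points. -/
def MinDeg (G : Subgroup (Perm α)) (m : ℕ) : Prop := ∀ g ∈ G, g ≠ 1 → m ≤ g.support.card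

/-- `G` is 2-closed. -/
def Closed (G : Subgroup (Perm α)) : Prop :=
  ∀ σ : Perm α, (∀ a b : α, ∃ g ∈ G, g a = σ a ∧ g b = σ b) → σ ∈ G

/-- No proper non-trivial restriction of `g` lies in `G`. -/
def Indec (G : Subgroup (Perm α)) (g : Perm α) : Prop :=
  ∀ h ∈ G, (∀ x, h x = g x ∨ h x = x) → h = 1 ∨ h = g

/-- The pointwise stabilizer. -/
def fixS (G : Subgroup (Perm α)) (S : Finset α) : Subgroup (Perm α) where
  carrier := {g | g ∈ G ∧ ∀ x ∈ S, g x = x}
  one_mem' := ⟨one_mem G, fun _ _ => rfl⟩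
  mul_mem' := fun {a b} ha hb => ⟨mul_mem ha.1 hb.1, fun x hx => by
    rw [Perm.mul_apply, hb.2 x hx, ha.2 x hx]⟩
  inv_mem' := fun {a} ha => ⟨inv_mem ha.1, fun x hx => by
    rw [Perm.inv_eq_iff_eq, ha.2 x hx]⟩

omit [Fintype α] [DecidableEq α] in
theorem mem_fixS {G : Subgroup (Perm α)} {S : Finset α} {g : Perm α} :
    g ∈ fixS G S ↔ g ∈ G ∧ ∀ x ∈ S, g x = x := Iff.rfl

/-- An invariant family of partitions: `E a` is an equivalence relation on the points `≠ a` with
`v` classes of size `s`. -/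
structure Blk (X : Subgroup (Perm α)) (s v : ℕ) (E : α → α → α → Prop) : Prop where
  s2 : 2 ≤ s
  v2 : 2 ≤ v
  card : Fintype.card α = s * v + 1
  inv : ∀ g ∈ X, ∀ a b c, E a b c → E (g a) (g b) (g c)
  ne : ∀ a b c, E a b c → b ≠ a ∧ c ≠ a
  refl : ∀ a b, b ≠ a → E a b b
  symm : ∀ a b c, E a b c → E a c b
  trans : ∀ a b c d, E a b c → E a c d → E a b d
  size : ∀ a b, b ≠ a → {c | E a b c}.ncard = s
  cnt : ∀ b c, b ≠ c → {a | E a b c}.ncard = s - 1

/-- The kernel of the action of the stabilizer of `a` on the classes of `E a`. -/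
def ker {X : Subgroup (Perm α)} {s v : ℕ} {E : α → α → α → Prop} (h : Blk X s v E) (a : α) :
    Subgroup (Perm α) where
  carrier := {g | g ∈ X ∧ g a = a ∧ ∀ b, b ≠ a → E a b (g b)}
  one_mem' := ⟨one_mem X, rfl, fun b hb => h.refl a b hb⟩
  mul_mem' := fun {x y} hx hy => ⟨mul_mem hx.1 hy.1, by rw [Perm.mul_apply, hy.2.1, hx.2.1],
    fun b hb => h.trans _ _ _ _ (hy.2.2 b hb) (hx.2.2 _ (h.ne _ _ _ (hy.2.2 b hb)).2)⟩
  inv_mem' := fun {x} hx => ⟨inv_mem hx.1, by rw [Perm.inv_eq_iff_eq, hx.2.1], fun b hb => by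
    have h1 : x⁻¹ b ≠ a := fun h2 => hb (by rw [← hx.2.1, ← h2]; simp)
    have := h.symm _ _ _ (hx.2.2 _ h1)
    simpa using this⟩

theorem mem_ker {X : Subgroup (Perm α)} {s v : ℕ} {E : α → α → α → Prop} {h : Blk X s v E}
    {a : α} {g : Perm α} : g ∈ ker h a ↔ g ∈ X ∧ g a = a ∧ ∀ b, b ≠ a → E a b (g b) := Iff.rfl

/-- The stabilizer of `a` is `(v - 2)`-transitive on the classes. -/
def Alt (X : Subgroup (Perm α)) (v : ℕ) (E : α → α → α → Prop) (a : α) : Prop :=
  ∀ j, j + 2 ≤ v → ∀ b c : Fin j → α, (∀ i, b i ≠ a) → (∀ i, c i ≠ a) →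
    (∀ i k, E a (b i) (b k) → i = k) → (∀ i k, E a (c i) (c k) → i = k) →
    ∃ g ∈ X, g a = a ∧ ∀ i, E a (g (b i)) (c i)

/-- The support of a commutator. -/
theorem card_support_comm_le (h z : Perm α) :
    (h * z * h⁻¹ * z⁻¹).support.card ≤ 3 * (h.support ∩ z.support).card := by
  set I := h.support ∩ z.support with hI
  have ai : ∀ (g : Perm α) (x : α), g (g⁻¹ x) = x := fun g x => by simp
  have hsub : (h * z * h⁻¹ * z⁻¹).support ⊆ I ∪ I.image h ∪ I.image z := by
    intro x hx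
    by_contra hn
    simp only [hI, Finset.mem_union, Finset.mem_image, Finset.mem_inter, Perm.mem_support, not_or,
      not_and, not_exists, not_not] at hn
    obtain ⟨⟨h1, h2⟩, h3⟩ := hn
    refine Perm.mem_support.1 hx ?_
    simp only [Perm.mul_apply]
    by_cases hh : h x = x
    · have hh' : h⁻¹ x = x := by rw [Perm.inv_eq_iff_eq, hh]
      by_cases hz : z x = x
      · have hz' : z⁻¹ x = x := by rw [Perm.inv_eq_iff_eq, hz]
        rw [hz', hh', hz, hh]
      · have h4 : h (z⁻¹ x) = z⁻¹ x := by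
          by_contra h5
          refine h3 (z⁻¹ x) ⟨h5, fun h6 => hz ?_⟩ (by simp)
          rw [ai] at h6
          conv_lhs => rw [h6]
          exact ai _ _
        have h4' : h⁻¹ (z⁻¹ x) = z⁻¹ x := by rw [Perm.inv_eq_iff_eq, h4]
        rw [h4', ai, hh]
    · have hz := h1 hh
      have hz' : z⁻¹ x = x := by rw [Perm.inv_eq_iff_eq, hz]
      have h4 : z (h⁻¹ x) = h⁻¹ x := by
        by_contra h5
        refine h2 (h⁻¹ x) ⟨fun h6 => hh ?_, h5⟩ (by simp)
        rw [ai] at h6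
        conv_lhs => rw [h6]
        simp
      rw [hz', h4, ai]
  calc _ ≤ _ := Finset.card_le_card hsub
    _ ≤ I.card + (I.image h).card + (I.image z).card :=
      (Finset.card_union_le _ _).trans (Nat.add_le_add_right (Finset.card_union_le _ _) _)
    _ ≤ I.card + I.card + I.card :=
      Nat.add_le_add (Nat.add_le_add_left Finset.card_image_le _) Finset.card_image_le
    _ = 3 * I.card := by ring

end Defs

/-! ### Arithmetic conditions -/

/-- The case of a Sylow subgroup with one class of orbits. -/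
def One (n m p : ℕ) : Prop := ∃ q, 2 ≤ q ∧ m ≤ q * p ∧ q * p ≤ n - 1 ∧
  (p * p ≤ n - 1 ∨ m ≤ 3 * q ∨ n ≤ q * p + 1 + q * q.factorial)

/-- The bound for the exponent of `p` in the order of a point stabilizer. -/
def ExpOK (n m p e : ℕ) : Prop := ∃ r, e ≤ r + ((n - 1) / p).factorial.factorization p ∧
  (r = 0 ∨ (r = 1 ∧ One n m p) ∨
    ∃ q, 2 ≤ r ∧ r * (q * p) ≤ n - 1 ∧ 2 ≤ q ∧ m ≤ q * p ∧ (p ≤ q ∨ m ≤ 3 * q))

/-- The restriction on the degree of transitivity. -/
def TOK (n t : ℕ) : Prop := ∀ f q p : ℕ, p.Prime → 5 ≤ p → n = q * p + f → f < t → 1 ≤ q →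
  q < p → f ≤ q + 1

/-- The restriction on the large primes of a multiply transitive group. -/
def WOK (n t p : ℕ) : Prop := ∃ q f, n = q * p + f ∧ t ≤ f ∧ 1 ≤ q ∧
  (q * p < t ∨ (f - 1).descFactorial (t - 1) ≤ q.factorial)

/-- The number of pairs that are not separated after `k + 1` points. -/
def uu (n s : ℕ) : ℕ → ℕ
  | 0 => (n - 1) * (s - 1)
  | k + 1 => uu n s k * (s - 2) / (n - 1)

/-- The bound for a 2-transitive group with imprimitive point stabilizer. -/
def ImpOK (n m x : ℕ) : Prop := ∃ s v y, n = s * v + 1 ∧ 2 ≤ s ∧ 2 ≤ v ∧ y ≤ v.factorial ∧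
  (v ≤ 2 * s + 2 ∨ y ≤ 4 ^ v) ∧ (∀ w, (v - w) * s < m → x ≤ n * y * s.factorial ^ w) ∧
  ∀ k, uu n s k < m → x ≤ n * y * (s * y) ^ k

/-! ### Pieces on groups -/

/-- PK: the order of a `p`-subgroup of a 2-closed group. -/
def PkStmt : Prop := ∀ (α : Type u) [Fintype α] [DecidableEq α] (G P : Subgroup (Perm α)) (p : ℕ)
  (S : Finset α), Closed G → p.Prime → P ≤ G → IsPGroup p P → (∀ g ∈ P, g.support ⊆ S) →
  ∃ (r : ℕ) (g : Fin r → Perm α), (∀ i, g i ∈ G ∧ orderOf (g i) = p ∧ (g i).support ⊆ S) ∧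
    (∀ i j, i ≠ j → Disjoint (g i).support (g j).support) ∧
    Nat.card P ∣ p ^ (r + (S.card / p).factorial.factorization p)

/-- R: an element with disjoint support. -/
def RStmt : Prop := ∀ (α : Type u) [Fintype α] [DecidableEq α] (G : Subgroup (Perm α))
  (g z : Perm α) (p q m : ℕ), IsPreprimitive G α → Closed G → MinDeg G m → p.Prime → g ∈ G →
  orderOf g = p → g.support.card = q * p → q < p → Indec G g → z ∈ G → z ≠ 1 →
  Disjoint z.support g.support → m ≤ 3 * q

/-- SUB: `g` moves a point of every suborbit. -/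
def SubStmt : Prop := ∀ (α : Type u) [Fintype α] [DecidableEq α] (G : Subgroup (Perm α))
  (g : Perm α) (p q : ℕ), IsPreprimitive G α → Closed G → p.Prime → g ∈ G →
  orderOf g = p → g.support.card = q * p → q < p → Indec G g → (∃ a, g a = a) →
  ∃ a, g a = a ∧ ∀ b, b ≠ a → ∃ x ∈ G, x a = a ∧ g (x b) ≠ x b

/-- FL: the number of fixed points. -/
def FlStmt : Prop := ∀ (α : Type u) [Fintype α] [DecidableEq α] (G : Subgroup (Perm α))
  (g : Perm α) (p q : ℕ) (a : α), IsPretransitive G α → Closed G → p.Prime → g ∈ G →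
  orderOf g = p → g.support.card = q * p → g a = a →
  (∀ b, b ≠ a → ∃ x ∈ G, x a = a ∧ g (x b) ≠ x b) →
  (∀ z ∈ G, Disjoint z.support g.support → z = 1) → ¬ p ^ 2 ∣ Nat.card (fixS G {a}) →
  Fintype.card α ≤ q * p + 1 + q * q.factorial

/-- MD: the minimal degree of a simply primitive group. -/
def MdStmt : Prop := ∀ (α : Type u) [Fintype α] [DecidableEq α] (G : Subgroup (Perm α))
  (g : Perm α), IsPreprimitive G α → ¬ IsMultiplyPretransitive G α 2 → g ∈ G →
  4 ≤ g.support.card → 4 * (Fintype.card α - 1) ≤ 3 * g.support.card ^ 2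

/-- B2: the minimal degree of a doubly transitive group. -/
def B2Stmt : Prop := ∀ (α : Type u) [Fintype α] [DecidableEq α] (G : Subgroup (Perm α))
  (g : Perm α), IsMultiplyPretransitive G α 2 → MinDeg G 4 → g ∈ G → g ≠ 1 →
  Fintype.card α ≤ 4 * g.support.card + 6

/-- UB: the point stabilizer of a 2-closed simply primitive group. -/
def UbStmt : Prop := ∀ (α : Type u) [Fintype α] [DecidableEq α] (G : Subgroup (Perm α))
  (m p : ℕ) (a : α), IsPreprimitive G α → Closed G → ¬ IsMultiplyPretransitive G α 2 →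
  MinDeg G m → p.Prime →
  ExpOK (Fintype.card α) m p ((Nat.card (fixS G {a})).factorization p)

/-- WC: the normalizer of a Sylow subgroup of a pointwise stabilizer. -/
def WcStmt : Prop := ∀ (α : Type u) [Fintype α] [DecidableEq α] (G P : Subgroup (Perm α))
  (k p : ℕ) (S F : Finset α), 3 ≤ k → IsMultiplyPretransitive G α k → S.card = k → p.Prime →
  5 ≤ p → P ≤ fixS G S → IsPGroup p P → ¬ p ∣ P.relIndex (fixS G S) → P ≠ ⊥ →
  Fintype.card α - k < p * p → (∀ x, x ∈ F ↔ ∀ g ∈ P, g x = x) →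
  ∃ q, Fintype.card α = q * p + F.card ∧ 1 ≤ q ∧
    ((F.card - 1).descFactorial (k - 1) ≤ q.factorial ∨
      ((∃ z ∈ G, z ≠ 1 ∧ z.support ⊆ F) ∧ (4 ≤ k → k < F.card →
        IsMultiplyPretransitive G α (q * p + 1))))

/-- TOK. -/
def TokStmt : Prop := ∀ (α : Type u) [Fintype α] [DecidableEq α] (G : Subgroup (Perm α)) (t : ℕ),
  IsMultiplyPretransitive G α t → t ≤ Fintype.card α → ¬ alternatingGroup α ≤ G →
  TOK (Fintype.card α) t

/-- WOK. -/
def WokStmt : Prop := ∀ (α : Type u) [Fintype α] [DecidableEq α] (G : Subgroup (Perm α))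
  (t p : ℕ) (S : Finset α), 4 ≤ t → IsMultiplyPretransitive G α t →
  ¬ IsMultiplyPretransitive G α (t + 1) → ¬ alternatingGroup α ≤ G → S.card = t → p.Prime →
  5 ≤ p → p ∣ Nat.card (fixS G S) → Fintype.card α - t < p * p → WOK (Fintype.card α) t p

/-- The theorem for the degrees below `n`. -/
def IH (n : ℕ) : Prop := ∀ (β : Type u) [Fintype β] [DecidableEq β] (H : Subgroup (Perm β)),
  Fintype.card β < n → IsPreprimitive H β → ¬ alternatingGroup β ≤ H →
  Nat.card H ≤ 4 ^ Fintype.card β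

/-- IMP0: the blocks. -/
def Imp0Stmt : Prop := ∀ (α : Type u) [Fintype α] [DecidableEq α] (X : Subgroup (Perm α)) (a : α),
  IH.{u} (Fintype.card α) → IsMultiplyPretransitive X α 2 →
  ¬ IsPreprimitive (stabilizer X a) (SubMulAction.ofStabilizer X a) → 2 ≤ Fintype.card α →
  ∃ (s v : ℕ) (E : α → α → α → Prop) (h : Blk X s v E),
    (ker h a).relIndex (fixS X {a}) ≤ v.factorial ∧
    ((ker h a).relIndex (fixS X {a}) ≤ 4 ^ v ∨ Alt X v E a)

/-- IMP1: the highly transitive case. -/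
def Imp1Stmt : Prop := ∀ (α : Type u) [Fintype α] [DecidableEq α] (X : Subgroup (Perm α))
  (s v : ℕ) (E : α → α → α → Prop) (a : α), Blk X s v E → Alt X v E a → v ≤ 2 * s + 2

/-- IMP2: the kernel on the blocks. -/
def Imp2Stmt : Prop := ∀ (α : Type u) [Fintype α] [DecidableEq α] (X : Subgroup (Perm α))
  (s v m : ℕ) (E : α → α → α → Prop) (h : Blk X s v E) (a : α), IsPretransitive X α →
  MinDeg X m →
  (∀ w, (v - w) * s < m → Nat.card (ker h a) ≤ s.factorial ^ w) ∧
  ∀ k, uu (Fintype.card α) s k < m →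
    Nat.card (ker h a) ≤ (s * (ker h a).relIndex (fixS X {a})) ^ k

/-! ### Pieces on numbers -/

/-- TB: the degree of transitivity is small. -/
def TbStmt : Prop := ∀ n t : ℕ, 1000 ≤ n → TOK n t → n ^ t ≤ 2 ^ (n / 6)

/-- U1: small degrees. -/
def U1Stmt : Prop := ∀ n t m x : ℕ, 22 ≤ n → n ≤ 1000 → 1 ≤ t → TOK n t → 4 ≤ m →
  4 * (n - t) ≤ 3 * m ^ 2 → 0 < x →
  (∀ p, p.Prime → ExpOK (n - t + 1) m p (x.factorization p)) →
  (4 ≤ t → ∀ p, p.Prime → 5 ≤ p → p ∣ x → n - t < p * p → WOK n t p) →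
  n.descFactorial t * x ≤ 4 ^ n

/-- The bound for a point stabilizer in degree `n`. -/
def XB (n : ℕ) : Prop := ∀ m x : ℕ, 4 * (n - 1) ≤ 3 * m ^ 2 → 0 < x →
  (∀ p, p.Prime → ExpOK n m p (x.factorization p)) → x ^ 6 ≤ 2 ^ (11 * n)

/-- U2A. -/
def U2aStmt : Prop := ∀ n, 980 ≤ n → n ≤ 4000 → XB n

/-- U2B. -/
def U2bStmt : Prop := ∀ n, 4000 ≤ n → n ≤ 262144 → XB n

/-- U3. -/
def U3Stmt : Prop := ∀ n, 262144 ≤ n → XB n

/-- I1: the imprimitive case, closed form. -/
def I1Stmt : Prop := ∀ n m x : ℕ, 22 ≤ n → n ≤ 4 * m + 6 → ImpOK n m x → x ≤ 3 ^ n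

/-- I2: the imprimitive case. -/
def I2Stmt : Prop := I1Stmt → TbStmt → ∀ n t m x : ℕ, 22 ≤ n → 2 ≤ t → TOK n t →
  n ≤ 4 * m + 6 → 2 * t ≤ m + 2 → ImpOK (n - t + 2) m x → n.descFactorial (t - 2) * x ≤ 4 ^ n

/-! ### A computable kit for the numeric pieces -/

/-- Trial division. -/
def nd (p : ℕ) : ℕ → ℕ → Bool
  | 0, _ => true
  | k + 1, d => if p < d * d then true else if p % d = 0 then false else nd p k (d + 1)

/-- Primality test. -/
def isP (p : ℕ) : Bool := decide (2 ≤ p) && nd p p 2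

theorem nd_iff (p : ℕ) : ∀ k d, nd p k d = true ↔ ∀ e, d ≤ e → e < d + k → e * e ≤ p → ¬ e ∣ p
  | 0, d => by simp only [nd, true_iff]; intro e h1 h2; omega
  | k + 1, d => by
    rw [nd]
    split_ifs with h1 h2
    · simp only [true_iff]
      intro e he _ h
      have := Nat.mul_le_mul he he
      omega
    · simp only [false_iff, not_forall]
      exact ⟨d, le_rfl, by omega, by omega, fun h => h (Nat.dvd_of_mod_eq_zero h2)⟩
    · rw [nd_iff p k (d + 1)]
      constructor
      · intro h e he he' hp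
        rcases he.eq_or_lt with rfl | he
        · exact fun h3 => h2 (Nat.mod_eq_zero_of_dvd h3)
        · exact h e he (by omega) hp
      · intro h e he he' hp
        exact h e (by omega) (by omega) hp

theorem isP_iff (p : ℕ) : isP p = true ↔ p.Prime := by
  rw [isP, Bool.and_eq_true, decide_eq_true_iff, nd_iff, Nat.prime_def_le_sqrt]
  refine and_congr_right fun h2 => ⟨fun h e he hs => ?_, fun h e he _ hs => ?_⟩
  · have := Nat.le_sqrt.1 hs
    exact h e he (by nlinarith) this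
  · exact h e he (Nat.le_sqrt.2 hs)

/-- `n - f = q p` with `q + 1 < f` and a prime `p > q`. -/
def bad (n f : ℕ) : Bool := (List.range (f - 2)).any fun i =>
  decide ((n - f) % (i + 1) = 0) && decide ((i + 1) * (i + 1) < n - f) &&
    decide (5 ≤ (n - f) / (i + 1)) && isP ((n - f) / (i + 1))

/-- The first `f ≥ f₀` with `bad n f`. -/
def tmAux (n : ℕ) : ℕ → ℕ → ℕ
  | 0, _ => n + 1
  | k + 1, f => if bad n f then f else tmAux n k (f + 1)

/-- A bound for the degree of transitivity. -/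
def tm (n : ℕ) : ℕ := tmAux n 40 3

theorem le_of_bad {n t f : ℕ} (h : TOK n t) (hb : bad n f = true) : t ≤ f := by
  by_contra hlt
  simp only [bad, List.any_eq_true, List.mem_range, Bool.and_eq_true, decide_eq_true_iff,
    isP_iff] at hb
  obtain ⟨i, hi, ⟨⟨h1, h2⟩, h6⟩, h3⟩ := hb
  obtain ⟨p, hp⟩ := Nat.dvd_of_mod_eq_zero h1
  rw [hp, Nat.mul_div_cancel_left _ (Nat.succ_pos i)] at h3 h6
  have h4 : i + 1 < p := by rw [hp] at h2; exact Nat.lt_of_mul_lt_mul_left h2
  have h5 : 0 < n - f := by omega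
  have := h f (i + 1) p h3 h6 (by omega) (by omega) (by omega) h4
  omega

theorem le_tm {n t : ℕ} (h : TOK n t) (hn : tm n ≤ n) : t ≤ tm n := by
  have key : ∀ k f, tmAux n k f ≤ n → t ≤ tmAux n k f := by
    intro k
    induction k with
    | zero => intro f hf; simp only [tmAux] at hf; omega
    | succ k ih =>
      intro f hf
      rw [tmAux] at hf ⊢
      split_ifs at hf ⊢ with hb
      · exact le_of_bad h hb
      · exact ih _ hf
  exact key _ _ hn

theorem tm_le : ∀ n < 1001, 22 ≤ n → tm n ≤ 15 := by decide +kernel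

end Cfsg.Agent.H87.PS
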