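import Cfsg.Agent.H74.UVDefs

/-!
Project UV, piece TEN: a property of the determinant invariant under the translations is constant.
-/

set_option autoImplicit false

namespace Cfsg.Agent.H87.UvTen

open Cfsg Module Cfsg.Agent.H74.UV

universe u

section Field

variable {K : Type u} [Field K]

theorem pw_iter (q : ℕ) (F : K →+* K) (hF : ∀ x, F x = x ^ q) (j : ℕ) :
    ∃ G : K →+* K, ∀ x, G x = x ^ q ^ j := by
  induction j with
  | zero => exact ⟨RingHom.id K, fun x => by simp⟩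
  | succ j ih =>
    obtain ⟨G, hG⟩ := ih
    exact ⟨F.comp G, fun x => by rw [RingHom.comp_apply, hG, hF, ← pow_mul, ← pow_succ]⟩

theorem fix_iter (q : ℕ) (e : K) (he : e ^ q = e) (j : ℕ) : e ^ q ^ j = e := by
  induction j with
  | zero => simp
  | succ j ih => rw [pow_succ, pow_mul, ih, he]

/-- The norm-like products. -/
theorem shift (q : ℕ) (F : K →+* K) (hF : ∀ x, F x = x ^ q) (c δ : K) (hc : c ^ q ^ 11 = c) :
    (∏ j ∈ Finset.range 11, (c ^ q ^ j - δ)) ^ q = ∏ j ∈ Finset.range 11, (c ^ q ^ j - δ ^ q) := by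
  rw [← hF, map_prod]
  have h1 : ∀ j, F (c ^ q ^ j - δ) = c ^ q ^ (j + 1) - δ ^ q := by
    intro j
    rw [map_sub, hF, hF, ← pow_mul, ← pow_succ]
  simp only [h1]
  rw [Finset.prod_range_succ, Finset.prod_range_succ' (fun j => c ^ q ^ j - δ ^ q), hc]
  simp

theorem zp (q : ℕ) (F : K →+* K) (hF : ∀ x, F x = x ^ q) (c δ s : K) (hδ : (δ ^ q) ^ q = δ)
    (hs : s = (c - δ) / (c - δ ^ q)) (j : ℕ) :
    s ^ ((-(q : ℤ)) ^ j) = (c ^ q ^ j - δ) / (c ^ q ^ j - δ ^ q) := by
  induction j with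
  | zero => simpa using hs
  | succ j ih =>
    rw [pow_succ, zpow_mul, ih, zpow_neg, zpow_natCast, ← hF, map_div₀, map_sub, map_sub, hF, hF,
      hF, hδ, ← pow_mul, ← pow_succ, inv_div]

theorem powPhi (q Φ : ℕ) (hΦ : q ^ 11 + 1 = Φ * (q + 1)) (F : K →+* K) (hF : ∀ x, F x = x ^ q)
    (c δ s : K) (hδ : (δ ^ q) ^ q = δ) (h0 : s ≠ 0) (hs : s = (c - δ) / (c - δ ^ q)) :
    s ^ Φ = (∏ j ∈ Finset.range 11, (c ^ q ^ j - δ)) /
      ∏ j ∈ Finset.range 11, (c ^ q ^ j - δ ^ q) := by
  have hΦ' : (Φ : ℤ) = ∑ j ∈ Finset.range 11, (-(q : ℤ)) ^ j := by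
    have h1 : ((q : ℤ) + 1) ≠ 0 := by positivity
    apply mul_right_cancel₀ h1
    have h2 : (q : ℤ) ^ 11 + 1 = Φ * (q + 1) := by exact_mod_cast hΦ
    rw [← h2]
    simp only [Finset.sum_range_succ, Finset.sum_range_zero]
    ring
  rw [← zpow_natCast, hΦ', ← Finset.prod_div_distrib]
  have h3 : ∀ (n : ℕ) (g : ℕ → ℤ),
      s ^ (∑ j ∈ Finset.range n, g j) = ∏ j ∈ Finset.range n, s ^ g j := by
    intro n g
    induction n with
    | zero => simp
    | succ n ih => rw [Finset.sum_range_succ, Finset.prod_range_succ, zpow_add₀ h0, ih]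
  rw [h3]
  exact Finset.prod_congr rfl fun j _ => zp q F hF c δ s hδ hs j

/-- The monomials of `TenbStmt` are the powers of `s ^ (-Φ)`. -/
theorem mono (q Φ : ℕ) (hΦ : q ^ 11 + 1 = Φ * (q + 1)) (F : K →+* K) (hF : ∀ x, F x = x ^ q)
    (c δ s : K) (hδ : (δ ^ q) ^ q = δ) (h0 : s ≠ 0) (hs : s = (c - δ) / (c - δ ^ q))
    (hc : c ^ q ^ 11 = c) (k : ℕ) (hk : k < q) :
    ∏ j : Fin 11, ((c ^ q ^ (j : ℕ) - δ ^ q) ^ k * (c ^ q ^ (j : ℕ) - δ) ^ (q - 1 - k)) =
      ((s ^ Φ)⁻¹) ^ (k + 1) := by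
  rw [Fin.prod_univ_eq_prod_range
    (fun j => (c ^ q ^ j - δ ^ q) ^ k * (c ^ q ^ j - δ) ^ (q - 1 - k)) 11,
    Finset.prod_mul_distrib, Finset.prod_pow, Finset.prod_pow]
  have h1 := powPhi q Φ hΦ F hF c δ s hδ h0 hs
  have h2 := shift q F hF c δ hc
  set W := ∏ j ∈ Finset.range 11, (c ^ q ^ j - δ) with hW
  set W' := ∏ j ∈ Finset.range 11, (c ^ q ^ j - δ ^ q) with hW'
  have hW0 : W ≠ 0 := by
    intro h
    rw [h, zero_div] at h1
    exact h0 (pow_eq_zero_iff' .. |>.1 h1).1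
  rw [h1, inv_div, div_pow, eq_div_iff (pow_ne_zero _ hW0), mul_assoc, ← pow_add,
    show q - 1 - k + (k + 1) = q by omega, h2, pow_succ]

end Field

theorem ten (hb : TenbStmt.{u}) : TenStmt.{u} := by
  classical
  intro E K _ _ _ _ _ σ B q R t hK hq3 φ h1 h2
  obtain ⟨p, f, hp, hE, hKp, hf, hqp⟩ := hK.pp
  have : Fact p.Prime := ⟨hp⟩
  obtain ⟨F, hF⟩ : ∃ F : K →+* K, ∀ x, F x = x ^ q :=
    ⟨iterateFrobenius K p f, fun x => by rw [iterateFrobenius_def, hqp]⟩
  obtain ⟨τ, hτ, -, hτE⟩ := hK.bar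
  have hσ : ∀ x, σ x = x ^ q := hK.st.pow
  have hal : ∀ x : E, algebraMap E K x ^ q = algebraMap E K (σ x) := fun x => by
    rw [hσ, map_pow]
  have hinj : Function.Injective (algebraMap E K) := (algebraMap E K).injective
  -- the element `ω`
  obtain ⟨ω, hω, hω0⟩ : ∃ ω : E, ω + σ ω = 0 ∧ ω ≠ 0 := by
    by_contra hcon
    push Not at hcon
    have : Subsingleton {c : E // c + σ c = 0} :=
      ⟨fun a b => Subtype.ext ((hcon a.1 a.2).trans (hcon b.1 b.2).symm)⟩
    have h3 : Nat.card {c : E // c + σ c = 0} ≤ 1 := Finite.card_le_one_iff_subsingleton.2 this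
    rw [hK.cardS] at h3
    omega
  have hσω : σ ω = -ω := by linear_combination hω
  -- the element `d`
  obtain ⟨d, hd⟩ : ∃ d : E, d + σ d = 1 := by
    have : Nontrivial (Rt K (q + 1)) := by
      rw [← Finite.one_lt_card_iff_nontrivial, hK.cardZ]
      omega
    obtain ⟨z, hz⟩ := exists_ne (1 : Rt K (q + 1))
    have hz1 : (z : Kˣ) ≠ 1 := fun h => hz (Subtype.ext h)
    obtain ⟨c, hc⟩ := (hK.kapZ z (hK.ZT z.2) hz1).1 z.2
    have h3 := hK.kapT z (hK.ZT z.2) hz1
    rw [hc, ← hτ, hτE, ← map_add] at h3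
    exact ⟨c, hinj (h3.trans (map_one _).symm)⟩
  have hσd : σ d = 1 - d := by linear_combination hd
  set D : K := algebraMap E K d with hD
  set Ω : K := algebraMap E K ω with hΩ
  have hΩ0 : Ω ≠ 0 := by
    rw [hΩ]
    exact (map_ne_zero_iff _ hinj).2 hω0
  have hFD : F D = 1 - D := by rw [hF, hD, hal, hσd, map_sub, map_one]
  have hFΩ : F Ω = -Ω := by rw [hF, hΩ, hal, hσω, map_neg]
  have hτD : τ D = 1 - D := by rw [hD, hτE, hσd, map_sub, map_one]
  have hτΩ : τ Ω = -Ω := by rw [hΩ, hτE, hσω, map_neg]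
  set δ : K := -D / Ω with hδ
  have hδq : δ ^ q = (1 - D) / Ω := by
    rw [← hF, hδ, map_div₀, map_neg, hFD, hFΩ, neg_div_neg_eq]
  have hδqq : (δ ^ q) ^ q = δ := by
    rw [hδq, ← hF, map_div₀, map_sub, map_one, hFD, hFΩ, hδ, div_neg, neg_div]
    congr 2
    ring
  have hη : δ ^ q = δ + Ω⁻¹ := by
    rw [hδq, hδ]
    field_simp
    ring
  -- the parametrisation
  have hpar : ∀ c : K, c ^ q ^ 11 = c → ∃ s ∈ Rt K (q ^ 11 + 1), s ≠ 1 ∧ kap s = D + Ω * c := by
    intro c hc
    apply hK.kapS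
    rw [← hτ, map_add, map_mul, hτD, hτΩ, hτ c, hc]
    ring
  have hfrac : ∀ (c : K) (s : Kˣ), s ≠ 1 → kap s = D + Ω * c →
      (s : K) = (c - δ) / (c - δ ^ q) := by
    intro c s hs1 hs
    have hs2 : (s : K) - 1 ≠ 0 := fun h => hs1 (Units.ext (by simpa using sub_eq_zero.1 h))
    unfold kap at hs
    rw [div_eq_iff hs2] at hs
    have h3 : c - δ ^ q ≠ 0 := by
      intro h
      have h4 : D + Ω * c = 1 := by
        rw [sub_eq_zero.1 h, hδq]
        field_simp
        ring
      rw [h4] at hs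
      have : (1 : K) = 0 := by linear_combination hs
      exact one_ne_zero this
    rw [eq_div_iff h3, hδq, hδ]
    field_simp
    linear_combination -hs
  have hnZ : ∀ c : K, c ^ q ^ 11 = c → c ^ q ≠ c → ∀ s ∈ Rt K (q ^ 11 + 1), s ≠ 1 →
      kap s = D + Ω * c → s ∉ Rt K (q + 1) := by
    intro c hc hcq s hs hs1 hk hz
    obtain ⟨c0, hc0⟩ := (hK.kapZ s hs hs1).1 hz
    have h3 : c = algebraMap E K ((c0 - d) / ω) := by
      rw [map_div₀, map_sub, ← hc0, hk, ← hD, ← hΩ]
      field_simp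
      ring
    apply hcq
    rw [← hτ] at hc
    rw [h3] at hc ⊢
    rw [hal, ← hτE, hc]
  -- the cardinality of the subfield
  have hcard : Nat.card {c : K // c ^ q ^ 11 = c} = q ^ 11 := by
    have hT : ((Rt K (q ^ 11 + 1) : Set Kˣ) \ {1}).ncard = q ^ 11 := by
      rw [Set.ncard_sdiff_singleton_of_mem (Subgroup.one_mem _), ← Nat.card_coe_set_eq]
      have := hK.cardT
      change Nat.card (Rt K (q ^ 11 + 1)) - 1 = _
      omega
    have him : (fun s : Kˣ => (kap s - D) / Ω) '' ((Rt K (q ^ 11 + 1) : Set Kˣ) \ {1}) =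
        {c : K | c ^ q ^ 11 = c} := by
      ext c
      constructor
      · rintro ⟨s, ⟨hs, hs1⟩, rfl⟩
        have h3 := hK.kapT s hs hs1
        rw [← hτ] at h3
        change ((kap s - D) / Ω) ^ q ^ 11 = _
        rw [← hτ, map_div₀, map_sub, hτD, hτΩ, show τ (kap s) = 1 - kap s by
          linear_combination h3]
        field_simp
        ring
      · intro hc
        obtain ⟨s, hs, hs1, hk⟩ := hpar c hc
        refine ⟨s, ⟨hs, hs1⟩, ?_⟩
        change (kap s - D) / Ω = c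
        rw [hk]
        field_simp
        ring
    have hio : Set.InjOn (fun s : Kˣ => (kap s - D) / Ω) ((Rt K (q ^ 11 + 1) : Set Kˣ) \ {1}) := by
      intro s hs s' hs' h
      apply hK.kapI s s' hs.2 hs'.2
      have h3 : (kap s - D) / Ω = (kap s' - D) / Ω := h
      rw [div_left_inj' hΩ0] at h3
      linear_combination h3
    rw [← hio.ncard_image, him, ← Nat.card_coe_set_eq] at hT
    exact hT
  -- the translation
  obtain ⟨e0, he0, he00, he1, he2⟩ : ∃ e0 : E, σ e0 = e0 ∧ e0 ≠ 0 ∧ e0 ≠ ω⁻¹ ∧ e0 ≠ -ω⁻¹ := by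
    by_cases h22 : (2 : E) = 0
    · have hneg : ∀ x : E, -x = x := fun x => by linear_combination (-x) * h22
      by_contra hcon
      push Not at hcon
      have h3 : ∀ c : {c : E // c + σ c = 0}, c.1 ∈ ({0, ω⁻¹} : Finset E) := by
        rintro ⟨c, hc⟩
        have h4 : σ c = c := by
          rw [← hneg c]
          nth_rewrite 1 [hneg c]
          linear_combination hc
        by_cases h5 : c = 0
        · simp [h5]
        by_cases h6 : c = ω⁻¹
        · simp [h6]
        have h7 := hcon c h4 h5 h6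
        rw [hneg] at h7
        exact absurd h7 h6
      have h4 : Nat.card {c : E // c + σ c = 0} ≤ Nat.card (({0, ω⁻¹} : Finset E)) :=
        Nat.card_le_card_of_injective (fun c => ⟨c.1, h3 c⟩)
          fun a b h => Subtype.ext (Subtype.mk.inj h)
      rw [hK.cardS, Nat.card_eq_fintype_card, Fintype.card_coe] at h4
      have h5 : ({0, ω⁻¹} : Finset E).card ≤ 2 := Finset.card_le_two
      omega
    · refine ⟨1, map_one σ, one_ne_zero, ?_, ?_⟩
      · intro h
        have h3 : ω = 1 := by rw [← inv_inv ω, ← h, inv_one]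
        rw [h3, map_one] at hω
        exact h22 (by linear_combination hω)
      · intro h
        have h3 : ω = -1 := by
          rw [← inv_inv ω, show ω⁻¹ = -1 by linear_combination h, inv_neg, inv_one]
        rw [h3, map_neg, map_one] at hω
        exact h22 (by linear_combination -hω)
  set e : K := algebraMap E K e0 with he
  have heq : e ^ q = e := by rw [he, hal, he0]
  have hadd : ∀ (j : ℕ) (c : K), (c + e) ^ q ^ j = c ^ q ^ j + e := by
    intro j c
    obtain ⟨G, hG⟩ := pw_iter q F hF j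
    rw [← hG, map_add, hG, hG, fix_iter q e heq]
  -- the interpolation
  have hΦ : q ^ 11 + 1 = R * t * (q + 1) := by rw [hK.card]; ring
  have hZ : ∀ s ∈ Rt K (q ^ 11 + 1), (s ^ (R * t))⁻¹ ∈ Rt K (q + 1) := by
    intro s hs
    apply Subgroup.inv_mem
    rw [MonoidHom.mem_ker, powMonoidHom_apply] at hs ⊢
    rw [← pow_mul, ← hΦ, hs]
  have : Fintype (Rt K (q + 1)) := Fintype.ofFinite _
  let χ : Rt K (q + 1) → K := fun z =>
    if ∃ s ∈ Rt K (q ^ 11 + 1), φ s ∧ (s ^ (R * t))⁻¹ = z then 1 else 0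
  let v : Rt K (q + 1) → K := fun z => ((z : Kˣ) : K)
  have hv : Set.InjOn v (Finset.univ : Finset (Rt K (q + 1))) :=
    fun a _ b _ h => Subtype.ext (Units.ext h)
  let P : Polynomial K := Lagrange.interpolate Finset.univ v χ
  have hP : ∀ z, P.eval (v z) = χ z := fun z =>
    Lagrange.eval_interpolate_at_node χ hv (Finset.mem_univ z)
  have hdeg : P.natDegree < q + 1 := by
    have h3 : P.degree < (Finset.univ : Finset (Rt K (q + 1))).card :=
      Lagrange.degree_interpolate_lt χ hv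
    rw [Finset.card_univ, ← Nat.card_eq_fintype_card, hK.cardZ] at h3
    by_cases h4 : P = 0
    · rw [h4]; simp
    · exact (Polynomial.natDegree_lt_iff_degree_lt h4).2 h3
  have hev : ∀ z, χ z = (∑ k ∈ Finset.range q, P.coeff (k + 1) * v z ^ (k + 1)) + P.coeff 0 := by
    intro z
    rw [← hP, Polynomial.eval_eq_sum_range' hdeg, Finset.sum_range_succ']
    simp
  have hχ : ∀ s (hs : s ∈ Rt K (q ^ 11 + 1)), χ ⟨_, hZ s hs⟩ = if φ s then 1 else 0 := by
    intro s hs
    apply if_congr _ rfl rfl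
    constructor
    · rintro ⟨s', hs', hφ, h⟩
      exact h1 s' hs' s hs (inv_injective h) hφ
    · intro hφ
      exact ⟨s, hs, hφ, rfl⟩
  have hz : ∀ k < q, P.coeff (k + 1) = 0 := by
    apply hb K q δ e (fun k => P.coeff (k + 1)) hK.q2 (fun x y => by rw [← hF, map_add, hF, hF])
      hcard
    · rw [hη]
      intro h
      exact inv_ne_zero hΩ0 (by linear_combination h)
    · exact heq
    · exact (map_ne_zero_iff _ hinj).2 he00
    · rw [hη]
      intro h
      apply he1
      apply hinj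
      rw [map_inv₀, ← hΩ, ← he]
      linear_combination h
    · rw [hη]
      intro h
      apply he2
      apply hinj
      rw [map_neg, map_inv₀, ← hΩ, ← he]
      linear_combination h
    · intro c hc hcq
      have hc' : (c + e) ^ q ^ 11 = c + e := by rw [hadd, hc]
      have hcq' : (c + e) ^ q ≠ c + e := by
        have := hadd 1 c
        rw [pow_one] at this
        rw [this]
        intro h
        exact hcq (add_right_cancel h)
      obtain ⟨s, hs, hs1, hk⟩ := hpar c hc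
      obtain ⟨s', hs', hs1', hk'⟩ := hpar (c + e) hc'
      have hn := hnZ c hc hcq s hs hs1 hk
      have hn' := hnZ (c + e) hc' hcq' s' hs' hs1' hk'
      have hiff : φ s ↔ φ s' := by
        constructor
        · apply h2 s hs s' hs' hn hn' (ω * e0)
          rw [hk, hk', map_mul, ← hΩ, ← he]
          ring
        · apply h2 s' hs' s hs hn' hn (-(ω * e0))
          rw [hk, hk', map_neg, map_mul, ← hΩ, ← he]
          ring
      have h3 : χ ⟨_, hZ s hs⟩ = χ ⟨_, hZ s' hs'⟩ := by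
        rw [hχ s hs, hχ s' hs']
        exact if_congr hiff rfl rfl
      rw [hev, hev] at h3
      have h4 := add_right_cancel h3
      have hvs : ∀ s (hs : s ∈ Rt K (q ^ 11 + 1)), v ⟨_, hZ s hs⟩ = ((s : K) ^ (R * t))⁻¹ := by
        intro s hs
        simp [v]
      rw [hvs s hs, hvs s' hs'] at h4
      simp only [← hadd]
      refine Eq.trans ?_ (h4.trans ?_)
      · refine Finset.sum_congr rfl fun k hk0 => ?_
        rw [mono q (R * t) hΦ F hF c δ s hδqq s.ne_zero (hfrac c s hs1 hk) hc k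
          (Finset.mem_range.1 hk0)]
      · refine Finset.sum_congr rfl fun k hk0 => ?_
        rw [mono q (R * t) hΦ F hF (c + e) δ s' hδqq s'.ne_zero (hfrac (c + e) s' hs1' hk') hc' k
          (Finset.mem_range.1 hk0)]
  have hconst : ∀ z, χ z = P.coeff 0 := by
    intro z
    rw [hev, Finset.sum_eq_zero fun k hk => by rw [hz k (Finset.mem_range.1 hk), zero_mul],
      zero_add]
  intro s hs s' hs' hφ
  have h3 : χ ⟨_, hZ s hs⟩ = χ ⟨_, hZ s' hs'⟩ := by rw [hconst, hconst]
  rw [hχ s hs, hχ s' hs', if_pos hφ] at h3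
  by_contra h4
  rw [if_neg h4] at h3
  exact one_ne_zero h3

end Cfsg.Agent.H87.UvTen
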