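import Cfsg.Agent.H87.LpLfB

/-! Project LP, piece LF: the complement over the unipotent radical. -/

set_option autoImplicit false

namespace Cfsg.Agent.H87.LpLf

open Matrix Subgroup Cfsg.Agent.H17.LP

universe u

variable {N : Type u} [Group N] {ι : M5 → N} {π : N →* SL5}

theorem alt45 (c : F) : Alt (c • z45) := alt_smul c (alt_wd _ _)

theorem u_comm (h : Ex ι π) {n : N} {u : M5} (hu : InU u) (e : act (π n) u = u) :
    n * ι u = ι u * n := by rw [mul_i h n hu.1, e]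

theorem d_z45 (h : Ex ι π) {δ : N} (hd : π δ = dd) (c : F) : δ * ι (c • z45) = ι (c • z45) * δ := by
  rw [mul_i h δ (alt45 c), hd, act_smul, dd_z45]

theorem Rel.fix (h : Ex ι π) {s : W3 → N} (hs : ∀ w, π (s w) = x5 w) {n : N} {g : M3} {ε : F}
    (r : Rel ι s n g (ε • g)) (w : W3) :
    ∃ u, InU u ∧ ι (ε • z45) * n * s w * (ι (ε • z45) * n)⁻¹ = s (g *ᵥ w) * ι u := by
  have r1 := Rel.kmul h hs (alt45 ε) r
  rw [Matrix.smul_apply, z45_34, smul_eq_mul, mul_one, add_self_3] at r1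
  obtain ⟨u, hu, e⟩ := r1 w
  rw [zero_mulVec, z4_zero, zero_add] at e
  exact ⟨u, hu, e⟩

theorem pi_d5 {δ b : N} (hd : π δ = dd) {w : W3} (hb : π b = x5 w) :
    π (δ * b * δ⁻¹) = x4 w := by
  rw [map_mul, map_mul, map_inv, hd, hb, dd_x5, mul_inv_cancel_right]

/-- The properties of the final section. -/
structure Fin1 (ι : M5 → N) (π : N →* SL5) (δ : N) (s : W3 → N) : Prop where
  pr : ∀ w, π (s w) = x5 w
  sq : ∀ w, s w * s w = 1
  add : ∀ w w', ∃ u, InU u ∧ s w * s w' = s (w + w') * ι u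
  cm : ∀ w w', s w * (δ * s w' * δ⁻¹) = δ * s w' * δ⁻¹ * s w
  lg : ∀ g : SL3, ∃ n, π n = emb g ∧ n * δ * n⁻¹ = δ ∧
    ∀ w, ∃ u, InU u ∧ n * s w * n⁻¹ = s (g.1 *ᵥ w) * ι u
  lt : ∃ t, π t = X 4 5 ∧ t * δ * t⁻¹ = δ⁻¹ ∧ ∀ w, ∃ u, InU u ∧ t * s w * t⁻¹ = s w * ι u

theorem row_x4 : ∀ (w : W3) (k : Fin 5), (x4 w).1 (ix 5) k = (1 : M5) (ix 5) k := by
  decide +kernel

theorem row_x54 : ∀ (w : W3) (k : Fin 5), (x5 w * x4 w).1 (ix 5) k = (1 : M5) (ix 5) k := by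
  decide +kernel

theorem comm_U (h : Ex ι π) {B : Subgroup N} {s : W3 → N} (S : Sec ι π B s) {δ : N}
    (hd : π δ = dd) (h3 : δ ^ 3 = 1) (w w' : W3) :
    ∃ c, InU c ∧ s w * (δ * s w' * δ⁻¹) * (s w)⁻¹ * (δ * s w' * δ⁻¹)⁻¹ = ι c := by
  have p4 := pi_d5 hd (S.pr w')
  obtain ⟨a, ha, e⟩ := (h.ker (s w * (δ * s w' * δ⁻¹) * (s w)⁻¹ * (δ * s w' * δ⁻¹)⁻¹)).1 (by
    rw [map_mul, map_mul, map_mul, map_inv, map_inv, p4, S.pr, x54_comm]; group)
  have m1 : ι a ∈ B := by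
    rw [← e, mul_assoc, mul_assoc, ← mul_assoc (δ * s w' * δ⁻¹)]
    exact mul_mem (S.mem w) ((mem_normalizer_iff.1 (S.nm _ (by rw [p4]; exact row_x4 w')) _).1
      (inv_mem (S.mem w)))
  have di : δ⁻¹ = δ * δ := by
    rw [inv_eq_iff_mul_eq_one, ← mul_assoc, ← pow_three', h3]
  have p54 : π (δ⁻¹ * s w * δ) = x5 w * x4 w := by
    have k : δ⁻¹ * s w * δ = δ * (δ * s w * δ⁻¹) * δ⁻¹ := by
      calc δ⁻¹ * s w * δ = δ⁻¹ * s w * δ⁻¹⁻¹ := by rw [inv_inv]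
        _ = _ := by nth_rewrite 1 [di]; nth_rewrite 2 [di]; group
    rw [k, map_mul, map_mul, pi_d5 hd (S.pr w), map_inv, hd, dd_x4, mul_inv_cancel_right]
  have m2 : ι (act (π δ⁻¹) a) ∈ B := by
    rw [← cj_i h _ ha, ← e]
    have := mul_mem ((mem_normalizer_iff.1 (S.nm _ (by rw [p54]; exact row_x54 w)) _).1
      (S.mem w')) (inv_mem (S.mem w'))
    convert this using 1
    group
  refine ⟨a, inU_of_dd ⟨ha, (S.hz a ha).1 m1⟩ ⟨act_alt _ ha, (S.hz _ (act_alt _ ha)).1 m2⟩ ?_, e⟩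
  rw [← act_mul, map_inv, hd, mul_inv_cancel, act_one]

theorem fin1 (h : Ex ι π) (hp : HasAp ι π 5) (hE : ExtStmt) {δ : N} (hd : π δ = dd)
    (h3 : δ ^ 3 = 1) : ∃ s, Fin1 ι π δ s := by
  obtain ⟨B, s, S, hg, ht⟩ := sec1 h hp hE
  have lg : ∀ g : SL3, ∃ n, π n = emb g ∧ n * δ * n⁻¹ = δ ∧
      ∀ w, ∃ u, InU u ∧ n * s w * n⁻¹ = s (g.1 *ᵥ w) * ι u := by
    intro g
    obtain ⟨n, hn, e⟩ := lift_delta h h3 h3 (y := emb g) (by rw [hd, emb_dd])
    obtain ⟨ε, r⟩ := hg g n hn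
    refine ⟨ι (ε • z45) * n, by rw [map_mul, pi_i h (alt45 ε), one_mul, hn], ?_,
      Rel.fix h S.pr r⟩
    calc ι (ε • z45) * n * δ * (ι (ε • z45) * n)⁻¹
        = ι (ε • z45) * (n * δ * n⁻¹) * (ι (ε • z45))⁻¹ := by group
      _ = δ := by rw [e, ← d_z45 h hd, mul_inv_cancel_right]
  choose c hc ec using comm_U h S hd h3
  have c5 : ∀ w {u : M5}, InU u → s w * ι u = ι u * s w := fun w u hu =>
    u_comm h hu (by rw [S.pr, fix_x5 w hu])
  have c4 : ∀ w {u : M5}, InU u → δ * s w * δ⁻¹ * ι u = ι u * (δ * s w * δ⁻¹) := fun w u hu =>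
    u_comm h hu (by rw [pi_d5 hd (S.pr w), fix_x4 w hu])
  have cd : ∀ {u : M5}, InU u → δ * ι u = ι u * δ := fun hu =>
    u_comm h hu (by rw [hd, fix_dd hu])
  have eqv : ∀ (g : SL3) w w', c (g.1 *ᵥ w) (g.1 *ᵥ w') = act (emb g) (c w w') := by
    intro g w w'
    obtain ⟨n, hn, e, r⟩ := lg g
    obtain ⟨u, hu, e1⟩ := r w
    obtain ⟨u', hu', e2⟩ := r w'
    apply iinj h (hc _ _).1 (act_alt _ (hc _ _).1)
    rw [← hn, ← cj_i h n (hc _ _).1, ← ec, ← ec]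
    have e3 : n * (δ * s w' * δ⁻¹) * n⁻¹ = δ * s (g.1 *ᵥ w') * δ⁻¹ * ι u' := by
      calc n * (δ * s w' * δ⁻¹) * n⁻¹
          = (n * δ * n⁻¹) * (n * s w' * n⁻¹) * (n * δ * n⁻¹)⁻¹ := by group
        _ = δ * s (g.1 *ᵥ w') * δ⁻¹ * (δ * ι u' * δ⁻¹) := by rw [e, e2]; group
        _ = _ := by rw [cd hu', mul_inv_cancel_right]
    have k1 := c5 (g.1 *ᵥ w) hu'
    have k2 := c4 (g.1 *ᵥ w') hu
    have k3 : ι u * ι u' = ι u' * ι u := by
      rw [← h.add _ _ hu.1 hu'.1, add_comm, h.add _ _ hu'.1 hu.1]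
    symm
    calc n * (s w * (δ * s w' * δ⁻¹) * (s w)⁻¹ * (δ * s w' * δ⁻¹)⁻¹) * n⁻¹
        = (n * s w * n⁻¹) * (n * (δ * s w' * δ⁻¹) * n⁻¹) * (n * s w * n⁻¹)⁻¹ *
          (n * (δ * s w' * δ⁻¹) * n⁻¹)⁻¹ := by group
      _ = _ := by
        rw [e1, e3]
        generalize δ * s (g.1 *ᵥ w') * δ⁻¹ = y at k2 ⊢
        generalize s (g.1 *ᵥ w) = x at k1 ⊢
        calc x * ι u * (y * ι u') * (x * ι u)⁻¹ * (y * ι u')⁻¹
            = x * (ι u * y) * ι u' * (ι u)⁻¹ * (ι u' * x)⁻¹ * y⁻¹ := by group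
          _ = x * y * (ι u * ι u') * (ι u)⁻¹ * (x * ι u')⁻¹ * y⁻¹ := by rw [← k2, k1]; group
          _ = _ := by rw [k3]; group
  obtain ⟨q1, q2, q3, q4, q5⟩ := gf
  have hA : c f1 f2 = c f1 f2 0 1 • ww f1 f2 := by
    have a1 := eqv g13 f1 f2
    have a2 := eqv g23 f1 f2
    rw [q1, q2] at a1
    rw [q3, q4] at a2
    have a3 := (hc f1 f2).eq
    exact a3.trans (fixA _ _ _ (a3 ▸ a1.symm) (a3 ▸ a2.symm))
  have hB : c f1 f1 = 0 := by
    have a1 := eqv g13 f1 f1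
    have a2 := eqv g23 f1 f1
    have a4 := eqv g32 f1 f1
    rw [q1] at a1
    rw [q3] at a2
    rw [q5] at a4
    have a3 := (hc f1 f1).eq
    exact a3.trans (fixB _ _ _ (a3 ▸ a1.symm) (a3 ▸ a2.symm) (a3 ▸ a4.symm))
  generalize c f1 f2 0 1 = l at hA
  have hc' : ∀ w w', c w w' = l • ww w w' := by
    intro w w'
    rcases pair w w' with rfl | rfl | ⟨g, rfl, rfl | rfl⟩
    · rw [ww_zero, smul_zero]
      exact h.inj _ (hc _ _).1 (by rw [← ec, S.zero]; group)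
    · rw [ww_comm, ww_zero, smul_zero]
      exact h.inj _ (hc _ _).1 (by rw [← ec, S.zero]; group)
    · rw [eqv, hB, ww_self, smul_zero, act, Matrix.mul_zero, Matrix.zero_mul]
    · rw [eqv, hA, act_smul, emb_ww]
  have a5 : ∀ w, Alt (l • z5 w) := fun w => alt_smul l (alt_wd _ _)
  have a4 : ∀ w, Alt (l • z4 w) := fun w => alt_smul l (alt_wd _ _)
  have aw : ∀ w w', InU (l • ww w w') := fun w w' => (inU_ww w w').smul l
  have pr : ∀ w, π (s w * ι (l • z5 w)) = x5 w := fun w => by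
    rw [map_mul, S.pr, pi_i h (a5 w), mul_one]
  have ad : ∀ w w', s w * ι (l • z5 w) * (s w' * ι (l • z5 w')) =
      s (w + w') * ι (l • z5 (w + w')) * ι (l • ww w' w) := by
    intro w w'
    rw [mul_assoc, ← mul_assoc (ι _), i_mul5 h (S.pr w') (a5 w), S.add, mul_assoc, mul_assoc,
      mul_assoc, ← h.add _ _ (act_alt _ (a5 w)) (a5 w'), ← h.add _ _ (a5 _) (aw _ _).1, act_smul,
      x5_z5, z5_add]
    congr 3
    simp only [smul_add]
    abel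
  refine ⟨fun w => s w * ι (l • z5 w), pr, fun w => ?_, fun w w' => ⟨_, aw w' w, ad w w'⟩,
    fun w w' => ?_, fun g => ?_, ?_⟩
  · have z : w + w = 0 := funext fun i => two_F _
    have z5z : z5 0 = 0 := by decide +kernel
    rw [ad, z, S.zero, z5z, ww_self, smul_zero, i0 h]
    group
  · have k1 : δ * (s w' * ι (l • z5 w')) * δ⁻¹ = δ * s w' * δ⁻¹ * ι (l • z4 w' + l • z5 w') := by
      rw [← smul_add, ← dd_z5, ← act_smul, ← hd, ← cj_i h δ (a5 w')]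
      group
    have k2 := ec w w'
    rw [hc'] at k2
    have k3 := c4 w' (aw w w')
    have k4 := c5 w (aw w w')
    have k5 := i_mul4 h (pi_d5 hd (S.pr w')) (a5 w)
    have k6 := i_mul5 h (S.pr w) ((a4 w').add (a5 w'))
    rw [act_smul, x4_z5] at k5
    rw [act_add, act_smul, act_smul, x5_z4, x5_z5] at k6
    rw [k1]
    generalize δ * s w' * δ⁻¹ = y at k2 k3 k5 ⊢
    have k7 : s w * y = y * s w * ι (l • ww w w') := by
      rw [mul_assoc, k4, ← mul_assoc, k3, ← k2]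
      group
    calc s w * ι (l • z5 w) * (y * ι (l • z4 w' + l • z5 w'))
        = s w * (ι (l • z5 w) * y) * ι (l • z4 w' + l • z5 w') := by group
      _ = y * s w * (ι (l • ww w w') * ι (l • z5 w) * ι (l • z4 w' + l • z5 w')) := by
        rw [k5, ← mul_assoc, k7]; group
      _ = y * s w * (ι (l • z4 w' + l • (z5 w' + ww w w')) * ι (l • z5 w)) := by
        rw [← h.add _ _ (aw _ _).1 (a5 _), ← h.add _ _ ((aw _ _).1.add (a5 _)) ((a4 _).add (a5 _)),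
          ← h.add (l • z4 w' + l • (z5 w' + ww w w')) _
            ((a4 _).add (alt_smul l ((alt_wd _ _).add (inU_ww _ _).1))) (a5 _)]
        congr 2
        simp only [smul_add]
        abel
      _ = y * (ι (l • z4 w' + l • z5 w') * s w) * ι (l • z5 w) := by rw [k6]; group
      _ = _ := by group
  · obtain ⟨n, hn, e, r⟩ := lg g
    refine ⟨n, hn, e, fun w => ?_⟩
    obtain ⟨u, hu, e1⟩ := r w
    refine ⟨u, hu, ?_⟩
    calc n * (s w * ι (l • z5 w)) * n⁻¹ = n * s w * n⁻¹ * (n * ι (l • z5 w) * n⁻¹) := by group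
      _ = _ := by
        rw [e1, cj_i h n (a5 w), hn, act_smul, emb_z5, mul_assoc, mul_assoc,
          ← h.add _ _ hu.1 (a5 _), ← h.add _ _ (a5 _) hu.1, add_comm]
  · have di : δ⁻¹ = δ * δ := by
      rw [inv_eq_iff_mul_eq_one, ← mul_assoc, ← pow_three', h3]
    obtain ⟨t, hn, e⟩ := lift_delta h h3 (δ' := δ⁻¹) (by rw [inv_pow, h3, inv_one]) (y := X 4 5)
      (by rw [di, map_mul, hd, t_dd])
    obtain ⟨ε, r⟩ := ht t hn
    have r' : Rel ι (fun w => s w * ι (l • z5 w)) t 1 ((ε + l) • 1) := by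
      intro w
      obtain ⟨u, hu, e1⟩ := r w
      refine ⟨u, hu, ?_⟩
      calc t * (s w * ι (l • z5 w)) * t⁻¹ = t * s w * t⁻¹ * (t * ι (l • z5 w) * t⁻¹) := by group
        _ = _ := by
          rw [e1, cj_i h t (a5 w), hn, mul_assoc, mul_assoc,
            ← h.add _ _ (alt_zu _ hu) (act_alt _ (a5 _)), act_smul, t_z5]
          simp only [one_mulVec, smul_mulVec]
          rw [← h.add _ _ (a5 _) (alt_zu _ hu), z4_smul, z4_smul]
          congr 2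
          simp only [smul_add, add_smul]
          abel
    refine ⟨ι ((ε + l) • z45) * t, by rw [map_mul, pi_i h (alt45 _), one_mul, hn], ?_, fun w => ?_⟩
    · calc ι ((ε + l) • z45) * t * δ * (ι ((ε + l) • z45) * t)⁻¹
          = ι ((ε + l) • z45) * (t * δ * t⁻¹) * (ι ((ε + l) • z45))⁻¹ := by group
        _ = δ⁻¹ := by
          have cm : Commute δ (ι ((ε + l) • z45)) := d_z45 h hd _
          rw [e, ← cm.inv_left.eq, mul_inv_cancel_right]
    · have := Rel.fix h pr r' w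
      rwa [one_mulVec] at this

theorem inU_of_norm' {a : M5} (h : Alt a) {w : W3} (hw : w ≠ 0) (h1 : act dd a = a)
    (h2 : act (x5 w * x4 w) a = a) : InU a := by
  have s := h.symm
  have e1 : ∀ i j, act dd a i j = a i j := fun i j => by rw [h1]
  have e2 : ∀ i j, act (x5 w * x4 w) a i j = a i j := fun i j => by rw [h2]
  have k : a 3 4 = 0 := by
    by_contra hk
    apply hw
    have a0 := e2 0 3
    have a1 := e2 1 3
    have a2 := e2 2 3
    simp only [act_apply, Fin.sum_univ_five, x54_val] at a0 a1 a2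
    simp [h.2, s 4 3, hk] at a0 a1 a2
    funext i
    fin_cases i
    exacts [a0, a1, a2]
  have a0 := e1 0 3
  have a1 := e1 1 3
  have a2 := e1 2 3
  have b0 := e1 0 4
  have b1 := e1 1 4
  have b2 := e1 2 4
  simp only [act_apply, Fin.sum_univ_five, dd_val] at a0 a1 a2 b0 b1 b2
  simp at a0 a1 a2 b0 b1 b2
  refine ⟨h, fun i => ?_, fun i => ?_⟩
  · fin_cases i
    exacts [b0, b1, b2, h.2 3, (s 4 3).trans k]
  · fin_cases i
    exacts [a0.trans b0, a1.trans b1, a2.trans b2, k, h.2 4]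

theorem norm54 : ∀ w w' : W3, x5 w * x4 w' * (dd * (x5 w * x4 w') * (dd * dd)) *
    (dd * dd * (x5 w * x4 w') * dd) = 1 := by
  intro w w'
  have k : ∀ w w' : W3, (x5 w * x4 w').1 * (dd.1 * (x5 w * x4 w').1 * (dd.1 * dd.1)) *
      (dd.1 * dd.1 * (x5 w * x4 w').1 * dd.1) = 1 := by
    simp only [x54_val, dd_val]
    decide +kernel
  exact Subtype.ext (k w w')

theorem lf : LfStmt.{u} := by
  intro N _ _ ι π h hp _ hE
  obtain ⟨δ, hd, h3⟩ := exists_delta h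
  obtain ⟨s, S⟩ := fin1 h (hp 5 (by simp)) hE hd h3
  have di : δ⁻¹ = δ * δ := by
    rw [inv_eq_iff_mul_eq_one, ← mul_assoc, ← pow_three', h3]
  have cd : ∀ {u : M5}, InU u → δ * ι u * δ⁻¹ = ι u := fun hu => by
    rw [cj_i h δ hu.1, hd, fix_dd hu]
  have c5 : ∀ w {u : M5}, InU u → s w * ι u = ι u * s w := fun w u hu =>
    u_comm h hu (by rw [S.pr, fix_x5 w hu])
  have c4 : ∀ w {u : M5}, InU u → δ * s w * δ⁻¹ * ι u = ι u * (δ * s w * δ⁻¹) := fun w u hu =>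
    u_comm h hu (by rw [pi_d5 hd (S.pr w), fix_x4 w hu])
  have sq' : ∀ w, δ * s w * δ⁻¹ * (δ * s w * δ⁻¹) = 1 := fun w => by
    calc _ = δ * (s w * s w) * δ⁻¹ := by group
      _ = 1 := by rw [S.sq]; group
  have add' : ∀ w w', ∃ u, InU u ∧
      δ * s w * δ⁻¹ * (δ * s w' * δ⁻¹) = δ * s (w + w') * δ⁻¹ * ι u := fun w w' => by
    obtain ⟨u, hu, e⟩ := S.add w w'
    refine ⟨u, hu, ?_⟩
    calc _ = δ * (s w * s w') * δ⁻¹ := by group
      _ = _ := by rw [e]; nth_rewrite 2 [← cd hu]; group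
  obtain ⟨u0, hu0, s0⟩ : ∃ u, InU u ∧ s 0 = ι u := by
    obtain ⟨u, hu, e⟩ := S.add 0 0
    rw [add_zero] at e
    exact ⟨u, hu, mul_left_cancel e⟩
  have ss : ∀ w w', s w * s w' = s w' * s w := fun w w' => by
    obtain ⟨u, hu, e⟩ := S.add w w'
    have k : s w * s w' * (s w * s w') = 1 := by
      rw [e, mul_assoc, ← mul_assoc (ι u), ← c5 _ hu, mul_assoc, isq h hu.1, mul_one, S.sq]
    have k2 := inv_eq_of_mul_eq_one_right k
    rw [_root_.mul_inv_rev, inv_eq_of_mul_eq_one_right (S.sq w),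
      inv_eq_of_mul_eq_one_right (S.sq w')] at k2
    exact k2.symm
  have nrm : ∀ w, ∃ u, InU u ∧ δ * (δ * s w * δ⁻¹) * δ⁻¹ = s w * (δ * s w * δ⁻¹) * ι u := by
    intro w
    by_cases hw : w = 0
    · subst hw
      exact ⟨u0, hu0, by rw [s0, cd hu0, cd hu0, isq h hu0.1, one_mul]⟩
    have p4 := pi_d5 hd (S.pr w)
    obtain ⟨a, ha, e⟩ := (h.ker ((s w * (δ * s w * δ⁻¹))⁻¹ * (δ * (δ * s w * δ⁻¹) * δ⁻¹))).1 (by
      rw [map_mul, map_inv, map_mul π (s w), map_mul π (δ * (δ * s w * δ⁻¹)),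
        map_mul π δ (δ * s w * δ⁻¹), p4, S.pr, map_inv, hd, dd_x4]
      group)
    have e' : δ * (δ * s w * δ⁻¹) * δ⁻¹ = s w * (δ * s w * δ⁻¹) * ι a := by
      rw [← e, mul_inv_cancel_left]
    refine ⟨a, inU_of_norm' ha hw ?_ ?_, e'⟩
    · have k1 : δ * (δ * (δ * s w * δ⁻¹) * δ⁻¹) * δ⁻¹ = s w := by
        calc _ = δ ^ 3 * s w * (δ ^ 3)⁻¹ := by simp only [pow_three']; group
          _ = _ := by rw [h3]; group
      have k2 : δ * (s w * (δ * s w * δ⁻¹) * ι a) * δ⁻¹ =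
          δ * s w * δ⁻¹ * (δ * (δ * s w * δ⁻¹) * δ⁻¹) * (δ * ι a * δ⁻¹) := by group
      rw [← e', k1, e', cj_i h δ ha, hd, ← mul_assoc, ← mul_assoc, ← S.cm, mul_assoc (s w), sq',
        mul_one, mul_assoc, ← h.add _ _ ha (act_alt _ ha), left_eq_mul] at k2
      have k3 := h.inj _ (ha.add (act_alt _ ha)) k2
      calc act dd a = a + (a + act dd a) := by rw [← add_assoc, add_self_M, zero_add]
        _ = a := by rw [k3, add_zero]
    · have k1 : δ * (δ * s w * δ⁻¹) * δ⁻¹ * (δ * (δ * s w * δ⁻¹) * δ⁻¹) = 1 := by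
        calc _ = δ * (δ * s w * δ⁻¹ * (δ * s w * δ⁻¹)) * δ⁻¹ := by group
          _ = 1 := by rw [sq']; group
      have k2 : s w * (δ * s w * δ⁻¹) * (s w * (δ * s w * δ⁻¹)) = 1 := by
        nth_rewrite 2 [S.cm]
        rw [mul_assoc, ← mul_assoc (δ * s w * δ⁻¹), sq', one_mul, S.sq]
      have k3 : π (s w * (δ * s w * δ⁻¹)) = x5 w * x4 w := by rw [map_mul, p4, S.pr]
      rw [e'] at k1
      nth_rewrite 1 [mul_i h _ ha] at k1
      rw [mul_assoc, ← mul_assoc (s w * (δ * s w * δ⁻¹)), k2, one_mul, k3,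
        mul_eq_one_iff_eq_inv, iinv h ha] at k1
      exact iinj h (act_alt _ ha) ha k1
  let Gs : Set N := {x | (∃ w, x = s w) ∨ (∃ w, x = δ * s w * δ⁻¹) ∨ ∃ u, InU u ∧ x = ι u}
  let M : Subgroup N := closure Gs
  have m5 : ∀ w, s w ∈ M := fun w => subset_closure (Or.inl ⟨w, rfl⟩)
  have m4 : ∀ w, δ * s w * δ⁻¹ ∈ M := fun w => subset_closure (Or.inr (Or.inl ⟨w, rfl⟩))
  have mu : ∀ {u}, InU u → ι u ∈ M := fun hu => subset_closure (Or.inr (Or.inr ⟨_, hu, rfl⟩))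
  have cG : ∀ x ∈ Gs, ∀ y ∈ Gs, x * y = y * x := by
    rintro _ (⟨w, rfl⟩ | ⟨w, rfl⟩ | ⟨u, hu, rfl⟩) _ (⟨v, rfl⟩ | ⟨v, rfl⟩ | ⟨v, hv, rfl⟩)
    · exact ss w v
    · exact S.cm w v
    · exact c5 w hv
    · exact (S.cm v w).symm
    · calc _ = δ * (s w * s v) * δ⁻¹ := by group
        _ = _ := by rw [ss]; group
    · exact c4 w hv
    · exact (c5 v hu).symm
    · exact (c4 v hu).symm
    · rw [← h.add _ _ hu.1 hv.1, add_comm, h.add _ _ hv.1 hu.1]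
  have cM : ∀ x ∈ M, ∀ y ∈ M, x * y = y * x := by
    have k1 : M ≤ centralizer Gs := (closure_le _).2 fun x hx y hy => cG y hy x hx
    have k2 : M ≤ centralizer (M : Set N) := (closure_le _).2 fun x hx y hy =>
      (k1 hy x hx).symm
    exact fun x hx y hy => k2 hy x hx
  have nf : ∀ m ∈ M, ∃ w w' u, InU u ∧ m = s w * (δ * s w' * δ⁻¹) * ι u := by
    have st : ∀ x ∈ Gs, ∀ y, (∃ w w' u, InU u ∧ y = s w * (δ * s w' * δ⁻¹) * ι u) →
        ∃ w w' u, InU u ∧ x * y = s w * (δ * s w' * δ⁻¹) * ι u := by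
      rintro _ (⟨v, rfl⟩ | ⟨v, rfl⟩ | ⟨a, ha, rfl⟩) _ ⟨w, w', u, hu, rfl⟩
      · obtain ⟨a, ha, e⟩ := S.add v w
        refine ⟨v + w, w', a + u, ha.add hu, ?_⟩
        rw [← mul_assoc, ← mul_assoc, e, mul_assoc (s _), ← c4 _ ha, h.add _ _ ha.1 hu.1]
        group
      · obtain ⟨a, ha, e⟩ := add' v w'
        refine ⟨w, v + w', a + u, ha.add hu, ?_⟩
        rw [← mul_assoc, ← mul_assoc, ← S.cm, mul_assoc (s _), e, h.add _ _ ha.1 hu.1]
        group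
      · refine ⟨w, w', a + u, ha.add hu, ?_⟩
        rw [← mul_assoc, ← mul_assoc, ← c5 _ ha, mul_assoc (s _), ← c4 _ ha, h.add _ _ ha.1 hu.1]
        group
    have gi : ∀ x ∈ Gs, x⁻¹ = x := by
      rintro _ (⟨v, rfl⟩ | ⟨v, rfl⟩ | ⟨a, ha, rfl⟩)
      exacts [inv_eq_of_mul_eq_one_right (S.sq v), inv_eq_of_mul_eq_one_right (sq' v), iinv h ha.1]
    intro m hm
    induction hm using closure_induction_left with
    | one => exact ⟨0, 0, 0, InU.zero, by rw [s0, cd hu0, isq h hu0.1, i0 h, mul_one]⟩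
    | mul_left x hx y _ ih => exact st x hx y ih
    | inv_mul_cancel x hx y _ ih => rw [gi x hx]; exact st x hx y ih
  have pnf : ∀ w w' {u}, InU u → π (s w * (δ * s w' * δ⁻¹) * ι u) = x5 w * x4 w' :=
    fun w w' u hu => by rw [map_mul, map_mul, S.pr, pi_d5 hd (S.pr w'), pi_i h hu.1, mul_one]
  have MA : ∀ m ∈ M, π m = 1 → ∃ u, InU u ∧ m = ι u := by
    intro m hm e
    obtain ⟨w, w', u, hu, rfl⟩ := nf m hm
    rw [pnf w w' hu] at e
    obtain ⟨rfl, rfl⟩ := x54_one e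
    exact ⟨u, hu, by rw [s0, cd hu0, isq h hu0.1, one_mul]⟩
  have nM : ∀ n : N, (∀ x ∈ Gs, n * x * n⁻¹ ∈ M) → ∀ m ∈ M, n * m * n⁻¹ ∈ M := by
    intro n hn
    have : M ≤ M.comap (MulAut.conj n).toMonoidHom := (closure_le _).2 fun x hx => hn x hx
    exact fun m hm => this hm
  have dM : ∀ m ∈ M, δ * m * δ⁻¹ ∈ M := nM δ (by
    rintro _ (⟨w, rfl⟩ | ⟨w, rfl⟩ | ⟨u, hu, rfl⟩)
    · exact m4 w
    · obtain ⟨u, hu, e⟩ := nrm w
      rw [e]
      exact mul_mem (mul_mem (m5 w) (m4 w)) (mu hu)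
    · rw [cd hu]; exact mu hu)
  have dd' : ∀ m : N, δ⁻¹ * m * δ = δ * (δ * m * δ⁻¹) * δ⁻¹ := fun m => by
    calc δ⁻¹ * m * δ = δ⁻¹ * m * δ⁻¹⁻¹ := by rw [inv_inv]
      _ = _ := by nth_rewrite 1 [di]; nth_rewrite 2 [di]; group
  have dM' : ∀ m ∈ M, δ⁻¹ * m * δ ∈ M := fun m hm => by rw [dd']; exact dM _ (dM _ hm)
  have nmul : ∀ x ∈ M, ∀ y ∈ M, x * y * (δ * (x * y) * δ⁻¹) * (δ⁻¹ * (x * y) * δ) =
      x * (δ * x * δ⁻¹) * (δ⁻¹ * x * δ) * (y * (δ * y * δ⁻¹) * (δ⁻¹ * y * δ)) := by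
    intro x hx y hy
    have k1 := cM _ hy _ (dM x hx)
    have k2 := cM _ (mul_mem hy (dM y hy)) _ (dM' x hx)
    calc _ = x * (y * (δ * x * δ⁻¹)) * (δ * y * δ⁻¹) * (δ⁻¹ * x * δ) * (δ⁻¹ * y * δ) := by group
      _ = x * (δ * x * δ⁻¹) * (y * (δ * y * δ⁻¹) * (δ⁻¹ * x * δ)) * (δ⁻¹ * y * δ) := by
        rw [k1]; simp only [mul_assoc]
      _ = _ := by rw [k2]; simp only [mul_assoc]
  have nu : ∀ {u}, InU u → ι u * (δ * ι u * δ⁻¹) * (δ⁻¹ * ι u * δ) = ι u := fun hu => by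
    rw [dd', cd hu, cd hu, isq h hu.1, one_mul]
  let Fs : Subgroup N :=
    { carrier := {m | m ∈ M ∧ m * (δ * m * δ⁻¹) * (δ⁻¹ * m * δ) = 1}
      one_mem' := ⟨one_mem _, by group⟩
      mul_mem' := by
        rintro x y ⟨hx, ex⟩ ⟨hy, ey⟩
        exact ⟨mul_mem hx hy, by rw [nmul x hx y hy, ex, ey, mul_one]⟩
      inv_mem' := by
        rintro x ⟨hx, ex⟩
        have := nmul x hx x⁻¹ (inv_mem hx)
        rw [ex, one_mul] at this
        exact ⟨inv_mem hx, by rw [← this]; group⟩ }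
  have finj : ∀ f ∈ Fs, π f = 1 → f = 1 := by
    rintro f ⟨hf, e⟩ hp
    obtain ⟨u, hu, rfl⟩ := MA f hf hp
    rw [← e, nu hu]
  have fex : ∀ w w', ∃ f ∈ Fs, π f = x5 w * x4 w' := by
    intro w w'
    have hm : s w * (δ * s w' * δ⁻¹) ∈ M := mul_mem (m5 w) (m4 w')
    have pm : π (s w * (δ * s w' * δ⁻¹)) = x5 w * x4 w' := by
      rw [map_mul, S.pr, pi_d5 hd (S.pr w')]
    generalize s w * (δ * s w' * δ⁻¹) = m at hm pm
    obtain ⟨u, hu, e⟩ := MA _ (mul_mem (mul_mem hm (dM m hm)) (dM' m hm)) (by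
      rw [di]
      simp only [map_mul, pm, hd]
      exact norm54 w w')
    exact ⟨m * ι u, ⟨mul_mem hm (mu hu), by rw [nmul _ hm _ (mu hu), e, nu hu, isq h hu.1]⟩,
      by rw [map_mul, pm, pi_i h hu.1, mul_one]⟩
  have inR : ∀ n : N, (∀ x ∈ Gs, n * x * n⁻¹ ∈ M) → n * δ * n⁻¹ = δ ∨ n * δ * n⁻¹ = δ⁻¹ →
      n ∈ normalizer (Fs : Set N) ⊓ normalizer ((zpowers δ : Subgroup N) : Set N) := by
    intro n hn e
    refine ⟨mem_normalizer_fintype ?_, mem_normalizer_fintype ?_⟩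
    · rintro m ⟨hm, em⟩
      refine ⟨nM n hn m hm, ?_⟩
      have k : n * m * n⁻¹ * (n * δ * n⁻¹ * (n * m * n⁻¹) * (n * δ * n⁻¹)⁻¹) *
          ((n * δ * n⁻¹)⁻¹ * (n * m * n⁻¹) * (n * δ * n⁻¹)) = 1 := by
        calc _ = n * (m * (δ * m * δ⁻¹) * (δ⁻¹ * m * δ)) * n⁻¹ := by group
          _ = 1 := by rw [em]; group
      rcases e with e | e
      · rwa [e] at k
      · rw [e, inv_inv, mul_assoc, cM _ (dM' _ (nM n hn m hm)) _ (dM _ (nM n hn m hm)),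
          ← mul_assoc] at k
        exact k
    · rintro _ ⟨k, rfl⟩
      change n * δ ^ k * n⁻¹ ∈ zpowers δ
      rw [← conj_zpow]
      rcases e with e | e <;> rw [e]
      exacts [zpow_mem (mem_zpowers δ) k, zpow_mem (inv_mem (mem_zpowers δ)) k]
  refine ⟨δ, Fs, normalizer (Fs : Set N) ⊓ normalizer ((zpowers δ : Subgroup N) : Set N), hd, h3,
    finj, fun g => ?_, inf_le_left, inf_le_right, fun a ha => ?_, fun g hg => ?_⟩
  · rw [mem_L0]
    constructor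
    · rintro ⟨f, hf, rfl⟩
      obtain ⟨w, w', u, hu, rfl⟩ := nf f hf.1
      exact ⟨w, w', pnf w w' hu⟩
    · rintro ⟨w, w', rfl⟩
      exact fex w w'
  · rw [mem_U0]
    constructor
    · intro hn
      refine inU_of_fix ha fun w w' => ?_
      obtain ⟨f, hf, pf⟩ := fex w w'
      have k := finj _ (mul_mem ((mem_normalizer_iff.1 hn.1 f).1 hf) (inv_mem hf)) (by
        rw [map_mul, map_mul, map_mul, map_inv, map_inv, pi_i h ha]; group)
      rw [mul_inv_eq_one, mul_inv_eq_iff_eq_mul, mul_i h f ha, pf, mul_left_inj] at k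
      exact (iinj h ha (act_alt _ ha) k).symm
    · intro hu
      refine inR _ (fun x hx => ?_) (Or.inl ?_)
      · exact mul_mem (mul_mem (mu hu) (subset_closure hx)) (inv_mem (mu hu))
      · nth_rewrite 1 [← cd hu]
        rw [inv_mul_cancel_right, mul_inv_cancel_right]
  · rcases hg with hg | rfl
    · obtain ⟨k, rfl⟩ := mem_La g hg
      obtain ⟨n, hn, e, r⟩ := S.lg k
      refine ⟨n, inR n ?_ (Or.inl e), hn⟩
      rintro _ (⟨w, rfl⟩ | ⟨w, rfl⟩ | ⟨u, hu, rfl⟩)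
      · obtain ⟨u, hu, e1⟩ := r w
        rw [e1]
        exact mul_mem (m5 _) (mu hu)
      · obtain ⟨u, hu, e1⟩ := r w
        have k : n * (δ * s w * δ⁻¹) * n⁻¹ = n * δ * n⁻¹ * (n * s w * n⁻¹) * (n * δ * n⁻¹)⁻¹ := by
          group
        rw [k, e, e1]
        exact dM _ (mul_mem (m5 _) (mu hu))
      · rw [cj_i h n hu.1, hn]
        exact mu (emb_U k hu)
    · obtain ⟨n, hn, e, r⟩ := S.lt
      refine ⟨n, inR n ?_ (Or.inr e), hn⟩
      rintro _ (⟨w, rfl⟩ | ⟨w, rfl⟩ | ⟨u, hu, rfl⟩)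
      · obtain ⟨u, hu, e1⟩ := r w
        rw [e1]
        exact mul_mem (m5 _) (mu hu)
      · obtain ⟨u, hu, e1⟩ := r w
        have k : n * (δ * s w * δ⁻¹) * n⁻¹ = n * δ * n⁻¹ * (n * s w * n⁻¹) * (n * δ * n⁻¹)⁻¹ := by
          group
        rw [k, e, e1, inv_inv]
        exact dM' _ (mul_mem (m5 _) (mu hu))
      · rw [cj_i h n hu.1, hn, fix_t hu]
        exact mu hu

end Cfsg.Agent.H87.LpLf
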