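import Cfsg.Agent.H17.LPDefs

/-! Project LP, piece LF: matrix facts. -/

set_option autoImplicit false
set_option linter.unusedSimpArgs false

namespace Cfsg.Agent.H87.LpLf

open Matrix Cfsg.Agent.H17.LP

/-- vectors of `W` -/
abbrev W3 := Fin 3 → F

/-- the inclusion of `W` -/
def up (w : W3) : Fin 5 → F := ![w 0, w 1, w 2, 0, 0]
/-- wedge -/
def wd (u v : Fin 5 → F) : M5 := vecMulVec u v + vecMulVec v u
/-- basis vector -/
def e4 : Fin 5 → F := ![0, 0, 0, 1, 0]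
/-- basis vector -/
def e5 : Fin 5 → F := ![0, 0, 0, 0, 1]
/-- `w ∧ e₄` -/
def z4 (w : W3) : M5 := wd (up w) e4
/-- `w ∧ e₅` -/
def z5 (w : W3) : M5 := wd (up w) e5
/-- `w ∧ w'` -/
def ww (w w' : W3) : M5 := wd (up w) (up w')
/-- `e₄ ∧ e₅` -/
def z45 : M5 := wd e4 e5
/-- the action -/
def act (g : SL5) (a : M5) : M5 := g.1 * a * g.1ᵀ
/-- `Λ² W` -/
def InU (a : M5) : Prop := Alt a ∧ (∀ i, a i 3 = 0) ∧ ∀ i, a i 4 = 0
/-- last row zero -/
def Z5 (a : M5) : Prop := Alt a ∧ ∀ k, a 4 k = 0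
/-- fourth column -/
def r4 (a : M5) : W3 := ![a 0 3, a 1 3, a 2 3]

instance (a : M5) : Decidable (InU a) := by unfold InU; infer_instance

/-- transvections -/
def x5 (w : W3) : SL5 := X 1 5 ^ (w 0).val * X 2 5 ^ (w 1).val * X 3 5 ^ (w 2).val
/-- transvections -/
def x4 (w : W3) : SL5 := X 1 4 ^ (w 0).val * X 2 4 ^ (w 1).val * X 3 4 ^ (w 2).val
/-- the element of order three -/
def dd : SL5 := X 4 5 * X 5 4

theorem x5_val : ∀ w : W3, (x5 w).1 =
    !![1, 0, 0, 0, w 0; 0, 1, 0, 0, w 1; 0, 0, 1, 0, w 2; 0, 0, 0, 1, 0; 0, 0, 0, 0, 1] := by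
  decide +kernel
theorem x4_val : ∀ w : W3, (x4 w).1 =
    !![1, 0, 0, w 0, 0; 0, 1, 0, w 1, 0; 0, 0, 1, w 2, 0; 0, 0, 0, 1, 0; 0, 0, 0, 0, 1] := by
  decide +kernel
theorem dd_val : dd.1 =
    !![1, 0, 0, 0, 0; 0, 1, 0, 0, 0; 0, 0, 1, 0, 0; 0, 0, 0, 0, 1; 0, 0, 0, 1, 1] := by
  decide +kernel
theorem t_val : (X 4 5).1 =
    !![1, 0, 0, 0, 0; 0, 1, 0, 0, 0; 0, 0, 1, 0, 0; 0, 0, 0, 1, 1; 0, 0, 0, 0, 1] := by
  decide +kernel

theorem dd3 : dd * dd * dd = 1 := by decide +kernel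
theorem dd_x5 : ∀ w : W3, dd * x5 w = x4 w * dd := by decide +kernel
theorem dd_x4 : ∀ w : W3, dd * x4 w = x5 w * x4 w * dd := by decide +kernel
theorem t_dd : X 4 5 * dd = dd * dd * X 4 5 := by decide +kernel
theorem x5_sq : ∀ w : W3, x5 w * x5 w = 1 := by decide +kernel
theorem x4_sq : ∀ w : W3, x4 w * x4 w = 1 := by decide +kernel
theorem x54_comm : ∀ w w' : W3, x5 w * x4 w' = x4 w' * x5 w := by
  intro w w'
  apply Subtype.ext
  rw [coe_mul', coe_mul', x5_val, x4_val]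
  ext i j
  fin_cases i <;> fin_cases j <;> simp [mul_apply, Fin.sum_univ_five]
theorem t_x5 : ∀ w : W3, X 4 5 * x5 w = x5 w * X 4 5 := by decide +kernel

theorem x54_val (w w' : W3) : (x5 w * x4 w').1 =
    !![1, 0, 0, w' 0, w 0; 0, 1, 0, w' 1, w 1; 0, 0, 1, w' 2, w 2; 0, 0, 0, 1, 0; 0, 0, 0, 0, 1] := by
  rw [coe_mul', x5_val, x4_val]
  ext i j
  fin_cases i <;> fin_cases j <;> simp [mul_apply, Fin.sum_univ_five]

theorem x54_one {w w' : W3} (h : x5 w * x4 w' = 1) : w = 0 ∧ w' = 0 := by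
  have h1 := x54_val w w'
  rw [h] at h1
  have h2 : ∀ i j, (1 : M5) i j = _ := fun i j => congrFun (congrFun h1 i) j
  constructor <;> funext i <;> fin_cases i
  exacts [(h2 0 4).symm, (h2 1 4).symm, (h2 2 4).symm, (h2 0 3).symm, (h2 1 3).symm, (h2 2 3).symm]

/-- block matrices -/
def embM (m : M3) : M5 :=
  !![m 0 0, m 0 1, m 0 2, 0, 0; m 1 0, m 1 1, m 1 2, 0, 0; m 2 0, m 2 1, m 2 2, 0, 0;
    0, 0, 0, 1, 0; 0, 0, 0, 0, 1]

theorem det_embM (m : M3) : (embM m).det = m.det := by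
  have h : embM m = reindex finSumFinEquiv finSumFinEquiv
      (fromBlocks m 0 0 (1 : Matrix (Fin 2) (Fin 2) F)) := by
    ext i j
    fin_cases i <;> fin_cases j <;> rfl
  rw [h, det_reindex_self, det_fromBlocks_zero₂₁, det_one, mul_one]

/-- the Levi factor -/
def emb (g : SL3) : SL5 := ⟨embM g.1, by rw [det_embM, g.2]⟩

theorem emb_val (g : SL3) : (emb g).1 = embM g.1 := rfl

theorem emb_mul (g h : SL3) : emb (g * h) = emb g * emb h := by
  apply Subtype.ext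
  change embM (g.1 * h.1) = embM g.1 * embM h.1
  ext i j
  fin_cases i <;> fin_cases j <;> simp [embM, mul_apply, Fin.sum_univ_five, Fin.sum_univ_three]

theorem emb_dd (g : SL3) : emb g * dd = dd * emb g := by
  apply Subtype.ext
  rw [coe_mul', coe_mul', dd_val, emb_val]
  ext i j
  fin_cases i <;> fin_cases j <;> simp [embM, mul_apply, Fin.sum_univ_five]

theorem emb_t (g : SL3) : emb g * X 4 5 = X 4 5 * emb g := by
  apply Subtype.ext
  rw [coe_mul', coe_mul', t_val, emb_val]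
  ext i j
  fin_cases i <;> fin_cases j <;> simp [embM, mul_apply, Fin.sum_univ_five]

theorem emb_x5 (g : SL3) (w : W3) : emb g * x5 w = x5 (g.1 *ᵥ w) * emb g := by
  apply Subtype.ext
  rw [coe_mul', coe_mul', x5_val, x5_val, emb_val]
  ext i j
  fin_cases i <;> fin_cases j <;>
    simp [embM, mul_apply, Fin.sum_univ_five, mulVec, dotProduct, Fin.sum_univ_three]

theorem act_apply (g : SL5) (a : M5) (i j : Fin 5) :
    act g a i j = ∑ l, (∑ k, g.1 i k * a k l) * g.1 j l := rfl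

theorem act_mul (g h : SL5) (a : M5) : act (g * h) a = act g (act h a) := by
  simp only [act, coe_mul', transpose_mul, Matrix.mul_assoc]

theorem act_one (a : M5) : act 1 a = a := by simp [act]

theorem act_add (g : SL5) (a b : M5) : act g (a + b) = act g a + act g b := by
  simp only [act, Matrix.mul_add, Matrix.add_mul]

theorem act_smul (g : SL5) (c : F) (a : M5) : act g (c • a) = c • act g a := by
  simp only [act, Matrix.mul_smul, Matrix.smul_mul]

theorem act_alt (g : SL5) {a : M5} (h : Alt a) : Alt (act g a) := h.act _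

theorem act_wd (g : SL5) (u v : Fin 5 → F) : act g (wd u v) = wd (g.1 *ᵥ u) (g.1 *ᵥ v) := by
  simp only [act, wd, Matrix.mul_add, Matrix.add_mul, mul_vecMulVec, vecMulVec_mul,
    vecMul_transpose]

theorem alt_wd (u v : Fin 5 → F) : Alt (wd u v) := by
  refine ⟨?_, fun i => ?_⟩
  · ext i j
    simp [wd, vecMulVec_apply, add_comm, mul_comm]
  · simp only [wd, Matrix.add_apply, vecMulVec_apply]
    rw [mul_comm (v i), two_F]

theorem alt_smul (c : F) {a : M5} (h : Alt a) : Alt (c • a) :=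
  ⟨by rw [transpose_smul, h.1], fun i => by simp [h.2 i]⟩

theorem InU.zero : InU 0 := ⟨Alt.zero, fun _ => rfl, fun _ => rfl⟩

theorem InU.add {a b : M5} (ha : InU a) (hb : InU b) : InU (a + b) :=
  ⟨ha.1.add hb.1, fun i => by simp [ha.2.1 i, hb.2.1 i], fun i => by simp [ha.2.2 i, hb.2.2 i]⟩

theorem InU.smul (c : F) {a : M5} (ha : InU a) : InU (c • a) :=
  ⟨alt_smul c ha.1, fun i => by simp [ha.2.1 i], fun i => by simp [ha.2.2 i]⟩

theorem inU_ww : ∀ w w' : W3, InU (ww w w') := by decide +kernel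

theorem z4_add : ∀ w w' : W3, z4 (w + w') = z4 w + z4 w' := by decide +kernel
theorem z5_add : ∀ w w' : W3, z5 (w + w') = z5 w + z5 w' := by decide +kernel
theorem z4_zero : z4 0 = 0 := by decide +kernel
theorem z4_smul : ∀ (c : F) (w : W3), z4 (c • w) = c • z4 w := by decide +kernel
theorem ww_self : ∀ w : W3, ww w w = 0 := by decide +kernel
theorem ww_comm (w w' : W3) : ww w w' = ww w' w := add_comm _ _
theorem ww_zero : ∀ w : W3, ww 0 w = 0 := by decide +kernel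

theorem Z5_z4 (v : W3) {u : M5} (h : InU u) : Z5 (z4 v + u) :=
  ⟨(alt_wd _ _).add h.1, fun k => by
    rw [Matrix.add_apply, h.1.symm, h.2.2, add_zero]
    revert v k
    decide +kernel⟩

theorem fix_U {y : SL5} (hy : ∀ i, y.1 i 0 = (1 : M5) i 0 ∧ y.1 i 1 = (1 : M5) i 1 ∧
    y.1 i 2 = (1 : M5) i 2) {u : M5} (h : InU u) : act y u = u := by
  have h3 : ∀ i, u 3 i = 0 := fun i => by rw [h.1.symm, h.2.1]
  have h4 : ∀ i, u 4 i = 0 := fun i => by rw [h.1.symm, h.2.2]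
  ext i j
  simp only [act, mul_apply, transpose_apply, Fin.sum_univ_five, h.2.1, h.2.2, h3, h4, hy,
    mul_zero, zero_mul, add_zero]
  fin_cases i <;> fin_cases j <;> simp [one_apply, h.2.1, h.2.2, h3, h4]

theorem fix_x5 (w : W3) {u : M5} (h : InU u) : act (x5 w) u = u :=
  fix_U (by revert w; decide +kernel) h
theorem fix_x4 (w : W3) {u : M5} (h : InU u) : act (x4 w) u = u :=
  fix_U (by revert w; decide +kernel) h
theorem fix_dd {u : M5} (h : InU u) : act dd u = u := fix_U (by decide +kernel) h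
theorem fix_t {u : M5} (h : InU u) : act (X 4 5) u = u := fix_U (by decide +kernel) h

theorem emb_U (g : SL3) {u : M5} (h : InU u) : InU (act (emb g) u) := by
  refine ⟨act_alt _ h.1, fun i => ?_, fun i => ?_⟩ <;>
    simp only [act_apply, Fin.sum_univ_five, h.2.1, h.2.2, emb_val] <;> simp [embM]

theorem emb_up (g : SL3) (w : W3) : (emb g).1 *ᵥ up w = up (g.1 *ᵥ w) := by
  funext i
  fin_cases i <;>
    simp [emb_val, embM, up, mulVec, dotProduct, Fin.sum_univ_five, Fin.sum_univ_three]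

theorem emb_e4 (g : SL3) : (emb g).1 *ᵥ e4 = e4 := by
  funext i
  fin_cases i <;> simp [emb_val, embM, e4, mulVec, dotProduct, Fin.sum_univ_five]

theorem emb_e5 (g : SL3) : (emb g).1 *ᵥ e5 = e5 := by
  funext i
  fin_cases i <;> simp [emb_val, embM, e5, mulVec, dotProduct, Fin.sum_univ_five]

theorem emb_z4 (g : SL3) (w : W3) : act (emb g) (z4 w) = z4 (g.1 *ᵥ w) := by
  rw [z4, act_wd, emb_up, emb_e4, z4]
theorem emb_z5 (g : SL3) (w : W3) : act (emb g) (z5 w) = z5 (g.1 *ᵥ w) := by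
  rw [z5, act_wd, emb_up, emb_e5, z5]
theorem emb_ww (g : SL3) (w w' : W3) : act (emb g) (ww w w') = ww (g.1 *ᵥ w) (g.1 *ᵥ w') := by
  rw [ww, act_wd, emb_up, emb_up, ww]

theorem t_z4 : ∀ w : W3, act (X 4 5) (z4 w) = z4 w := by decide +kernel
theorem t_z5 : ∀ w : W3, act (X 4 5) (z5 w) = z5 w + z4 w := by decide +kernel
theorem dd_z5 : ∀ w : W3, act dd (z5 w) = z4 w + z5 w := by decide +kernel
theorem dd_z45 : act dd z45 = z45 := by decide +kernel
theorem x5_z5 : ∀ w w' : W3, act (x5 w) (z5 w') = z5 w' + ww w w' := by decide +kernel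
theorem x5_z4 : ∀ w w' : W3, act (x5 w) (z4 w') = z4 w' := by decide +kernel
theorem x4_z5 : ∀ w w' : W3, act (x4 w) (z5 w') = z5 w' := by decide +kernel
theorem z45_34 : z45 3 4 = 1 := by decide +kernel

theorem Z5.dec {a : M5} (h : Z5 a) : InU (z4 (r4 a) + a) := by
  have h4 : ∀ i, a i 4 = 0 := fun i => by rw [h.1.symm, h.2]
  refine ⟨(alt_wd _ _).add h.1, fun i => ?_, fun i => ?_⟩
  · fin_cases i <;> simp [z4, wd, r4, up, e4, vecMulVec_apply, two_F, h.1.2, h.2]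
  · fin_cases i <;> simp [z4, wd, r4, up, e4, vecMulVec_apply, h4]

theorem z4_inj {v v' : W3} {u u' : M5} (hu : InU u) (hu' : InU u') (e : z4 v + u = z4 v' + u') :
    v = v' := by
  have h : ∀ i j, (z4 v + u) i j = (z4 v' + u') i j := fun i j => by rw [e]
  funext i
  fin_cases i
  · simpa [z4, wd, up, e4, vecMulVec_apply, hu.2.1, hu'.2.1] using h 0 3
  · simpa [z4, wd, up, e4, vecMulVec_apply, hu.2.1, hu'.2.1] using h 1 3
  · simpa [z4, wd, up, e4, vecMulVec_apply, hu.2.1, hu'.2.1] using h 2 3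

theorem comm_x5 (w : W3) {a : M5} (h : Alt a) : InU (z4 (a 3 4 • w) + (act (x5 w) a + a)) := by
  have s := h.symm
  refine ⟨(alt_wd _ _).add ((act_alt _ h).add h), fun i => ?_, fun i => ?_⟩
  · simp only [Matrix.add_apply, act_apply, Fin.sum_univ_five, x5_val]
    have e : ∀ x y z : F, x * y + (z + y * x + z) = 0 := by decide
    fin_cases i <;> simp [z4, wd, up, e4, vecMulVec_apply, h.2, s 4 3, two_F, e]
  · simp only [Matrix.add_apply, act_apply, Fin.sum_univ_five, x5_val]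
    fin_cases i <;> simp [z4, wd, up, e4, vecMulVec_apply, h.2, two_F]

theorem inU_of_dd {a b : M5} (ha : Z5 a) (hb : Z5 b) (e : act dd b = a) : InU a := by
  have h4 : ∀ i, b i 4 = 0 := fun i => by rw [hb.1.symm, hb.2]
  refine ⟨ha.1, fun i => ?_, fun i => by rw [ha.1.symm, ha.2]⟩
  rw [← e]
  simp only [act_apply, Fin.sum_univ_five, h4, dd_val]
  simp

theorem inU_of_norm {a : M5} (h : Alt a) {w : W3} (hw : w ≠ 0) (h1 : act dd a = act (x5 w) a)
    (h2 : act (x5 w * x4 w) a = a) : InU a := by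
  have s := h.symm
  have e1 : ∀ i j, act dd a i j = act (x5 w) a i j := fun i j => by rw [h1]
  have e2 : ∀ i j, act (x5 w * x4 w) a i j = a i j := fun i j => by rw [h2]
  have k : a 3 4 = 0 := by
    by_contra hk
    apply hw
    have a0 := e2 0 3
    have a1 := e2 1 3
    have a2 := e2 2 3
    simp only [act_apply, Fin.sum_univ_five, x54_val] at a0 a1 a2
    simp [h.2, s 4 3, hk] at a0 a1 a2
    funext i
    fin_cases i
    exacts [a0, a1, a2]
  have a0 := e1 0 3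
  have a1 := e1 1 3
  have a2 := e1 2 3
  have b0 := e1 0 4
  have b1 := e1 1 4
  have b2 := e1 2 4
  simp only [act_apply, Fin.sum_univ_five, x5_val, dd_val] at a0 a1 a2 b0 b1 b2
  simp [h.2, s 4 3, k] at a0 a1 a2 b0 b1 b2
  refine ⟨h, fun i => ?_, fun i => ?_⟩
  · fin_cases i
    exacts [b0, b1, b2, h.2 3, (s 4 3).trans k]
  · fin_cases i
    exacts [a0.trans b0, a1.trans b1, a2.trans b2, k, h.2 4]

theorem inU_of_fix {a : M5} (h : Alt a) (h1 : ∀ w w', act (x5 w * x4 w') a = a) : InU a := by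
  have s := h.symm
  have e : ∀ w w' i j, act (x5 w * x4 w') a i j = a i j := fun w w' i j => by rw [h1]
  have a0 := e ![0, 1, 0] 0 1 0
  have a1 := e ![1, 0, 0] 0 0 1
  have a2 := e ![1, 0, 0] 0 0 2
  have a3 := e ![1, 0, 0] 0 0 3
  have b0 := e 0 ![0, 1, 0] 1 0
  have b1 := e 0 ![1, 0, 0] 0 1
  have b2 := e 0 ![1, 0, 0] 0 2
  simp only [act_apply, Fin.sum_univ_five, x54_val] at a0 a1 a2 a3 b0 b1 b2
  simp [h.2] at a0 a1 a2 a3 b0 b1 b2
  refine ⟨h, fun i => ?_, fun i => ?_⟩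
  · fin_cases i
    exacts [(s 0 3).trans b0, (s 1 3).trans b1, (s 2 3).trans b2, h.2 3, a3]
  · fin_cases i
    exacts [(s 0 4).trans a0, (s 1 4).trans a1, (s 2 4).trans a2, (s 3 4).trans a3, h.2 4]

/-- coordinates on `Λ² W` -/
def uM (a b c : F) : M5 :=
  !![0, a, b, 0, 0; a, 0, c, 0, 0; b, c, 0, 0, 0; 0, 0, 0, 0, 0; 0, 0, 0, 0, 0]

theorem InU.eq {u : M5} (h : InU u) : u = uM (u 0 1) (u 0 2) (u 1 2) := by
  have s := h.1.symm
  have h3 : ∀ i, u 3 i = 0 := fun i => by rw [h.1.symm, h.2.1]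
  have h4 : ∀ i, u 4 i = 0 := fun i => by rw [h.1.symm, h.2.2]
  ext i j
  fin_cases i <;> fin_cases j <;>
    simp [uM, h.1.2, h.2.1, h.2.2, h3, h4, s 1 0, s 2 0, s 2 1]

/-- generators -/
def g12 : SL3 := ⟨!![1, 1, 0; 0, 1, 0; 0, 0, 1], by decide⟩
/-- generators -/
def g13 : SL3 := ⟨!![1, 0, 1; 0, 1, 0; 0, 0, 1], by decide⟩
/-- generators -/
def g23 : SL3 := ⟨!![1, 0, 0; 0, 1, 1; 0, 0, 1], by decide⟩
/-- generators -/
def g32 : SL3 := ⟨!![1, 0, 0; 0, 1, 0; 0, 1, 1], by decide⟩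
/-- generators -/
def g31 : SL3 := ⟨!![1, 0, 0; 0, 1, 0; 1, 0, 1], by decide⟩
/-- basis -/
def f1 : W3 := ![1, 0, 0]
/-- basis -/
def f2 : W3 := ![0, 1, 0]

theorem fixA : ∀ a b c : F, act (emb g13) (uM a b c) = uM a b c →
    act (emb g23) (uM a b c) = uM a b c → uM a b c = a • ww f1 f2 := by decide +kernel

theorem fixB : ∀ a b c : F, act (emb g13) (uM a b c) = uM a b c →
    act (emb g23) (uM a b c) = uM a b c → act (emb g32) (uM a b c) = uM a b c → uM a b c = 0 := by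
  decide +kernel

theorem gf : g13.1 *ᵥ f1 = f1 ∧ g13.1 *ᵥ f2 = f2 ∧ g23.1 *ᵥ f1 = f1 ∧ g23.1 *ᵥ f2 = f2 ∧
    g32.1 *ᵥ f1 = f1 := by decide +kernel

theorem pair0 : ∀ w w' : W3, w = 0 ∨ w' = 0 ∨ ∃ v v' : W3, (w' = w ∨ w' = v) ∧
    w 0 * v 1 * v' 2 - w 0 * v' 1 * v 2 - v 0 * w 1 * v' 2 + v 0 * v' 1 * w 2 +
      v' 0 * w 1 * v 2 - v' 0 * v 1 * w 2 = 1 := by decide +kernel

theorem pair (w w' : W3) : w = 0 ∨ w' = 0 ∨ ∃ g : SL3, g.1 *ᵥ f1 = w ∧
    (g.1 *ᵥ f1 = w' ∨ g.1 *ᵥ f2 = w') := by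
  rcases pair0 w w' with h | h | ⟨v, v', h, hd⟩
  · exact Or.inl h
  · exact Or.inr (Or.inl h)
  refine Or.inr (Or.inr ⟨⟨!![w 0, v 0, v' 0; w 1, v 1, v' 1; w 2, v 2, v' 2], by
    rw [det_fin_three]; simpa using hd⟩, ?_, ?_⟩)
  · funext i
    fin_cases i <;> simp [f1, mulVec, dotProduct, Fin.sum_univ_three]
  · refine h.imp (fun h => ?_) fun h => ?_ <;> subst h <;> funext i <;>
      fin_cases i <;> simp [f1, f2, mulVec, dotProduct, Fin.sum_univ_three]

theorem scal0 : ∀ a b c d e f g h i : F,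
    (∃ ε : F, !![a, b, c; d, e, f; g, h, i] * g12.1 = g12.1 * !![a, b, c; d, e, f; g, h, i] + ε • g12.1) →
    (∃ ε : F, !![a, b, c; d, e, f; g, h, i] * g23.1 = g23.1 * !![a, b, c; d, e, f; g, h, i] + ε • g23.1) →
    (∃ ε : F, !![a, b, c; d, e, f; g, h, i] * g31.1 = g31.1 * !![a, b, c; d, e, f; g, h, i] + ε • g31.1) →
    !![a, b, c; d, e, f; g, h, i] = a • (1 : M3) := by decide +kernel

theorem scal (τ : M3) (h : ∀ g : SL3, ∃ ε : F, τ * g.1 = g.1 * τ + ε • g.1) :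
    ∃ ε : F, τ = ε • (1 : M3) := by
  rw [eta_fin_three τ] at h ⊢
  exact ⟨_, scal0 _ _ _ _ _ _ _ _ _ (h _) (h _) (h _)⟩

theorem mem_L0 (g : SL5) : lv g ∈ L0 ↔ ∃ w w', g = x5 w * x4 w' := by
  constructor
  · intro h
    have h2 := (mem_Pat.1 h).2
    refine ⟨![g.1 0 4, g.1 1 4, g.1 2 4], ![g.1 0 3, g.1 1 3, g.1 2 3], Subtype.ext ?_⟩
    rw [x54_val]
    ext i j
    fin_cases i <;> fin_cases j <;> first | rfl | exact h2 _ _ rfl
  · rintro ⟨w, w', rfl⟩
    refine mem_Pat.2 ⟨fun _ _ _ => rfl, fun i j => ?_⟩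
    change _ → (x5 w * x4 w').1 i j = _
    rw [x54_val]
    fin_cases i <;> fin_cases j <;> first | exact fun _ => rfl | exact fun h => absurd h (by decide)

theorem mem_La (g : SL5) (h : lv g ∈ La) : ∃ k, g = emb k := by
  have h2 := (mem_Pat.1 h).2
  have h3 : g.1 = embM !![g.1 0 0, g.1 0 1, g.1 0 2; g.1 1 0, g.1 1 1, g.1 1 2;
      g.1 2 0, g.1 2 1, g.1 2 2] := by
    ext i j
    fin_cases i <;> fin_cases j <;> first | rfl | exact h2 _ _ rfl
  exact ⟨⟨_, by rw [← det_embM, ← h3, g.2]⟩, Subtype.ext h3⟩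

theorem mem_U0 (a : M5) (h : Alt a) : (⟨a, 1, h⟩ : N0) ∈ U0 ↔ InU a := by
  constructor
  · intro hm
    have h2 := (mem_Pat.1 hm).1
    refine ⟨h, fun i => ?_, fun i => ?_⟩ <;> fin_cases i <;> exact h2 _ _ rfl
  · intro hu
    have h3 : ∀ i, a 3 i = 0 := fun i => by rw [h.symm, hu.2.1]
    have h4 : ∀ i, a 4 i = 0 := fun i => by rw [h.symm, hu.2.2]
    refine mem_Pat.2 ⟨fun i j => ?_, fun _ _ _ => rfl⟩
    change _ → a i j = 0
    fin_cases i <;> fin_cases j <;>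
      first | exact fun h => absurd h (by decide) | exact fun _ => hu.2.1 _ |
        exact fun _ => hu.2.2 _ | exact fun _ => h3 _ | exact fun _ => h4 _

theorem ind3 (P : W3 → Prop) (h0 : P 0) (ha : ∀ w w', P w → P w' → P (w + w'))
    (h1 : ∀ j, P (Pi.single j 1)) (w : W3) : P w := by
  have h : ∀ w : W3, w = 0 ∨ (∃ i, w = Pi.single i 1) ∨
      (∃ i j, w = Pi.single i 1 + Pi.single j 1) ∨
      w = Pi.single 0 1 + Pi.single 1 1 + Pi.single 2 1 := by decide +kernel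
  rcases h w with rfl | ⟨i, rfl⟩ | ⟨i, j, rfl⟩ | rfl
  exacts [h0, h1 i, ha _ _ (h1 i) (h1 j), ha _ _ (ha _ _ (h1 0) (h1 1)) (h1 2)]

end Cfsg.Agent.H87.LpLf
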