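import Cfsg.Agent.H87.LpLfA

/-! Project LP, piece LF: the invariant section over the transvections `x_{w5}`. -/

set_option autoImplicit false

namespace Cfsg.Agent.H87.LpLf

open Matrix Subgroup Cfsg.Agent.H17.LP

universe u

variable {N : Type u} [Group N] {ι : M5 → N} {π : N →* SL5}

theorem i0 (h : Ex ι π) : ι 0 = 1 := by
  have := h.add 0 0 Alt.zero Alt.zero
  rw [add_zero] at this
  exact mul_eq_left.1 this.symm

theorem isq (h : Ex ι π) {a : M5} (ha : Alt a) : ι a * ι a = 1 := by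
  rw [← h.add a a ha ha, add_self_M, i0 h]

theorem iinv (h : Ex ι π) {a : M5} (ha : Alt a) : (ι a)⁻¹ = ι a :=
  inv_eq_of_mul_eq_one_right (isq h ha)

theorem iinj (h : Ex ι π) {a b : M5} (ha : Alt a) (hb : Alt b) (e : ι a = ι b) : a = b := by
  have h1 := h.inj _ (ha.add hb) (by rw [h.add a b ha hb, e, isq h hb])
  calc a = a + b + b := by rw [add_assoc, add_self_M, add_zero]
    _ = b := by rw [h1, zero_add]

theorem pi_i (h : Ex ι π) {a : M5} (ha : Alt a) : π (ι a) = 1 := (h.ker _).2 ⟨a, ha, rfl⟩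

theorem mul_i (h : Ex ι π) (n : N) {a : M5} (ha : Alt a) : n * ι a = ι (act (π n) a) * n := by
  rw [act, ← h.act n a ha, inv_mul_cancel_right]

theorem cj_i (h : Ex ι π) (n : N) {a : M5} (ha : Alt a) : n * ι a * n⁻¹ = ι (act (π n) a) :=
  h.act n a ha

theorem lift_eq (h : Ex ι π) {n n' : N} (e : π n = π n') : ∃ a, Alt a ∧ n = ι a * n' := by
  obtain ⟨a, ha, e'⟩ := (h.ker (n * n'⁻¹)).1 (by rw [map_mul, map_inv, e, mul_inv_cancel])
  exact ⟨a, ha, by rw [← e', inv_mul_cancel_right]⟩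

theorem i_mul5 (h : Ex ι π) {b : N} {w : W3} (hb : π b = x5 w) {a : M5} (ha : Alt a) :
    ι a * b = b * ι (act (x5 w) a) := by
  rw [mul_i h b (act_alt _ ha), hb, ← act_mul, x5_sq, act_one]

theorem i_mul4 (h : Ex ι π) {b : N} {w : W3} (hb : π b = x4 w) {a : M5} (ha : Alt a) :
    ι a * b = b * ι (act (x4 w) a) := by
  rw [mul_i h b (act_alt _ ha), hb, ← act_mul, x4_sq, act_one]

/-- the action of `n` on a section modulo `U` -/
def Rel (ι : M5 → N) (s : W3 → N) (n : N) (g C : M3) : Prop :=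
  ∀ w, ∃ u, InU u ∧ n * s w * n⁻¹ = s (g *ᵥ w) * ι (z4 (C *ᵥ w) + u)

/-- elements acting as `g` -/
structure Ok (y : SL5) (g : M3) : Prop where
  row : ∀ k, y.1 (ix 5) k = (1 : M5) (ix 5) k
  cj : ∀ w, y * x5 w = x5 (g *ᵥ w) * y
  pu : ∀ u, InU u → InU (act y u)
  pz : ∀ v, act y (z4 v) = z4 (g *ᵥ v)

theorem ok_emb (g : SL3) : Ok (emb g) g.1 :=
  ⟨fun k => by fin_cases k <;> rfl, emb_x5 g, fun _ => emb_U g, emb_z4 g⟩

theorem ok_t : Ok (X 4 5) 1 :=
  ⟨by decide +kernel, fun w => by rw [one_mulVec, t_x5], fun u hu => by rwa [fix_t hu],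
    fun v => by rw [one_mulVec, t_z4]⟩

theorem ok_one : Ok 1 1 :=
  ⟨fun _ => rfl, fun w => by rw [one_mulVec, one_mul, mul_one], fun u hu => by rwa [act_one],
    fun v => by rw [one_mulVec, act_one]⟩

theorem alt_zu (v : W3) {u : M5} (hu : InU u) : Alt (z4 v + u) := (alt_wd _ _).add hu.1

theorem Rel.uniq (h : Ex ι π) {s : W3 → N} {n : N} {g C C' : M3} (r : Rel ι s n g C)
    (r' : Rel ι s n g C') : C = C' := by
  have : ∀ w, C *ᵥ w = C' *ᵥ w := fun w => by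
    obtain ⟨u, hu, e⟩ := r w
    obtain ⟨u', hu', e'⟩ := r' w
    exact z4_inj hu hu' (iinj h (alt_zu _ hu) (alt_zu _ hu') (mul_left_cancel (e.symm.trans e')))
  exact Matrix.toLin'.injective (LinearMap.ext this)

theorem Rel.comp (h : Ex ι π) {s : W3 → N} {n n' : N} {g g' C C' : M3} (ok : Ok (π n) g)
    (r : Rel ι s n g C) (r' : Rel ι s n' g' C') : Rel ι s (n * n') (g * g') (C * g' + g * C') := by
  intro w
  obtain ⟨u', hu', e'⟩ := r' w
  obtain ⟨u, hu, e⟩ := r (g' *ᵥ w)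
  refine ⟨u + act (π n) u', hu.add (ok.pu _ hu'), ?_⟩
  calc n * n' * s w * (n * n')⁻¹ = n * (n' * s w * n'⁻¹) * n⁻¹ := by group
    _ = n * s (g' *ᵥ w) * n⁻¹ * (n * ι (z4 (C' *ᵥ w) + u') * n⁻¹) := by rw [e']; group
    _ = _ := by
      rw [e, cj_i h n (alt_zu _ hu'), act_add, ok.pz, mul_assoc,
        ← h.add _ _ (alt_zu _ hu) (alt_zu _ (ok.pu _ hu')), mulVec_mulVec, add_mulVec, z4_add,
        mulVec_mulVec, mulVec_mulVec]
      congr 2
      abel

theorem Rel.ker (h : Ex ι π) {s : W3 → N} (hs : ∀ w, π (s w) = x5 w) {a : M5} (ha : Alt a) :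
    Rel ι s (ι a) 1 (a 3 4 • 1) := by
  intro w
  refine ⟨_, comm_x5 w ha, ?_⟩
  rw [iinv h ha, i_mul5 h (hs w) ha, one_mulVec, smul_mulVec, one_mulVec, mul_assoc,
    ← h.add _ _ (act_alt _ ha) ha, ← add_assoc, add_self_M, zero_add]

theorem Rel.kmul (h : Ex ι π) {s : W3 → N} (hs : ∀ w, π (s w) = x5 w) {a : M5} (ha : Alt a)
    {n : N} {g C : M3} (r : Rel ι s n g C) : Rel ι s (ι a * n) g (a 3 4 • g + C) := by
  have := Rel.comp h (by rw [pi_i h ha]; exact ok_one) (Rel.ker h hs ha) r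
  rwa [Matrix.one_mul, Matrix.one_mul, Matrix.smul_mul, Matrix.one_mul] at this

theorem Rel.shift (h : Ex ι π) {s : W3 → N} {n : N} {g C : M3} (ok : Ok (π n) g)
    (r : Rel ι s n g C) (m : M3) :
    Rel ι (fun w => s w * ι (z4 (m *ᵥ w))) n g (m * g + C + g * m) := by
  intro w
  obtain ⟨u, hu, e⟩ := r w
  refine ⟨u, hu, ?_⟩
  calc n * (s w * ι (z4 (m *ᵥ w))) * n⁻¹ = n * s w * n⁻¹ * (n * ι (z4 (m *ᵥ w)) * n⁻¹) := by group
    _ = _ := by
      have a4 : ∀ v, Alt (z4 v) := fun v => alt_wd _ _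
      rw [e, cj_i h n (a4 _), ok.pz, mul_assoc, mul_assoc, ← h.add _ _ (alt_zu _ hu) (a4 _),
        ← h.add _ _ (a4 _) (alt_zu _ hu), add_mulVec, add_mulVec, z4_add, z4_add,
        ← mulVec_mulVec, ← mulVec_mulVec]
      congr 2
      rw [← add_assoc, ← add_assoc, ← add_assoc, add_self_M, zero_add]
      abel

/-- the data of the elementary abelian group over the last column -/
structure Sec (ι : M5 → N) (π : N →* SL5) (B : Subgroup N) (s : W3 → N) : Prop where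
  el : ∀ b ∈ B, b * b = 1
  hz : ∀ a, Alt a → (ι a ∈ B ↔ ∀ k, a (ix 5) k = 0)
  nm : ∀ n, (∀ k, (π n).1 (ix 5) k = (1 : M5) (ix 5) k) → n ∈ normalizer (B : Set N)
  mem : ∀ w, s w ∈ B
  pr : ∀ w, π (s w) = x5 w
  add : ∀ w w', s (w + w') = s w * s w'

theorem comm_of_el {B : Subgroup N} (h2 : ∀ a ∈ B, a * a = 1) {a b : N} (ha : a ∈ B)
    (hb : b ∈ B) : a * b = b * a := by
  have h := h2 _ (B.mul_mem ha hb)
  have ha' : a⁻¹ = a := inv_eq_of_mul_eq_one_right (h2 a ha)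
  have hb' : b⁻¹ = b := inv_eq_of_mul_eq_one_right (h2 b hb)
  have : (a * b)⁻¹ = a * b := inv_eq_of_mul_eq_one_right h
  rw [← this, _root_.mul_inv_rev, ha', hb']

theorem pow_val_add {b : N} (hb : b * b = 1) (x y : F) :
    b ^ (x + y).val = b ^ x.val * b ^ y.val := by
  have h : ∀ x y : F, (x + y).val = x.val + y.val ∨ ((x + y).val = 0 ∧ x.val = 1 ∧ y.val = 1) := by
    decide
  rcases h x y with e | ⟨e1, e2, e3⟩
  · rw [e, pow_add]
  · rw [e1, e2, e3, pow_zero, pow_one, hb]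

theorem sec0 (hp : HasAp ι π 5) : ∃ B s, Sec ι π B s := by
  obtain ⟨B, h1, h2, h3, h4⟩ := hp
  have k : ∀ w : W3, ∀ h k, k ≠ ix 5 ∨ h = ix 5 → (x5 w).1 h k = (1 : M5) h k := by
    intro w h k
    rw [x5_val]
    fin_cases h <;> fin_cases k <;> first | exact fun _ => rfl | exact fun h => absurd h (by decide)
  have x1 : x5 ![1, 0, 0] = X 1 5 := by decide +kernel
  have x2 : x5 ![0, 1, 0] = X 2 5 := by decide +kernel
  have x3 : x5 ![0, 0, 1] = X 3 5 := by decide +kernel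
  obtain ⟨b1, m1, p1⟩ := (h3 (X 1 5)).2 (x1 ▸ k _)
  obtain ⟨b2, m2, p2⟩ := (h3 (X 2 5)).2 (x2 ▸ k _)
  obtain ⟨b3, m3, p3⟩ := (h3 (X 3 5)).2 (x3 ▸ k _)
  refine ⟨B, fun w => b1 ^ (w 0).val * b2 ^ (w 1).val * b3 ^ (w 2).val, h1, h2, h4,
    fun w => mul_mem (mul_mem (pow_mem m1 _) (pow_mem m2 _)) (pow_mem m3 _), fun w => ?_,
    fun w w' => ?_⟩
  · simp only [map_mul, map_pow, p1, p2, p3, x5]
  · simp only [Pi.add_apply, pow_val_add (h1 _ m1), pow_val_add (h1 _ m2), pow_val_add (h1 _ m3)]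
    have c : ∀ (a b : N) (i j : ℕ), a ∈ B → b ∈ B → Commute (a ^ i) (b ^ j) :=
      fun a b i j ha hb => comm_of_el h1 (pow_mem ha _) (pow_mem hb _)
    have k1 := (c b2 b1 (w 1).val (w' 0).val m2 m1).eq
    have k2 := (c b3 b1 (w 2).val (w' 0).val m3 m1).eq
    have k3 := (c b3 b2 (w 2).val (w' 1).val m3 m2).eq
    generalize b1 ^ (w 0).val = a1, b1 ^ (w' 0).val = c1, b2 ^ (w 1).val = a2,
      b2 ^ (w' 1).val = c2, b3 ^ (w 2).val = a3, b3 ^ (w' 2).val = c3 at k1 k2 k3 ⊢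
    calc a1 * c1 * (a2 * c2) * (a3 * c3) = a1 * (c1 * a2) * (c2 * a3) * c3 := by group
      _ = a1 * a2 * (c1 * a3) * c2 * c3 := by rw [← k1, ← k3]; group
      _ = _ := by rw [← k2]; group

theorem Sec.zero {B : Subgroup N} {s : W3 → N} (S : Sec ι π B s) : s 0 = 1 := by
  have := S.add 0 0
  rw [add_zero] at this
  exact mul_eq_left.1 this.symm

theorem Sec.zu {B : Subgroup N} {s : W3 → N} (S : Sec ι π B s) (v : W3) {u : M5} (hu : InU u) :
    ι (z4 v + u) ∈ B := (S.hz _ (alt_zu v hu)).2 (Z5_z4 v hu).2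

theorem Sec.rel (h : Ex ι π) {B : Subgroup N} {s : W3 → N} (S : Sec ι π B s) {n : N} {g : M3}
    (ok : Ok (π n) g) : ∃ C, Rel ι s n g C := by
  have h1 : ∀ w, ∃ v u, InU u ∧ n * s w * n⁻¹ = s (g *ᵥ w) * ι (z4 v + u) := by
    intro w
    have hb : n * s w * n⁻¹ ∈ B := (mem_normalizer_iff.1 (S.nm n ok.row) _).1 (S.mem w)
    obtain ⟨a, ha, e⟩ := (h.ker ((s (g *ᵥ w))⁻¹ * (n * s w * n⁻¹))).1 (by
      rw [map_mul, map_mul, map_mul, map_inv, map_inv, S.pr, S.pr, ok.cj]; group)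
    have hz : Z5 a := ⟨ha, (S.hz a ha).1 (e ▸ mul_mem (inv_mem (S.mem _)) hb)⟩
    refine ⟨r4 a, _, hz.dec, ?_⟩
    rw [← add_assoc, add_self_M, zero_add, ← e, mul_inv_cancel_left]
  choose v u hu e using h1
  refine ⟨Matrix.of fun i j => v (Pi.single j 1) i, ind3 _ ?_ ?_ ?_⟩
  · refine ⟨0, InU.zero, ?_⟩
    rw [mulVec_zero, mulVec_zero, z4_zero, add_zero, i0 h, S.zero]
    group
  · rintro w w' ⟨a, ha, e1⟩ ⟨a', ha', e2⟩
    refine ⟨a + a', ha.add ha', ?_⟩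
    calc n * s (w + w') * n⁻¹ = n * s w * n⁻¹ * (n * s w' * n⁻¹) := by rw [S.add]; group
      _ = _ := by
        rw [e1, e2, mul_assoc, ← mul_assoc (ι _), comm_of_el S.el (S.zu _ ha) (S.mem _),
          mulVec_add, mulVec_add, S.add, z4_add, mul_assoc, mul_assoc,
          ← h.add _ _ (alt_zu _ ha) (alt_zu _ ha')]
        congr 3
        abel
  · intro j
    refine ⟨u (Pi.single j 1), hu _, ?_⟩
    rw [e, mulVec_single_one (Matrix.of _)]
    rfl

theorem Sec.shift (h : Ex ι π) {B : Subgroup N} {s : W3 → N} (S : Sec ι π B s) (m : M3) :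
    Sec ι π B fun w => s w * ι (z4 (m *ᵥ w)) := by
  have a4 : ∀ v, Alt (z4 v) := fun v => alt_wd _ _
  have hz : ∀ v, ι (z4 v) ∈ B := fun v => by simpa using S.zu v InU.zero
  refine ⟨S.el, S.hz, S.nm, fun w => mul_mem (S.mem w) (hz _), fun w => ?_, fun w w' => ?_⟩
  · rw [map_mul, S.pr, pi_i h (a4 _), mul_one]
  · rw [S.add, mulVec_add, z4_add, h.add _ _ (a4 _) (a4 _), mul_assoc, mul_assoc,
      ← mul_assoc (ι _) (s w'), comm_of_el S.el (hz _) (S.mem w'), mul_assoc]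

theorem add_self_3 (a : M3) : a + a = 0 := by ext i j; exact two_F _

theorem sec1 (h : Ex ι π) (hp : HasAp ι π 5) (hE : ExtStmt) : ∃ B s, Sec ι π B s ∧
    (∀ (g : SL3) n, π n = emb g → ∃ ε : F, Rel ι s n g.1 (ε • g.1)) ∧
    ∀ t, π t = X 4 5 → ∃ ε : F, Rel ι s t 1 (ε • 1) := by
  obtain ⟨B, s, S⟩ := sec0 hp
  choose n hn using fun g : SL3 => h.surj (emb g)
  have okn : ∀ g : SL3, Ok (π (n g)) g.1 := fun g => by rw [hn]; exact ok_emb g
  choose C hC using fun g : SL3 => S.rel h (okn g)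
  have gi : ∀ g : SL3, g.1 * (g⁻¹).1 = 1 := fun g => congrArg Subtype.val (mul_inv_cancel g)
  have ig : ∀ g : SL3, (g⁻¹).1 * g.1 = 1 := fun g => congrArg Subtype.val (inv_mul_cancel g)
  obtain ⟨m, hm⟩ := hE (fun g => C g * (g⁻¹).1 + (C g * (g⁻¹).1).trace • (1 : M3)) (by
    intro g k
    obtain ⟨a, ha, e⟩ := lift_eq h (n := n g * n k) (n' := n (g * k))
      (by rw [map_mul, hn, hn, hn, emb_mul])
    have r1 := Rel.comp h (okn g) (hC g) (hC k)
    rw [e] at r1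
    have r2 : a 3 4 • (g.1 * k.1) + C (g * k) = C g * k.1 + g.1 * C k :=
      Rel.uniq h (Rel.kmul h S.pr ha (hC (g * k))) r1
    have i1 : ((g * k)⁻¹).1 = (k⁻¹).1 * (g⁻¹).1 := congrArg Subtype.val (_root_.mul_inv_rev g k)
    have r3 : a 3 4 • (1 : M3) + C (g * k) * ((g * k)⁻¹).1 =
        C g * (g⁻¹).1 + g.1 * (C k * (k⁻¹).1) * (g⁻¹).1 := by
      have := congrArg (· * ((k⁻¹).1 * (g⁻¹).1)) r2
      simp only [Matrix.add_mul, Matrix.smul_mul, Matrix.mul_assoc] at this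
      rw [← Matrix.mul_assoc k.1, gi, Matrix.one_mul, gi] at this
      rw [i1, this]
      simp only [Matrix.mul_assoc]
    have r4 := congrArg trace r3
    rw [trace_add, trace_add, trace_smul, trace_one, trace_mul_cycle, ig, Matrix.one_mul] at r4
    have r5 : (C (g * k) * ((g * k)⁻¹).1).trace =
        a 3 4 + ((C g * (g⁻¹).1).trace + (C k * (k⁻¹).1).trace) := by
      rw [← r4]
      generalize (C (g * k) * ((g * k)⁻¹).1).trace = x
      generalize a 3 4 = y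
      revert x y
      decide
    rw [r5, add_smul, ← add_assoc, add_comm (C (g * k) * _), r3, add_smul, Matrix.mul_add,
      Matrix.add_mul, Matrix.mul_smul, Matrix.smul_mul, Matrix.mul_one, gi]
    abel)
  have S' := S.shift h m
  have hg : ∀ (g : SL3) n', π n' = emb g → ∃ ε : F,
      Rel ι (fun w => s w * ι (z4 (m *ᵥ w))) n' g.1 (ε • g.1) := by
    intro g n' hn'
    obtain ⟨a, ha, rfl⟩ := lift_eq h (hn'.trans (hn g).symm)
    have r1 := Rel.shift h (okn g) (hC g) m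
    have r2 := congrArg (· * g.1) (hm g)
    simp only [Matrix.add_mul, Matrix.smul_mul, Matrix.mul_assoc, ig, Matrix.mul_one,
      Matrix.one_mul] at r2
    have r3 : m * g.1 + C g + g.1 * m = (C g * (g⁻¹).1).trace • g.1 := by
      rw [add_right_comm, ← r2, add_right_comm, add_self_3, zero_add]
    rw [r3] at r1
    exact ⟨_, by rw [add_smul]; exact Rel.kmul h S'.pr ha r1⟩
  refine ⟨B, _, S', hg, fun t ht => ?_⟩
  have okt : Ok (π t) 1 := by rw [ht]; exact ok_t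
  obtain ⟨τ, hτ⟩ := S'.rel h okt
  obtain ⟨ε, e⟩ := scal τ fun g => by
    obtain ⟨ε, r⟩ := hg g (n g) (hn g)
    obtain ⟨a, ha, e⟩ := lift_eq h (n := t * n g) (n' := n g * t)
      (by rw [map_mul, map_mul, ht, hn, emb_t])
    have r1 := Rel.comp h okt hτ r
    have r2 := Rel.kmul h S'.pr ha (Rel.comp h (okn g) r hτ)
    rw [e] at r1
    simp only [Matrix.one_mul, Matrix.mul_one] at r1 r2
    have r3 := Rel.uniq h r1 r2
    refine ⟨a 3 4, add_right_cancel (b := ε • g.1) ?_⟩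
    rw [r3]
    abel
  exact ⟨ε, e ▸ hτ⟩

theorem exists_delta (h : Ex ι π) : ∃ δ, π δ = dd ∧ δ ^ 3 = 1 := by
  obtain ⟨n, hn⟩ := h.surj dd
  have d3 : dd ^ 3 = 1 := by rw [pow_three', dd3]
  obtain ⟨a, ha, e⟩ := (h.ker (n ^ 3)).1 (by rw [map_pow, hn, d3])
  refine ⟨n ^ 4, by rw [map_pow, hn, pow_succ, d3, one_mul], ?_⟩
  rw [← pow_mul, mul_comm, pow_mul, e, show 4 = 2 * 2 from rfl, pow_mul, pow_two (ι a), isq h ha,
    one_pow]

theorem conj_delta (h : Ex ι π) {x y : N} (hx : x ^ 3 = 1) (hy : y ^ 3 = 1) (e : π x = π y) :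
    ∃ b, Alt b ∧ ι b * x * (ι b)⁻¹ = y := by
  obtain ⟨a, ha, rfl⟩ := lift_eq h e
  have a1 := act_alt (π y) ha
  have a2 := act_alt (π y) a1
  have h1 : (ι a * y) ^ 3 = ι (a + act (π y) a + act (π y) (act (π y) a)) * y ^ 3 := by
    rw [h.add _ _ (ha.add a1) a2, h.add _ _ ha a1, ← cj_i h y a1, ← cj_i h y ha]
    simp only [pow_three']
    group
  rw [hx, hy, mul_one] at h1
  refine ⟨_, a1, ?_⟩
  rw [iinv h a1, mul_assoc, mul_assoc, mul_i h y a1, ← mul_assoc, ← mul_assoc, ← h.add _ _ a1 ha,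
    ← h.add _ _ (a1.add ha) a2, add_comm _ a, ← h1, one_mul]

theorem lift_delta (h : Ex ι π) {δ δ' : N} (h3 : δ ^ 3 = 1) (h3' : δ' ^ 3 = 1) {y : SL5}
    (e : y * π δ = π δ' * y) : ∃ n, π n = y ∧ n * δ * n⁻¹ = δ' := by
  obtain ⟨n, hn⟩ := h.surj y
  obtain ⟨b, hb, e'⟩ := conj_delta h (x := n * δ * n⁻¹) (y := δ')
    (by rw [conj_pow, h3]; group) h3' (by rw [map_mul, map_mul, map_inv, hn, e]; group)
  exact ⟨ι b * n, by rw [map_mul, pi_i h hb, one_mul, hn], by rw [← e']; group⟩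

end Cfsg.Agent.H87.LpLf
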