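import Mathlib

/-! The odd part of the centralizer of an element of order four in `SL₂(3^(2n+1))`. -/

set_option autoImplicit false
set_option linter.style.haveILetI false

namespace Cfsg.Agent.H87.O7Ree

open Matrix
open scoped MatrixGroups

theorem exists_m {n : ℕ} (hn : 1 ≤ n) : ∃ k : ℕ, 3 ≤ k ∧ 3 ^ (2 * n + 1) = 8 * k + 3 := by
  have h4 : 3 ^ 3 ≤ 3 ^ (2 * n + 1) := Nat.pow_le_pow_right (by norm_num) (by omega)
  have h5 : 3 ^ (2 * n + 1) % 8 = 3 := by
    rw [pow_succ, pow_mul, Nat.mul_mod, Nat.pow_mod]; norm_num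
  exact ⟨3 ^ (2 * n + 1) / 8, by omega, by omega⟩

theorem torus {F : Type} [Field F] [Fintype F] {n : ℕ} (hn : 1 ≤ n)
    (hF : Fintype.card F = 3 ^ (2 * n + 1)) {j : SL(2, F)} (hj : j * j = -1) :
    ∃ τ : SL(2, F), Subfield.closure {τ.1.trace} = ⊤ ∧ τ ≠ 1 ∧ τ ≠ -1 ∧ Odd (orderOf τ) ∧
      Commute τ j ∧ ∀ γ : SL(2, F), Commute γ j → Odd (orderOf γ) → ∃ k : ℕ, γ = τ ^ k := by
  classical
  obtain ⟨k, hk, hq⟩ := exists_m hn
  haveI : Fact (Nat.Prime 3) := ⟨Nat.prime_three⟩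
  have h3 : ((3 : ℕ) : F) = 0 := by
    have h := FiniteField.cast_card_eq_zero F
    rw [hF, Nat.cast_pow] at h
    exact pow_eq_zero_iff (by omega) |>.mp h
  haveI : CharP F 3 := (CharP.charP_iff_prime_eq_zero Nat.prime_three).2 h3
  have ns : ∀ r : F, r * r ≠ -1 := fun r e =>
    FiniteField.isSquare_neg_one_iff.1 ⟨r, e.symm⟩ (by rw [hF, hq]; omega)
  haveI : Fact (∀ r : F, r ^ 2 ≠ -1 + 0 * r) := ⟨fun r e => ns r (by linear_combination e)⟩
  let E := QuadraticAlgebra F (-1) 0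
  haveI : Finite E := Finite.of_equiv _ (QuadraticAlgebra.equivProd (-1 : F) 0).symm
  haveI : CharP E 3 := charP_of_injective_algebraMap (algebraMap F E).injective 3
  have cE : Nat.card Eˣ = 4 * (8 * k + 2) * (2 * k + 1) := by
    rw [Nat.card_units, Nat.card_congr (QuadraticAlgebra.equivProd (-1 : F) 0), Nat.card_prod,
      Nat.card_eq_fintype_card, hF, hq]
    exact Nat.sub_eq_of_eq_add (by ring)
  have st : ∀ z : E, z ^ (8 * k + 3) = star z := fun z => by
    have e1 : ∀ x : F, algebraMap F E x ^ 3 ^ (2 * n + 1) = algebraMap F E x := fun x => by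
      rw [← map_pow, ← hF, FiniteField.pow_card]
    have e2 : (QuadraticAlgebra.omega : E) * QuadraticAlgebra.omega = -1 := by
      ext <;> simp [QuadraticAlgebra.re_one, QuadraticAlgebra.im_one]
    have e3 : (QuadraticAlgebra.omega : E) ^ 3 ^ (2 * n + 1) = -QuadraticAlgebra.omega := by
      rw [hq, show 8 * k + 3 = 2 * (4 * k + 1) + 1 by ring, pow_succ, pow_mul, pow_two, e2,
        Odd.neg_one_pow ⟨2 * k, by ring⟩, neg_one_mul]
    have e4 : z = algebraMap F E z.re + algebraMap F E z.im * QuadraticAlgebra.omega := by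
      ext <;> simp [E]
    rw [← hq]
    conv_lhs => rw [e4, add_pow_char_pow, mul_pow, e1, e1, e3]
    ext <;> simp [E]
  have hj' := fun a b => congrFun (congrFun (congrArg Subtype.val hj) a) b
  have j00 := hj' 0 0
  have j01 := hj' 0 1
  have j11 := hj' 1 1
  have jd := j.2
  rw [det_fin_two] at jd
  simp [Matrix.mul_apply, Fin.sum_univ_two] at j00 j01 j11
  have jt : j.1 0 0 + j.1 1 1 = 0 := pow_eq_zero_iff two_ne_zero |>.1 (by
    linear_combination j00 + j11 + 2 * jd)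
  have jb : j.1 0 1 ≠ 0 := fun e => ns (j.1 0 0) (by rw [← j00, e]; ring)
  let ψ : E →ₐ[F] Matrix (Fin 2) (Fin 2) F := QuadraticAlgebra.lift ⟨j.1, by
    rw [zero_smul, add_zero, neg_smul, one_smul]; exact congrArg Subtype.val hj⟩
  have hψ : ∀ z, ψ z = z.re • (1 : Matrix (Fin 2) (Fin 2) F) + z.im • j.1 := fun _ => rfl
  have ψi : Function.Injective ψ := ψ.toRingHom.injective
  have dψ : ∀ z : E, algebraMap F E (ψ z).det = z ^ (4 * (2 * k + 1)) := fun z => by
    rw [show 4 * (2 * k + 1) = 8 * k + 3 + 1 by ring, pow_succ', st,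
      ← QuadraticAlgebra.algebraMap_norm_eq_mul_star, hψ, det_fin_two, QuadraticAlgebra.norm_def]
    congr 1
    simp
    linear_combination z.re * z.im * jt + z.im ^ 2 * jd
  obtain ⟨g, hg⟩ := IsCyclic.exists_ofOrder_eq_natCard (α := Eˣ)
  obtain ⟨l, hl⟩ : ∃ l : E, orderOf l = 2 * k + 1 := ⟨(g ^ (4 * (8 * k + 2)) : Eˣ), by
    rw [orderOf_units, orderOf_pow_of_dvd (by omega) (by rw [hg, cE]; exact dvd_mul_right _ _), hg,
      cE, Nat.mul_div_cancel_left _ (by omega)]⟩
  have l1 : l ^ (2 * k + 1) = 1 := hl ▸ pow_orderOf_eq_one l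
  have l0 : l ≠ 0 := fun e => by simp [e] at l1
  have ord : ∀ (γ : SL(2, F)) (z : E), γ.1 = ψ z → orderOf γ = orderOf z := fun γ z e =>
    orderOf_eq_orderOf_iff.2 fun m => by
      rw [← ψi.eq_iff, map_pow, map_one, ← e]
      exact ⟨fun h => (Matrix.SpecialLinearGroup.coe_pow γ m).symm.trans (congrArg Subtype.val h),
        fun h => Subtype.ext ((Matrix.SpecialLinearGroup.coe_pow γ m).trans h)⟩
  let τ : SL(2, F) := ⟨ψ l, (algebraMap F E).injective (by rw [dψ, mul_comm, pow_mul, l1]; simp)⟩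
  have oτ : orderOf τ = 2 * k + 1 := (ord τ l rfl).trans hl
  refine ⟨τ, ?_, fun e => ?_, fun e => ?_, ⟨k, oτ⟩, Subtype.ext ?_, fun γ h1 h2 => ?_⟩
  · set F₀ := Subfield.closure {τ.1.trace}
    have hc : τ.1.trace ∈ F₀ := Subfield.subset_closure rfl
    have e1 : algebraMap F E τ.1.trace = l + l⁻¹ := by
      have : star l = l⁻¹ := eq_inv_of_mul_eq_one_right (by
        rw [← st, ← pow_succ', show 8 * k + 3 + 1 = (2 * k + 1) * 4 by ring, pow_mul, l1, one_pow])
      rw [← this, ← QuadraticAlgebra.algebraMap_trace_eq_add_star]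
      congr 1
      change (ψ l).trace = _
      rw [hψ, trace_fin_two, QuadraticAlgebra.trace_def]
      simp
      linear_combination l.im * jt
    haveI := Fintype.ofFinite F₀
    obtain ⟨s, -, hs⟩ := FiniteField.card F₀ 3
    have e2 : (l + l⁻¹) ^ 3 ^ (s : ℕ) = l + l⁻¹ := by
      rw [← e1, ← map_pow, ← hs]
      exact congrArg _ (congrArg Subtype.val (FiniteField.pow_card (⟨_, hc⟩ : F₀)))
    have r3 : 3 ≤ 3 ^ (s : ℕ) := Nat.le_self_pow s.ne_zero 3
    have e3 : 2 * k + 1 ≤ 3 ^ (s : ℕ) + 1 := by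
      rw [add_pow_char_pow, inv_pow] at e2
      generalize 3 ^ (s : ℕ) = r at e2 r3
      have hr := pow_ne_zero r l0
      have : (l ^ r - l) * (l ^ r - l⁻¹) = 0 := by
        linear_combination l ^ r * e2 - mul_inv_cancel₀ hr + mul_inv_cancel₀ l0
      rcases mul_eq_zero.1 this with e | e
      · obtain ⟨r, rfl⟩ : ∃ r', r = r' + 1 := ⟨r - 1, by omega⟩
        have : l ^ r = 1 := mul_right_cancel₀ l0 (by rw [← pow_succ, one_mul, sub_eq_zero.1 e])
        have := Nat.le_of_dvd (by omega) (hl ▸ orderOf_dvd_of_pow_eq_one this)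
        omega
      · exact Nat.le_of_dvd (by omega) (hl ▸ orderOf_dvd_of_pow_eq_one (by
          rw [pow_succ, sub_eq_zero.1 e, inv_mul_cancel₀ l0]))
    have e4 := Module.card_eq_pow_finrank (K := F₀) (V := F)
    have e5 : 2 * n + 1 = s * Module.finrank F₀ F :=
      Nat.pow_right_injective (by norm_num : 2 ≤ 3) (by simp only; rw [pow_mul, ← hs, ← e4, hF])
    have e6 : Module.finrank F₀ F = 1 := by
      by_contra h
      have h1 : Odd (s * Module.finrank F₀ F) := ⟨n, e5.symm⟩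
      obtain ⟨d, hd⟩ := Nat.Odd.of_mul_right h1
      have h2 : (3 ^ (s : ℕ)) ^ 3 ≤ 8 * k + 3 := by
        rw [← hq, ← hF, e4, hs]
        exact Nat.pow_le_pow_right (by omega) (by omega)
      generalize 3 ^ (s : ℕ) = r at e3 r3 h2
      nlinarith [Nat.mul_le_mul r3 r3]
    rw [e6, pow_one] at e4
    have := ((Fintype.bijective_iff_injective_and_card (Subtype.val : F₀ → F)).2
      ⟨Subtype.val_injective, e4.symm⟩).2
    exact eq_top_iff.2 fun x _ => by obtain ⟨y, rfl⟩ := this x; exact y.2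
  · rw [e, orderOf_one] at oτ; omega
  · have : orderOf τ ∣ 2 := orderOf_dvd_of_pow_eq_one (by rw [e]; simp)
    have := Nat.le_of_dvd two_pos this
    omega
  · change ψ l * j.1 = j.1 * ψ l
    rw [hψ]
    simp [add_mul, mul_add]
  · have h := fun a b => congrFun (congrFun (congrArg Subtype.val h1.eq) a) b
    have g00 := h 0 0
    have g01 := h 0 1
    simp [Matrix.mul_apply, Fin.sum_univ_two] at g00 g01
    have e : γ.1 = ψ ⟨γ.1 0 0 - γ.1 0 1 / j.1 0 1 * j.1 0 0, γ.1 0 1 / j.1 0 1⟩ := by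
      rw [hψ]
      ext a b
      fin_cases a <;> fin_cases b <;> simp
      · field_simp
      · field_simp
        linear_combination -g00
      · field_simp
        linear_combination -g01
    generalize (⟨γ.1 0 0 - γ.1 0 1 / j.1 0 1 * j.1 0 0, γ.1 0 1 / j.1 0 1⟩ : E) = z at e
    have h4 : orderOf z ∣ 4 * (2 * k + 1) := orderOf_dvd_of_pow_eq_one (by
      rw [← dψ, ← e, γ.2, map_one])
    rw [ord γ z e] at h2
    have h5 : z ^ (2 * k + 1) = 1 := orderOf_dvd_iff_pow_eq_one.1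
      ((h2.coprime_two_right.pow_right 2).dvd_of_dvd_mul_left h4)
    obtain ⟨m, -, hm⟩ := (hl ▸ IsPrimitiveRoot.orderOf l).eq_pow_of_pow_eq_one h5
    exact ⟨m, Subtype.ext (by
      rw [e, ← hm, map_pow]; exact (Matrix.SpecialLinearGroup.coe_pow τ m).symm)⟩

end Cfsg.Agent.H87.O7Ree
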