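import Cfsg.Agent.H87.PSChain

/-!
PS: the minimal degree of a doubly transitive group (piece B2).
-/

set_option autoImplicit false
set_option linter.unusedSectionVars false

namespace Cfsg.Agent.H87.PS

open Equiv MulAction

universe u

variable {α : Type u} [Fintype α] [DecidableEq α]

theorem cnt_fix {H : Finset (Perm α)} {u : α} (hmul : ∀ x ∈ H, ∀ y ∈ H, x * y ∈ H)
    (hfix : ∀ x ∈ H, x u = u) (htr : ∀ b c, b ≠ u → c ≠ u → ∃ y ∈ H, y b = c) {a : α} (ha : a ≠ u)
    {T : Finset α} (hT : u ∉ T) :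
    (Fintype.card α - 1) * (H.filter fun x => x a ∈ T).card = T.card * H.card := by
  have h1 : ∀ b c, b ≠ u → c ≠ u →
      (H.filter fun x => x a = b).card ≤ (H.filter fun x => x a = c).card := by
    intro b c hb hc
    obtain ⟨y, hy, e⟩ := htr b c hb hc
    refine Finset.card_le_card_of_injOn (fun x => y * x) (fun x hx => ?_)
      (mul_right_injective y).injOn
    obtain ⟨h2, h3⟩ := Finset.mem_filter.1 hx
    exact Finset.mem_filter.2 ⟨hmul y hy x h2, by rw [Perm.mul_apply, h3, e]⟩
  have h2 : ∀ T : Finset α, u ∉ T →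
      (H.filter fun x => x a ∈ T).card = T.card * (H.filter fun x => x a = a).card := by
    intro T hT
    rw [Finset.card_eq_sum_card_fiberwise (f := fun x : Perm α => x a) (t := T)
      (s := H.filter fun x => x a ∈ T) fun x hx => (Finset.mem_filter.1 hx).2, ← smul_eq_mul, ← Finset.sum_const]
    refine Finset.sum_congr rfl fun b hb => ?_
    have hbu : b ≠ u := fun e => hT (e ▸ hb)
    rw [← le_antisymm (h1 b a hbu ha) (h1 a b ha hbu), Finset.filter_filter]
    exact congrArg _ (Finset.filter_congr fun x _ => ⟨fun h => h.2, fun h => ⟨h ▸ hb, h⟩⟩)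
  have h3 := h2 (Finset.univ.erase u) (Finset.notMem_erase _ _)
  rw [Finset.filter_true_of_mem fun x hx => Finset.mem_erase.2
    ⟨fun e => ha (x.injective (e.trans (hfix x hx).symm)), Finset.mem_univ _⟩,
    Finset.card_erase_of_mem (Finset.mem_univ u), Finset.card_univ] at h3
  rw [h2 T hT, h3]
  ring

theorem b2 : B2Stmt.{u} := by
  intro α _ _ G g hG h4 hg hg1
  classical
  obtain ⟨z, hz, hmin⟩ := Finset.exists_min_image (Finset.univ.filter fun z => z ∈ G ∧ z ≠ 1)
    (fun z : Perm α => z.support.card) ⟨g, by simp [hg, hg1]⟩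
  simp only [Finset.mem_filter, Finset.mem_univ, true_and, and_imp] at hz hmin
  have hm4 := h4 z hz.1 hz.2
  obtain ⟨u, hu⟩ : z.support.Nonempty := Finset.card_pos.1 (by omega)
  have hu' := Perm.mem_support.1 hu
  set H := Finset.univ.filter fun x : Perm α => x ∈ G ∧ x u = u with hH
  have hHm : ∀ x, x ∈ H ↔ x ∈ G ∧ x u = u := fun x => by simp [hH]
  set S := z.support.erase u with hS
  have hSc : S.card + 1 = z.support.card := Finset.card_erase_add_one hu
  have hc : ∀ a, a ≠ u → (Fintype.card α - 1) * (H.filter fun x => x a ∈ S).card =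
      S.card * H.card := fun a ha => cnt_fix
    (fun x hx y hy => (hHm _).2 ⟨mul_mem ((hHm x).1 hx).1 ((hHm y).1 hy).1, by
      rw [Perm.mul_apply, ((hHm y).1 hy).2, ((hHm x).1 hx).2]⟩)
    (fun x hx => ((hHm x).1 hx).2) (fun b c hb hc => by
      rw [is_two_pretransitive_iff] at hG
      obtain ⟨y, y1, y2⟩ := hG hb.symm hc.symm
      exact ⟨y, (hHm _).2 ⟨y.2, y1⟩, y2⟩) ha (Finset.notMem_erase _ _)
  have hsum : (Fintype.card α - 1) * ∑ x ∈ H, (S.filter fun a => x a ∈ S).card =
      S.card * (S.card * H.card) := by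
    have e : ∑ x ∈ H, (S.filter fun a => x a ∈ S).card =
        ∑ a ∈ S, (H.filter fun x => x a ∈ S).card :=
      Finset.sum_card_bipartiteAbove_eq_sum_card_bipartiteBelow (s := H) (t := S)
        (fun (x : Perm α) (a : α) => x a ∈ S)
    rw [e, Finset.mul_sum, ← smul_eq_mul S.card, ← Finset.sum_const]
    exact Finset.sum_congr rfl fun a ha => hc a (Finset.mem_erase.1 ha).1
  have hzu : z u ∈ S := Finset.mem_erase.2 ⟨hu', Perm.apply_mem_support.2 hu⟩
  have hpt : ∀ x ∈ H, z.support.card + (if x (z u) ∈ S then 6 else 0) ≤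
      3 * (S.filter fun a => x a ∈ S).card + 3 + (if x (z u) ∈ S then z.support.card else 0) := by
    intro x hx
    obtain ⟨hxG, hxu⟩ := (hHm x).1 hx
    split_ifs with h
    · have : 0 < (S.filter fun a => x a ∈ S).card :=
        Finset.card_pos.2 ⟨_, Finset.mem_filter.2 ⟨hzu, h⟩⟩
      omega
    · have h1 : z (x (z u)) = x (z u) := by
        by_contra h2
        exact h (Finset.mem_erase.2 ⟨fun e => hu' (x.injective (e.trans hxu.symm)),
          Perm.mem_support.2 h2⟩)
      have hxi : x⁻¹ u = u := by rw [Perm.inv_eq_iff_eq, hxu]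
      have h2 : z * (x * z * x⁻¹) * z⁻¹ * (x * z * x⁻¹)⁻¹ ≠ 1 := fun e => by
        rw [mul_inv_eq_one, mul_inv_eq_iff_eq_mul] at e
        have h3 := DFunLike.congr_fun e u
        simp only [Perm.mul_apply, hxi, h1] at h3
        have h5 := z.injective (x.injective h3)
        exact hu' ((x⁻¹).injective (h5.symm.trans hxi.symm))
      have hc' : x * z * x⁻¹ ∈ G := mul_mem (mul_mem hxG hz.1) (inv_mem hxG)
      have h3 := (hmin _ (mul_mem (mul_mem (mul_mem hz.1 hc') (inv_mem hz.1)) (inv_mem hc'))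
        h2).trans (card_support_comm_le _ _)
      have h5 : (z.support ∩ (x * z * x⁻¹).support).card ≤
          (insert u (S.filter fun a => x a ∈ S)).card := by
        refine Finset.card_le_card_of_injOn (fun b => x⁻¹ b) (fun b hb => ?_)
          (x⁻¹).injective.injOn
        obtain ⟨b1, b2⟩ := Finset.mem_inter.1 hb
        rw [supp_conj, mem_smul] at b2
        by_cases hbu : x⁻¹ b = u
        · simp [hbu]
        · refine Finset.mem_insert_of_mem (Finset.mem_filter.2 ⟨Finset.mem_erase.2 ⟨hbu, b2⟩, ?_⟩)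
          rw [ai]
          exact Finset.mem_erase.2 ⟨fun e => hbu (e ▸ hxi), b1⟩
      have := Finset.card_insert_le u (S.filter fun a => x a ∈ S)
      omega
  have h6 := Finset.sum_le_sum hpt
  simp only [Finset.sum_add_distrib, Finset.sum_const, smul_eq_mul, ← Finset.mul_sum,
    ← Finset.sum_filter] at h6
  have h7 := hc _ hu'
  have h8 : 0 < H.card := Finset.card_pos.2 ⟨1, (hHm 1).2 ⟨one_mem _, rfl⟩⟩
  have h9 := hmin g hg hg1
  have h10 : z.support.card ≤ Fintype.card α := Finset.card_le_univ _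
  obtain ⟨N, hN⟩ : ∃ N, Fintype.card α = N + 1 := ⟨Fintype.card α - 1, by omega⟩
  rw [hN, Nat.add_sub_cancel] at hsum h7
  rw [← hSc] at h6 h9 hm4
  generalize S.card = s at *
  generalize (H.filter fun x => x (z u) ∈ S).card = A at *
  generalize ∑ x ∈ H, (S.filter fun a => x a ∈ S).card = B at *
  generalize H.card = h at *
  have h11 : h * (N * (s + 1) + 6 * s) ≤ h * (3 * (s * s) + 3 * N + s * (s + 1)) := by
    have := Nat.mul_le_mul_left N h6
    nlinarith
  have h12 := Nat.le_of_mul_le_mul_left h11 h8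
  by_contra hlt
  nlinarith

end Cfsg.Agent.H87.PS
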