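import Cfsg.Agent.H87.PSDefs

/-!
PS: the chain of supports (pieces R and SUB).
-/

set_option autoImplicit false
set_option linter.unusedSectionVars false

namespace Cfsg.Agent.H87.PS

open Equiv MulAction
open scoped Pointwise

universe u

variable {α : Type u} [Fintype α] [DecidableEq α]

theorem ai (g : Perm α) (x : α) : g (g⁻¹ x) = x := by simp

theorem ia (g : Perm α) (x : α) : g⁻¹ (g x) = x := by simp

theorem pow_mem_of_inv {h : Perm α} {A : Finset α} (hA : ∀ x ∈ A, h x ∈ A) (k : ℕ) :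
    ∀ x ∈ A, (h ^ k) x ∈ A := by
  induction k with
  | zero => intro x hx; simpa using hx
  | succ k ih => intro x hx; rw [pow_succ', Perm.mul_apply]; exact hA _ (ih x hx)

theorem inv_of_pow {h : Perm α} {p k : ℕ} (hp : p.Prime) (ho : orderOf h = p) (h0 : 0 < k)
    (hk : k < p) {A : Finset α} (hA : ∀ x ∈ A, (h ^ k) x ∈ A) : ∀ x ∈ A, h x ∈ A := by
  obtain ⟨u, hu⟩ := exists_pow_eq_self_of_coprime (x := h) (n := k)
    (by rw [ho]; exact (Nat.coprime_of_lt_prime h0.ne' hk hp).symm)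
  intro x hx
  have := pow_mem_of_inv hA u x hx
  rwa [hu] at this

theorem disj_le {h : Perm α} {p : ℕ} (hp : p.Prime) {A T : Finset α}
    (hA : ∀ k, 0 < k → k < p → ∀ a ∈ A, (h ^ k) a ∉ A) (hT : ∀ k, ∀ a ∈ A, (h ^ k) a ∈ T) :
    p * A.card ≤ T.card := by
  have key : ∀ k j, k ≤ j → j < p → ∀ a ∈ A, ∀ b ∈ A, (h ^ k) a = (h ^ j) b → k = j ∧ a = b := by
    intro k j hkj hj a ha b hb e
    obtain ⟨d, rfl⟩ := Nat.exists_eq_add_of_le hkj
    rw [pow_add, Perm.mul_apply] at e
    have e' := (h ^ k).injective e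
    rcases Nat.eq_zero_or_pos d with rfl | hd
    · exact ⟨rfl, by simpa using e'⟩
    · exact absurd (e' ▸ ha) (hA d hd (by omega) b hb)
  rw [← Finset.card_range p, ← Finset.card_product]
  refine Finset.card_le_card_of_injOn (fun x => (h ^ x.1) x.2) (fun x hx => ?_) ?_
  · exact hT _ _ (Finset.mem_product.1 hx).2
  · rintro ⟨k, a⟩ hx ⟨j, b⟩ hy e
    obtain ⟨h1, h2⟩ := Finset.mem_product.1 hx
    obtain ⟨h3, h4⟩ := Finset.mem_product.1 hy
    rw [Finset.mem_range] at h1 h3
    rcases le_total k j with hkj | hkj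
    · obtain ⟨rfl, rfl⟩ := key k j hkj h3 a h2 b h4 e; rfl
    · obtain ⟨rfl, rfl⟩ := key j k hkj h1 b h4 a h2 e.symm; rfl

theorem cyc_le {h : Perm α} {p : ℕ} (hp : p.Prime) (ho : orderOf h = p) {X : Finset α}
    (hX : ∀ x ∈ X, h x ∈ X) {x : α} (hx : x ∈ X) (hm : h x ≠ x) : p ≤ X.card := by
  have := disj_le (h := h) hp (A := {x}) (T := X) (fun k h0 hk a ha hb => by
    rw [Finset.mem_singleton] at ha hb
    subst ha
    have := inv_of_pow hp ho h0 hk (A := {a}) (by simpa using hb) a (by simp)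
    exact hm (by simpa using this)) (fun k a ha => by
    rw [Finset.mem_singleton] at ha
    subst ha
    exact pow_mem_of_inv hX k _ hx)
  simpa using this

theorem not_inv_le {h : Perm α} {p : ℕ} (hp : p.Prime) (ho : orderOf h = p) {A : Finset α}
    (hA : ∀ k, (∀ a ∈ A, (h ^ k) a ∈ A) ∨ ∀ a ∈ A, (h ^ k) a ∉ A) (hn : ¬ ∀ a ∈ A, h a ∈ A) :
    p * A.card ≤ h.support.card := by
  have h1 : ∀ k, 0 < k → k < p → ∀ a ∈ A, (h ^ k) a ∉ A := fun k h0 hk =>
    (hA k).resolve_left fun h2 => hn (inv_of_pow hp ho h0 hk h2)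
  refine disj_le hp h1 fun k a ha => ?_
  refine pow_mem_of_inv (fun x hx => Perm.apply_mem_support.2 hx) k a (Perm.mem_support.2 fun e => ?_)
  exact h1 1 one_pos hp.one_lt a ha (by rw [pow_one, e]; exact ha)

theorem exists_res {g : Perm α} {A : Finset α} (hA : ∀ x ∈ A, g x ∈ A) :
    ∃ h : Perm α, (∀ x ∈ A, h x = g x) ∧ ∀ x, x ∉ A → h x = x := by
  have h1 : ∀ x, g x ∈ A ↔ x ∈ A := fun x =>
    ⟨fun hx => by simpa using Perm.perm_symm_on_of_perm_on_finset hA hx, hA x⟩
  exact ⟨Perm.ofSubtype (g.subtypePerm h1), fun x hx => Perm.ofSubtype_subtypePerm_of_mem h1 hx,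
    fun x hx => Perm.ofSubtype_apply_of_not_mem _ hx⟩

theorem mem_smul {x : Perm α} {L : Finset α} {a : α} : a ∈ x • L ↔ x⁻¹ a ∈ L :=
  Finset.inv_smul_mem_iff.symm

theorem blk {G : Subgroup (Perm α)} (hG : IsPreprimitive G α) {F : Finset α}
    (h : ∀ y ∈ G, y • F = F ∨ Disjoint (y • F) F) : F.card ≤ 1 ∨ F = Finset.univ := by
  have hb : IsBlock G (F : Set α) := by
    rw [isBlock_iff_smul_eq_or_disjoint]
    intro y
    have e : y • (F : Set α) = (((y : Perm α) • F : Finset α) : Set α) := by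
      rw [Finset.coe_smul_finset]; rfl
    rw [e]
    rcases h y y.2 with h1 | h1
    · left; rw [h1]
    · right; exact Finset.disjoint_coe.2 h1
  rcases hG.isTrivialBlock_of_isBlock hb with h1 | h1
  · left; exact Finset.card_le_one_iff_subsingleton.2 h1
  · right; exact Finset.coe_eq_univ.1 h1

/-- Conjugates of `g`. -/
def Cj (G : Subgroup (Perm α)) (g h : Perm α) : Prop := ∃ x ∈ G, h = x * g * x⁻¹

/-- Good sets. -/
def Good (G : Subgroup (Perm α)) (g : Perm α) (L : Finset α) (g' : Perm α) : Prop :=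
  g'.support ⊆ L ∧ ∀ X : Finset α, X ⊆ L → X.Nonempty →
    (∀ h, Cj G g h → h.support ⊆ L → ∀ x ∈ X, h x ∈ X) → ∃ x ∈ X, g' x ≠ x

theorem supp_conj (x h : Perm α) : (x * h * x⁻¹).support = x • h.support := by
  ext a
  rw [mem_smul, Perm.mem_support, Perm.mem_support, Perm.mul_apply, Perm.mul_apply, ne_eq, ne_eq,
    ← Perm.eq_inv_iff_eq]

variable {G : Subgroup (Perm α)} {g : Perm α} {p q : ℕ}

theorem Cj.order {h : Perm α} (hh : Cj G g h) : orderOf h = orderOf g := by
  obtain ⟨x, -, rfl⟩ := hh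
  exact (MulAut.conj x).orderOf_eq g

theorem Cj.card {h : Perm α} (hh : Cj G g h) : h.support.card = g.support.card := by
  obtain ⟨x, -, rfl⟩ := hh
  rw [supp_conj, Finset.card_smul_finset]

theorem Cj.mem {h : Perm α} (hh : Cj G g h) (hg : g ∈ G) : h ∈ G := by
  obtain ⟨x, hx, rfl⟩ := hh
  exact mul_mem (mul_mem hx hg) (inv_mem hx)

theorem Good.conj {L : Finset α} {g' x : Perm α} (h : Good G g L g') (hx : x ∈ G) :
    Good G g (x • L) (x * g' * x⁻¹) := by
  refine ⟨by rw [supp_conj]; exact Finset.smul_finset_subset_smul_finset h.1, fun X hX hne hinv => ?_⟩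
  obtain ⟨y, hy, hm⟩ := h.2 (x⁻¹ • X) (fun a ha => by
      have := mem_smul.1 (hX (mem_smul.1 ha))
      simpa using this) hne.smul_finset (fun k hk hs a ha => by
      obtain ⟨z, hz, rfl⟩ := hk
      have := hinv (x * (z * g * z⁻¹) * x⁻¹) ⟨x * z, mul_mem hx hz, by group⟩
        (by rw [supp_conj]; exact Finset.smul_finset_subset_smul_finset hs) _ (mem_smul.1 ha)
      rw [mem_smul]
      simpa using this)
  refine ⟨x y, by simpa using mem_smul.1 hy, fun e => hm ?_⟩
  simpa using e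

theorem good_supp : Good G g g.support g :=
  ⟨le_rfl, fun _ hX ⟨x, hx⟩ _ => ⟨x, hx, Perm.mem_support.1 (hX hx)⟩⟩

theorem Good.le_card {L X : Finset α} {g' : Perm α} (h : Good G g L g') (hc : Cj G g g')
    (hp : p.Prime) (ho : orderOf g = p) (hX : X ⊆ L) (hne : X.Nonempty)
    (hinv : ∀ h, Cj G g h → h.support ⊆ L → ∀ x ∈ X, h x ∈ X) : p ≤ X.card := by
  obtain ⟨x, hx, hm⟩ := h.2 X hX hne hinv
  exact cyc_le hp (hc.order.trans ho) (hinv g' hc h.1) hx hm

theorem fix_of_not_mem {h : Perm α} {L : Finset α} (hs : h.support ⊆ L) {x : α} (hx : x ∉ L) :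
    h x = x := by
  by_contra e
  exact hx (hs (Perm.mem_support.2 e))

theorem mem_of_mem {h : Perm α} {L : Finset α} (hs : h.support ⊆ L) {x : α} (hx : x ∈ L) :
    h x ∈ L := by
  by_cases e : h x = x
  · rwa [e]
  · exact hs (Perm.apply_mem_support.2 (Perm.mem_support.2 e))

theorem step (hG : IsPreprimitive G α) (hC : Closed G) (hp : p.Prime) (hg : g ∈ G)
    (ho : orderOf g = p) (hs : g.support.card = q * p) (hq : q < p) (hI : Indec G g)
    {L : Finset α} (hL : Good G g L g) (hne : L ≠ Finset.univ) :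
    ∃ x ∈ G, x • L ≠ L ∧ (x • L \ L).card ≤ q ∧
      (∀ y ∈ G, y • L = L ∨ (x • L \ L).card ≤ (y • L \ L).card) ∧ Good G g (L ∪ x • L) g := by
  classical
  have hgc : Cj G g g := ⟨1, one_mem G, by simp⟩
  have hg1 : g ≠ 1 := by rintro rfl; rw [orderOf_one] at ho; exact hp.one_lt.ne ho
  have hLp : p ≤ L.card := by
    obtain ⟨a, ha⟩ := Finset.nonempty_iff_ne_empty.2 (mt Perm.support_eq_empty_iff.1 hg1)
    exact hL.le_card hgc hp ho le_rfl ⟨a, hL.1 ha⟩ fun h _ hh x hx => mem_of_mem hh hx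
  obtain ⟨x0, hx0, hx1, hx2⟩ : ∃ x ∈ G, x • L ≠ L ∧ ¬ Disjoint (x • L) L := by
    by_contra hno
    push Not at hno
    rcases blk hG (F := L) (fun y hy => (em _).imp_right (hno y hy)) with h1 | h1
    · have := hp.two_le; omega
    · exact hne h1
  obtain ⟨x, ⟨hx, hxL⟩, hmin⟩ := exists_minimalFor_of_wellFoundedLT
    (fun x : Perm α => x ∈ G ∧ x • L ≠ L) (fun x => (x • L \ L).card) ⟨x0, hx0, hx1⟩
  have hmin' : ∀ y ∈ G, y • L = L ∨ (x • L \ L).card ≤ (y • L \ L).card := fun y hy => by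
    by_cases e : y • L = L
    · exact Or.inl e
    · right
      by_contra hlt
      exact hlt (hmin ⟨hy, e⟩ (le_of_not_ge hlt))
  set L' := x • L with hL'
  have hcL : L'.card = L.card := Finset.card_smul_finset _ _
  have hd : (L \ L').card = (L' \ L).card := Finset.card_sdiff_comm hcL.symm
  have hL'g : Good G g L' (x * g * x⁻¹) := hL.conj hx
  have hc' : Cj G g (x * g * x⁻¹) := ⟨x, hx, rfl⟩
  have hB : (L ∩ L').Nonempty := by
    by_contra hno
    have h1 : Disjoint L' L := by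
      rw [Finset.not_nonempty_iff_eq_empty, ← Finset.disjoint_iff_inter_eq_empty] at hno
      exact hno.symm
    have h2 := (hmin' x0 hx0).resolve_left hx1
    rw [Finset.sdiff_eq_self_of_disjoint h1, hcL] at h2
    have h3 : (x0 • L \ L).card < (x0 • L).card := Finset.card_lt_card
      ⟨Finset.sdiff_subset, fun h4 => hx2 (Finset.disjoint_left.2 fun a ha =>
        (Finset.mem_sdiff.1 (h4 ha)).2)⟩
    rw [Finset.card_smul_finset] at h3
    omega
  have hA : (L \ L').Nonempty := by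
    rw [Finset.sdiff_nonempty]
    exact fun h1 => hxL (Finset.eq_of_subset_of_card_le h1 hcL.le).symm
  -- elements supported in `L` fix `A` or move it off itself
  have hdich : ∀ h ∈ G, h.support ⊆ L →
      (∀ a ∈ L \ L', h a ∈ L \ L') ∨ ∀ a ∈ L \ L', h a ∉ L \ L' := by
    intro h hh hsup
    have hsup' : h⁻¹.support ⊆ L := by rwa [Perm.support_inv]
    rcases hmin' (x⁻¹ * h⁻¹ * x) (mul_mem (mul_mem (inv_mem hx) (inv_mem hh)) hx) with e | e
    · left
      intro a ha
      obtain ⟨h1, h2⟩ := Finset.mem_sdiff.1 ha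
      refine Finset.mem_sdiff.2 ⟨mem_of_mem hsup h1, fun h3 => h2 ?_⟩
      rw [hL', ← e, mem_smul, mem_smul]
      simpa using mem_smul.1 h3
    · right
      have e1 : (x⁻¹ * h⁻¹ * x) • L \ L = x⁻¹ • (h⁻¹ • L' \ L') := by
        rw [Finset.smul_finset_sdiff, hL', inv_smul_smul, mul_smul, mul_smul]
      rw [e1, Finset.card_smul_finset] at e
      have e2 : h⁻¹ • L' \ L' ⊆ L \ L' := by
        intro a ha
        obtain ⟨h1, h2⟩ := Finset.mem_sdiff.1 ha
        refine Finset.mem_sdiff.2 ⟨?_, h2⟩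
        by_contra h3
        rw [mem_smul, inv_inv, fix_of_not_mem hsup h3] at h1
        exact h2 h1
      have e3 := Finset.eq_of_subset_of_card_le e2 (hd ▸ e)
      intro a ha hb
      rw [← e3] at ha
      have := mem_smul.1 (Finset.mem_sdiff.1 ha).1
      rw [inv_inv] at this
      exact (Finset.mem_sdiff.1 hb).2 this
  have hdq : (L' \ L).card ≤ q := by
    by_cases hall : ∀ h, Cj G g h → h.support ⊆ L → ∀ a ∈ L \ L', h a ∈ L \ L'
    swap
    · push Not at hall
      obtain ⟨h, hc, hsup, hn⟩ := hall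
      have := not_inv_le hp (hc.order.trans ho) (A := L \ L') (fun k => hdich _
        (pow_mem (hc.mem hg) k) ((Perm.support_pow_le h k).trans hsup)) (by push Not; exact hn)
      rw [hc.card, hs, hd, mul_comm] at this
      exact Nat.le_of_mul_le_mul_right this hp.pos
    exfalso
    have hallB : ∀ h, Cj G g h → h.support ⊆ L → ∀ a ∈ L ∩ L', h a ∈ L ∩ L' := by
      intro h hc hsup a ha
      obtain ⟨h1, h2⟩ := Finset.mem_inter.1 ha
      refine Finset.mem_inter.2 ⟨mem_of_mem hsup h1, ?_⟩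
      by_contra h3
      have := Perm.perm_symm_on_of_perm_on_finset (hall h hc hsup)
        (Finset.mem_sdiff.2 ⟨mem_of_mem hsup h1, h3⟩)
      rw [Equiv.symm_apply_apply] at this
      exact (Finset.mem_sdiff.1 this).2 h2
    obtain ⟨a0, ha0, hma⟩ := hL.2 _ Finset.sdiff_subset hA hall
    obtain ⟨b0, hb0, hmb⟩ := hL.2 _ Finset.inter_subset_left hB hallB
    have hgL' : ∀ a, a ∈ L' → g a ∈ L' := by
      intro a ha
      by_cases h1 : a ∈ L
      · exact (Finset.mem_inter.1 (hallB g hgc hL.1 a (Finset.mem_inter.2 ⟨h1, ha⟩))).2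
      · rwa [fix_of_not_mem hL.1 h1]
    have hgk : ∀ k : ℕ, (g ^ k) • L' = L' := fun k =>
      Finset.eq_of_subset_of_card_le (fun a ha => by
        have := pow_mem_of_inv hgL' k _ (mem_smul.1 ha)
        rwa [ai] at this) (Finset.card_smul_finset _ _).ge
    have horb : ∀ b ∈ L', ∃ l ∈ G, l.support ⊆ L' ∧ l (g b) = b := by
      intro b hb
      let X : Finset α := Finset.univ.filter fun c => ∃ l ∈ G, l.support ⊆ L' ∧ l b = c
      have hX : ∀ c, c ∈ X ↔ ∃ l ∈ G, l.support ⊆ L' ∧ l b = c := fun c => by simp [X]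
      have hbX : b ∈ X := (hX b).2 ⟨1, one_mem G, by simp, rfl⟩
      have hXl : ∀ l ∈ G, l.support ⊆ L' → ∀ c ∈ X, l c ∈ X := by
        intro l hl hsup c hc
        obtain ⟨l', hl', hsup', rfl⟩ := (hX c).1 hc
        exact (hX _).2 ⟨l * l', mul_mem hl hl',
          (Perm.support_mul_le l l').trans (Finset.union_subset hsup hsup'), rfl⟩
      have hXp : p ≤ X.card := hL'g.le_card hc' hp ho (fun c hc => by
        obtain ⟨l, -, hsup, rfl⟩ := (hX c).1 hc
        exact mem_of_mem hsup hb) ⟨b, hbX⟩ fun h hc hsup => hXl h (hc.mem hg) hsup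
      have hinv : ∀ c ∈ X, g c ∈ X := by
        by_contra hn
        have := not_inv_le hp ho (A := X) (fun k => ?_) hn
        · rw [hs] at this
          have := Nat.le_of_mul_le_mul_right (mul_comm p _ ▸ this) hp.pos
          omega
        · by_cases h1 : ∀ a ∈ X, (g ^ k) a ∉ X
          · exact Or.inr h1
          · left
            push Not at h1
            obtain ⟨c, hc, hc'⟩ := h1
            obtain ⟨l, hl, hsup, rfl⟩ := (hX c).1 hc
            intro a ha
            obtain ⟨l', hl', hsup', rfl⟩ := (hX a).1 ha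
            have := hXl (g ^ k * (l' * l⁻¹) * (g ^ k)⁻¹)
              (mul_mem (mul_mem (pow_mem hg k) (mul_mem hl' (inv_mem hl))) (inv_mem (pow_mem hg k)))
              (by
                rw [supp_conj, ← hgk k]
                refine Finset.smul_finset_subset_smul_finset ((Perm.support_mul_le _ _).trans
                  (Finset.union_subset hsup' ?_))
                rwa [Perm.support_inv]) _ hc'
            simpa using this
      obtain ⟨l, hl, hsup, e⟩ := (hX _).1 (hinv b hbX)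
      exact ⟨l⁻¹, inv_mem hl, by rwa [Perm.support_inv], by rw [← e, ia]⟩
    obtain ⟨h, hh1, hh2⟩ := exists_res (hall g hgc hL.1)
    have hmix : ∀ a ∈ L \ L', ∀ b, b ∉ L \ L' → ∃ u ∈ G, u a = h a ∧ u b = h b := by
      intro a ha b hb
      rw [hh1 a ha, hh2 b hb]
      by_cases h1 : b ∈ L'
      · obtain ⟨l, hl, hsup, e⟩ := horb b h1
        exact ⟨l * g, mul_mem hl hg,
          fix_of_not_mem hsup (Finset.mem_sdiff.1 (hall g hgc hL.1 a ha)).2, e⟩
      · exact ⟨g, hg, rfl, fix_of_not_mem hL.1 fun h2 => hb (Finset.mem_sdiff.2 ⟨h2, h1⟩)⟩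
    have hhG : h ∈ G := hC h fun a b => by
      by_cases ha : a ∈ L \ L' <;> by_cases hb : b ∈ L \ L'
      · exact ⟨g, hg, (hh1 a ha).symm, (hh1 b hb).symm⟩
      · exact hmix a ha b hb
      · obtain ⟨u, hu, h1, h2⟩ := hmix b hb a ha
        exact ⟨u, hu, h2, h1⟩
      · exact ⟨1, one_mem G, (hh2 a ha).symm, (hh2 b hb).symm⟩
    rcases hI h hhG (fun y => (em (y ∈ L \ L')).imp (hh1 y) (hh2 y)) with e | e
    · exact hma (by rw [← hh1 a0 ha0, e]; rfl)
    · exact hmb (by
        rw [← e]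
        exact hh2 b0 fun h1 => (Finset.mem_sdiff.1 h1).2 (Finset.mem_inter.1 hb0).2)
  refine ⟨x, hx, hxL, hdq, hmin', hL.1.trans Finset.subset_union_left, fun X hX hXne hinv => ?_⟩
  by_cases h1 : (X ∩ L).Nonempty
  · obtain ⟨y, hy, hm⟩ := hL.2 _ Finset.inter_subset_right h1 fun h hc hsup y hy =>
      Finset.mem_inter.2 ⟨hinv h hc (hsup.trans Finset.subset_union_left) y (Finset.mem_inter.1 hy).1,
        mem_of_mem hsup (Finset.mem_inter.1 hy).2⟩
    exact ⟨y, (Finset.mem_inter.1 hy).1, hm⟩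
  · exfalso
    have h2 : X ⊆ L' \ L := fun y hy => by
      have h3 : y ∉ L := fun h4 => h1 ⟨y, Finset.mem_inter.2 ⟨hy, h4⟩⟩
      exact Finset.mem_sdiff.2 ⟨(Finset.mem_union.1 (hX hy)).resolve_left h3, h3⟩
    have h3 := hL'g.le_card hc' hp ho (h2.trans Finset.sdiff_subset) hXne fun h hc hsup =>
      hinv h hc (hsup.trans Finset.subset_union_right)
    have := Finset.card_le_card h2
    omega

theorem lt_union {L : Finset α} {x : Perm α} (h : x • L ≠ L) : L.card < (L ∪ x • L).card :=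
  Finset.card_lt_card ⟨Finset.subset_union_left, fun h1 => h (Finset.eq_of_subset_of_card_le
    (Finset.subset_union_right.trans h1) (Finset.card_smul_finset _ _).ge)⟩

/-- R. -/
theorem rs : RStmt.{u} := by
  intro α _ _ G g z p q m hG hC hm hp hg ho hs hq hI hz hz1 hd
  obtain ⟨L, ⟨hL, hLd⟩, hmax⟩ := exists_maximalFor_of_wellFoundedGT
    (fun L : Finset α => Good G g L g ∧ Disjoint z.support L) id ⟨_, good_supp, hd⟩
  obtain ⟨y0, hy0⟩ := Finset.nonempty_iff_ne_empty.2 (mt Perm.support_eq_empty_iff.1 hz1)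
  obtain ⟨x, hx, hxL, hdq, -, hgood⟩ := step hG hC hp hg ho hs hq hI hL
    (fun e => Finset.disjoint_left.1 hLd hy0 (e ▸ Finset.mem_univ _))
  obtain ⟨y, hy, hyL⟩ : ∃ y ∈ z.support, y ∈ x • L := by
    by_contra hno
    push Not at hno
    have h1 := hmax (j := L ∪ x • L) ⟨hgood, Finset.disjoint_union_right.2
      ⟨hLd, Finset.disjoint_left.2 hno⟩⟩ Finset.subset_union_left
    exact (lt_union hxL).not_ge (Finset.card_le_card h1)
  have hL' := hL.conj hx
  obtain ⟨h, hc, hsup, hy'⟩ : ∃ h, Cj G g h ∧ h.support ⊆ x • L ∧ h y ≠ y := by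
    by_contra hno
    push Not at hno
    obtain ⟨w, hw, hm'⟩ := hL'.2 {y} (by simpa using hyL) (by simp) fun h hc hsup w hw => by
      rw [Finset.mem_singleton] at hw ⊢
      rw [hw, hno h hc hsup]
    rw [Finset.mem_singleton] at hw
    exact hm' (hw ▸ hno _ ⟨x, hx, rfl⟩ hL'.1)
  have hIq : (h.support ∩ z.support).card ≤ q := by
    refine le_trans (Finset.card_le_card fun w hw => ?_) hdq
    obtain ⟨h1, h2⟩ := Finset.mem_inter.1 hw
    exact Finset.mem_sdiff.2 ⟨hsup h1, Finset.disjoint_left.1 hLd h2⟩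
  have hne : h * z * h⁻¹ * z⁻¹ ≠ 1 := by
    intro e
    have e' : h * z * h⁻¹ = z := mul_inv_eq_one.1 e
    have := cyc_le hp (hc.order.trans ho) (X := h.support ∩ z.support) (fun w hw => by
      obtain ⟨h1, h2⟩ := Finset.mem_inter.1 hw
      refine Finset.mem_inter.2 ⟨Perm.apply_mem_support.2 h1, ?_⟩
      rw [← e', supp_conj, mem_smul, ia]
      exact h2) (Finset.mem_inter.2 ⟨Perm.mem_support.2 hy', hy⟩) hy'
    omega
  have h1 := hm _ (mul_mem (mul_mem (mul_mem (hc.mem hg) hz) (inv_mem (hc.mem hg))) (inv_mem hz)) hne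
  have h2 := card_support_comm_le h z
  omega

/-- SUB. -/
theorem sub : SubStmt.{u} := by
  intro α _ _ G g p q hG hC hp hg ho hs hq hI ⟨a0, ha0⟩
  classical
  obtain ⟨L, ⟨hL, hne⟩, hmax⟩ := exists_maximalFor_of_wellFoundedGT
    (fun L : Finset α => Good G g L g ∧ L ≠ Finset.univ) id ⟨_, good_supp, fun e =>
      Perm.mem_support.1 (e ▸ Finset.mem_univ a0) ha0⟩
  obtain ⟨x, hx, hxL, hdq, hmin, hgood⟩ := step hG hC hp hg ho hs hq hI hL hne
  have hU : L ∪ x • L = Finset.univ := by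
    by_contra h0
    exact (lt_union hxL).not_ge (Finset.card_le_card (hmax (j := L ∪ x • L) ⟨hgood, h0⟩
      Finset.subset_union_left))
  have hF : x • L \ L = Lᶜ := by
    ext a
    have := hU ▸ Finset.mem_univ a
    simp only [Finset.mem_union, Finset.mem_sdiff, Finset.mem_compl] at this ⊢
    tauto
  have hb := blk hG (F := Lᶜ) fun y hy => by
    rcases hmin y hy with e | e
    · left
      ext a
      rw [mem_smul, Finset.mem_compl, Finset.mem_compl, ← mem_smul, e]
    · right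
      have e2 : y • L \ L = Lᶜ := Finset.eq_of_subset_of_card_le
        (fun a ha => Finset.mem_compl.2 (Finset.mem_sdiff.1 ha).2) (hF ▸ e)
      refine Finset.disjoint_left.2 fun a ha hb => ?_
      rw [← e2] at hb
      exact Finset.mem_compl.1 (mem_smul.1 ha) (mem_smul.1 (Finset.mem_sdiff.1 hb).1)
  obtain ⟨a, ha⟩ : ∃ a, a ∉ L := by
    by_contra hno
    push Not at hno
    exact hne (Finset.eq_univ_iff_forall.2 hno)
  have hg1 : g ≠ 1 := by rintro rfl; rw [orderOf_one] at ho; exact hp.one_lt.ne ho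
  have hone : ∀ b, b ≠ a → b ∈ L := by
    intro b hb'
    by_contra h1
    rcases hb with h2 | h2
    · exact hb' (Finset.card_le_one.1 h2 b (Finset.mem_compl.2 h1) a (Finset.mem_compl.2 ha))
    · obtain ⟨c, hc⟩ := Finset.nonempty_iff_ne_empty.2 (mt Perm.support_eq_empty_iff.1 hg1)
      exact Finset.mem_compl.1 (h2 ▸ Finset.mem_univ c) (hL.1 hc)
  refine ⟨a, fix_of_not_mem hL.1 ha, fun b hb' => ?_⟩
  obtain ⟨y, hy, hm⟩ := hL.2 (Finset.univ.filter fun c => ∃ x ∈ G, x a = a ∧ x b = c)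
    (fun c hc => by
      obtain ⟨x, -, h1, rfl⟩ := (Finset.mem_filter.1 hc).2
      exact hone _ fun e => hb' (x.injective (e.trans h1.symm)))
    ⟨b, Finset.mem_filter.2 ⟨Finset.mem_univ _, 1, one_mem G, rfl, rfl⟩⟩
    fun h hc hsup c hcm => by
      obtain ⟨x, hx, h1, rfl⟩ := (Finset.mem_filter.1 hcm).2
      exact Finset.mem_filter.2 ⟨Finset.mem_univ _, h * x, mul_mem (hc.mem hg) hx,
        by rw [Perm.mul_apply, h1, fix_of_not_mem hsup ha], rfl⟩
  obtain ⟨x, hx, h1, rfl⟩ := (Finset.mem_filter.1 hy).2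
  exact ⟨x, hx, h1, hm⟩

end Cfsg.Agent.H87.PS
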