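import Cfsg.Agent.H87.PSChain

/-!
PS: the number of fixed points (piece FL).
-/

set_option autoImplicit false
set_option linter.unusedSectionVars false

namespace Cfsg.Agent.H87.PS

open Equiv MulAction

universe u

theorem conj_of_sq {Y : Type*} [Group Y] [Finite Y] {p : ℕ} (hp : p.Prime)
    (h2 : ¬ p ^ 2 ∣ Nat.card Y) {u v : Y} (hu : orderOf u = p) (hv : orderOf v = p) :
    ∃ y : Y, y * u * y⁻¹ ∈ Subgroup.zpowers v := by
  haveI := Fact.mk hp
  have key : ∀ w : Y, orderOf w = p → ∃ Q : Sylow p Y, (Q : Subgroup Y) = Subgroup.zpowers w := by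
    intro w hw
    have hc : Nat.card (Subgroup.zpowers w) = p ^ 1 := by rw [Nat.card_zpowers, hw, pow_one]
    obtain ⟨Q, hQ⟩ := (IsPGroup.of_card hc).exists_le_sylow
    refine ⟨Q, (Subgroup.eq_of_le_of_card_ge hQ ?_).symm⟩
    obtain ⟨k, hk⟩ := IsPGroup.iff_card.1 Q.isPGroup'
    rw [hk, hc]
    refine Nat.pow_le_pow_right hp.pos ?_
    by_contra hlt
    exact h2 ((pow_dvd_pow p (by omega)).trans (hk ▸ Subgroup.card_subgroup_dvd_card _))
  obtain ⟨P, hP⟩ := key u hu
  obtain ⟨Q, hQ⟩ := key v hv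
  obtain ⟨y, hy⟩ := MulAction.exists_smul_eq Y P Q
  refine ⟨y, ?_⟩
  rw [← hQ, ← hy, Sylow.coe_subgroup_smul, hP]
  exact Subgroup.smul_mem_pointwise_smul u (MulAut.conj y) _ (Subgroup.mem_zpowers u)

variable {α : Type u} [Fintype α] [DecidableEq α]

theorem card_fixS_le {G : Subgroup (Perm α)} {x : Perm α} (hx : x ∈ G) (a : α) :
    Nat.card (fixS G {a}) ≤ Nat.card (fixS G {x a}) := by
  refine Nat.card_le_card_of_injective (fun g => ⟨x * g * x⁻¹, mul_mem (mul_mem hx g.2.1)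
    (inv_mem hx), fun b hb => ?_⟩) fun g h e => ?_
  · rw [Finset.mem_singleton.1 hb, Perm.mul_apply, Perm.mul_apply, ia,
      g.2.2 a (Finset.mem_singleton_self a)]
  · have := congrArg Subtype.val e
    exact Subtype.ext (by simpa using this)

theorem card_fixS_eq {G : Subgroup (Perm α)} (hG : IsPretransitive G α) (a b : α) :
    Nat.card (fixS G {a}) = Nat.card (fixS G {b}) := by
  obtain ⟨x, hx⟩ := hG.exists_smul_eq a b
  have h1 : (x : Perm α) a = b := hx
  refine le_antisymm (h1 ▸ card_fixS_le x.2 a) ?_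
  have := card_fixS_le (inv_mem x.2) b
  rwa [← h1, ia, h1] at this

/-- The normalizer of the cyclic group of `g`. -/
def nm (g : Perm α) : Subgroup (Perm α) where
  carrier := {n | n * g * n⁻¹ ∈ Subgroup.zpowers g}
  one_mem' := by simp
  mul_mem' := fun {a b} ha hb => by
    obtain ⟨i, hi⟩ := Subgroup.mem_zpowers_iff.1 hb
    have : a * b * g * (a * b)⁻¹ = (a * g * a⁻¹) ^ i := by
      rw [conj_zpow, hi]; group
    change _ ∈ Subgroup.zpowers g
    rw [this]
    exact zpow_mem ha i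
  inv_mem' := fun {a} ha => by
    have h1 : Subgroup.zpowers (a * g * a⁻¹) = Subgroup.zpowers g :=
      Subgroup.eq_of_le_of_card_ge (Subgroup.zpowers_le.2 ha) (by
        rw [Nat.card_zpowers, Nat.card_zpowers]
        exact (Cj.order (G := ⊤) ⟨a, trivial, rfl⟩).ge)
    obtain ⟨k, hk⟩ := Subgroup.mem_zpowers_iff.1 (h1.ge (Subgroup.mem_zpowers g))
    refine Subgroup.mem_zpowers_iff.2 ⟨k, ?_⟩
    rw [conj_zpow] at hk
    conv_rhs => rw [← hk]
    group

theorem nm_sc {g n : Perm α} (hn : n ∈ nm g) {x y : α} (h : g.SameCycle x y) :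
    g.SameCycle (n x) (n y) := by
  obtain ⟨k, rfl⟩ := h
  obtain ⟨i, hi⟩ := Subgroup.mem_zpowers_iff.1 hn
  refine ⟨i * k, ?_⟩
  rw [zpow_mul, hi, conj_zpow, Perm.mul_apply, Perm.mul_apply, ia]

theorem nm_mv {g n : Perm α} (hn : n ∈ nm g) {x : α} (h : g x ≠ x) : g (n x) ≠ n x := by
  intro e
  obtain ⟨i, hi⟩ := Subgroup.mem_zpowers_iff.1 hn
  have := Perm.zpow_apply_eq_self_of_apply_eq_self e i
  rw [hi, Perm.mul_apply, Perm.mul_apply, ia] at this
  exact h (n.injective this)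

theorem nm_fx {g n : Perm α} (hn : n ∈ nm g) {x : α} (h : g x = x) : g (n x) = n x := by
  by_contra e
  have := nm_mv (inv_mem hn) e
  rw [ia] at this
  exact this h

theorem witt {G X : Subgroup (Perm α)} {g x : Perm α} {p : ℕ} (hp : p.Prime) (hX : X ≤ G)
    (hg : g ∈ X) (ho : orderOf g = p) {b : α} (hb : g b = b) (hx : x ∈ X) (hb' : g (x b) = x b)
    (h2 : ¬ p ^ 2 ∣ Nat.card (fixS G {x b})) : ∃ n ∈ X, n ∈ nm g ∧ n b = x b := by
  have h3 : ¬ p ^ 2 ∣ Nat.card (fixS X {x b}) := fun h =>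
    h2 (h.trans (Subgroup.card_dvd_of_le fun y hy => ⟨hX hy.1, hy.2⟩))
  let u : fixS X {x b} := ⟨x * g * x⁻¹, mul_mem (mul_mem hx hg) (inv_mem hx), fun c hc => by
    rw [Finset.mem_singleton.1 hc, Perm.mul_apply, Perm.mul_apply, ia, hb]⟩
  let v : fixS X {x b} := ⟨g, hg, fun c hc => by rw [Finset.mem_singleton.1 hc, hb']⟩
  obtain ⟨y, hy⟩ := conj_of_sq hp h3 (u := u) (v := v)
    (by rw [← Subgroup.orderOf_coe, ← ho]; exact Cj.order (G := ⊤) ⟨x, trivial, rfl⟩)
    (by rw [← Subgroup.orderOf_coe, ← ho])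
  obtain ⟨k, hk⟩ := Subgroup.mem_zpowers_iff.1 hy
  refine ⟨y * x, mul_mem y.2.1 hx, Subgroup.mem_zpowers_iff.2 ⟨k, ?_⟩, ?_⟩
  · have := congrArg Subtype.val hk
    simp only [u, v, SubgroupClass.coe_zpow, Subgroup.coe_mul, Subgroup.coe_inv] at this
    rw [this]; group
  · rw [Perm.mul_apply, y.2.2 _ (Finset.mem_singleton_self _)]

theorem fl_i {G : Subgroup (Perm α)} {g w : Perm α} (hC : Closed G) (hg : g ∈ G)
    (hz : ∀ z ∈ G, Disjoint z.support g.support → z = 1) (hw : w ∈ G) (hc : w * g * w⁻¹ = g)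
    (hk : ∀ d, g d ≠ d → g.SameCycle d (w d)) {b : α} (hb : g b = b) : w b = b := by
  have hn : w ∈ nm g := by
    change _ ∈ Subgroup.zpowers g
    rw [hc]; exact Subgroup.mem_zpowers g
  obtain ⟨s, h1, h2⟩ := exists_res (g := w) (A := g.supportᶜ) fun x hx => by
    simp only [Finset.mem_compl, Perm.mem_support, not_not] at hx ⊢
    exact nm_fx hn hx
  simp only [Finset.mem_compl, Perm.mem_support, not_not] at h1 h2
  have key : ∀ a d, g a = a → g d ≠ d → ∃ y ∈ G, y a = s a ∧ y d = s d := by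
    intro a d ha hd
    obtain ⟨k, hk⟩ := hk d hd
    refine ⟨(g ^ k)⁻¹ * w, mul_mem (inv_mem (zpow_mem hg k)) hw, ?_, ?_⟩
    · rw [h1 a ha, Perm.mul_apply, Perm.inv_eq_iff_eq,
        Perm.zpow_apply_eq_self_of_apply_eq_self (nm_fx hn ha)]
    · rw [h2 d hd, Perm.mul_apply, ← hk, ia]
  have hs : s ∈ G := hC s fun a c => by
    by_cases ha : g a = a <;> by_cases hc : g c = c
    · exact ⟨w, hw, (h1 a ha).symm, (h1 c hc).symm⟩
    · exact key a c ha hc
    · obtain ⟨y, hy, e1, e2⟩ := key c a hc ha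
      exact ⟨y, hy, e2, e1⟩
    · exact ⟨1, one_mem _, (h2 a ha).symm, (h2 c hc).symm⟩
  have := hz s hs (Finset.disjoint_left.2 fun x hx hx' =>
    Perm.mem_support.1 hx (h2 x (Perm.mem_support.1 hx')))
  rw [← h1 b hb, this, Perm.one_apply]

theorem fl_ii {G : Subgroup (Perm α)} {g y : Perm α} {p : ℕ} {a : α} (hG : IsPretransitive G α)
    (hC : Closed G) (hp : p.Prime) (hg : g ∈ G) (ho : orderOf g = p) (ha : g a = a)
    (hz : ∀ z ∈ G, Disjoint z.support g.support → z = 1)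
    (h2 : ¬ p ^ 2 ∣ Nat.card (fixS G {a})) (hy : y ∈ G) (hn : y ∈ nm g) (hya : y a = a)
    (hk : ∀ d, g d ≠ d → g.SameCycle d (y d)) {b : α} (hb : g b = b) : y b = b := by
  obtain ⟨x0, hx0⟩ := hG.exists_smul_eq a b
  have h0 : (x0 : Perm α) a = b := hx0
  obtain ⟨x, hx, hxn, hxa⟩ := witt hp le_rfl hg ho ha x0.2 (by rw [h0, hb])
    (by rwa [card_fixS_eq hG _ a])
  rw [h0] at hxa
  obtain ⟨i, hi⟩ := Subgroup.mem_zpowers_iff.1 hn
  have hxn' : x⁻¹ ∈ nm g := inv_mem hxn
  obtain ⟨l, hl⟩ := Subgroup.mem_zpowers_iff.1 hxn'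
  have hy'n : x * y * x⁻¹ ∈ nm g := mul_mem (mul_mem hxn hn) (inv_mem hxn)
  have e1 : (x * y * x⁻¹) * g * (x * y * x⁻¹)⁻¹ = y * g * y⁻¹ := by
    have e2 : g = x * g ^ l * x⁻¹ := by rw [hl]; group
    calc _ = x * (y * (x⁻¹ * g * x⁻¹⁻¹) * y⁻¹) * x⁻¹ := by group
      _ = x * (y * g * y⁻¹) ^ l * x⁻¹ := by rw [← hl, conj_zpow]
      _ = (x * g ^ l * x⁻¹) ^ i := by rw [← hi, conj_zpow, ← zpow_mul, ← zpow_mul, mul_comm i l]
      _ = _ := by rw [← e2, hi]
  have hk' : ∀ d, g d ≠ d → g.SameCycle d ((x * y * x⁻¹) d) := fun d hd => by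
    have := nm_sc hxn (hk _ (nm_mv (inv_mem hxn) hd))
    rwa [ai] at this
  have := fl_i hC hg hz (w := (x * y * x⁻¹)⁻¹ * y)
    (mul_mem (inv_mem (mul_mem (mul_mem hx hy) (inv_mem hx))) hy)
    (by
      calc _ = (x * y * x⁻¹)⁻¹ * (y * g * y⁻¹) * (x * y * x⁻¹) := by group
        _ = g := by rw [← e1]; group)
    (fun d hd => by
      have h3 := hk' _ (nm_mv (inv_mem hy'n) (nm_mv hn hd))
      rw [ai] at h3
      exact (hk d hd).trans h3.symm) hb
  rw [Perm.mul_apply, Perm.inv_eq_iff_eq] at this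
  rw [this, Perm.mul_apply, Perm.mul_apply, ← hxa, ia, hya]

/-- The cycle of `x`. -/
def cy (g : Perm α) (x : α) : Finset α := Finset.univ.filter (g.SameCycle x)

theorem cy_eq {g : Perm α} {x y : α} : cy g x = cy g y ↔ g.SameCycle x y := by
  constructor
  · intro h
    have : y ∈ cy g y := by simp [cy, Perm.SameCycle.refl]
    rw [← h] at this
    simpa [cy] using this
  · intro h
    ext z
    simp only [cy, Finset.mem_filter, Finset.mem_univ, true_and]
    exact ⟨fun h1 => h.symm.trans h1, fun h1 => h.trans h1⟩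

theorem card_cy_le {g : Perm α} {p q : ℕ} (hp : p.Prime) (ho : orderOf g = p)
    (hs : g.support.card = q * p) : (g.support.image (cy g)).card ≤ q := by
  refine Nat.le_of_mul_le_mul_right ?_ hp.pos
  rw [← hs, Finset.card_eq_sum_card_image (cy g) g.support, ← smul_eq_mul, ← Finset.sum_const]
  refine Finset.sum_le_sum fun c hc => ?_
  obtain ⟨x, hx, rfl⟩ := Finset.mem_image.1 hc
  refine cyc_le hp ho (fun y hy => ?_) (Finset.mem_filter.2 ⟨hx, rfl⟩) (Perm.mem_support.1 hx)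
  obtain ⟨h1, h2⟩ := Finset.mem_filter.1 hy
  exact Finset.mem_filter.2 ⟨Perm.apply_mem_support.2 h1,
    (cy_eq.2 (Perm.sameCycle_apply_left.2 (Perm.SameCycle.refl _ _))).trans h2⟩

theorem fl : FlStmt.{u} := by
  intro α _ _ G g p q a hG hC hp hg ho hs ha hsub hz h2
  classical
  set C := g.support.image (cy g) with hCdef
  have hCq : C.card ≤ q := card_cy_le hp ho hs
  have hrep : ∀ c : C, ∃ d, g d ≠ d ∧ cy g d = c := fun c => by
    obtain ⟨d, hd, e⟩ := Finset.mem_image.1 c.2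
    exact ⟨d, Perm.mem_support.1 hd, e⟩
  choose r hr1 hr2 using hrep
  have hmem : ∀ d, g d ≠ d → cy g d ∈ C := fun d hd =>
    Finset.mem_image_of_mem _ (Perm.mem_support.2 hd)
  let emb : nm g → (C ↪ C) := fun n => ⟨fun c => ⟨cy g (n.1 (r c)), hmem _ (nm_mv n.2 (hr1 c))⟩,
    fun c c' e => by
      have h1 := nm_sc (inv_mem n.2) (cy_eq.1 (congrArg Subtype.val e))
      rw [ia, ia] at h1
      exact Subtype.ext (by rw [← hr2 c, ← hr2 c', cy_eq.2 h1])⟩
  choose! xx hx1 hx2 hx3 using hsub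
  set F := (g.supportᶜ).erase a with hF
  have hFm : ∀ b ∈ F, b ≠ a ∧ g b = b := fun b hb => by simpa [hF] using hb
  have hfib : ∀ c ∈ C, (F.filter fun b => cy g (xx b b) = c).card ≤ q.factorial := by
    intro c _
    rcases (F.filter fun b => cy g (xx b b) = c).eq_empty_or_nonempty with h | ⟨b0, hb0⟩
    · rw [h]; simp
    have hex : ∀ b ∈ F.filter fun b => cy g (xx b b) = c,
        ∃ n : nm g, n.1 ∈ fixS G {a} ∧ n.1 b0 = b := by
      intro b hb
      obtain ⟨h1, h3⟩ := Finset.mem_filter.1 hb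
      obtain ⟨h4, h5⟩ := Finset.mem_filter.1 hb0
      obtain ⟨k, hk⟩ := cy_eq.1 (h5.trans h3.symm)
      have e : ((xx b)⁻¹ * g ^ k * xx b0) b0 = b := by
        rw [Perm.mul_apply, Perm.mul_apply, hk, ia]
      have hm : ∀ b ∈ F, xx b ∈ fixS G {a} := fun b hb =>
        ⟨hx1 b (hFm b hb).1, by simpa using hx2 b (hFm b hb).1⟩
      have hga : g ∈ fixS G {a} := ⟨hg, by simpa using ha⟩
      obtain ⟨n, hn1, hn2, hn3⟩ := witt (G := G) (X := fixS G {a}) hp (fun _ h => h.1) hga ho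
        (hFm b0 h4).2 (mul_mem (mul_mem (inv_mem (hm b h1)) (zpow_mem hga k)) (hm b0 h4))
        (by rw [e, (hFm b h1).2]) (by rwa [card_fixS_eq hG _ a])
      exact ⟨⟨n, hn2⟩, hn1, hn3.trans e⟩
    choose! nn hn1 hn2 using hex
    calc _ ≤ (Finset.univ : Finset (C ↪ C)).card := by
          refine Finset.card_le_card_of_injOn (fun b => emb (nn b)) (fun _ _ => by simp) ?_
          intro b hb b' hb' e
          have h6 := fl_ii hG hC hp hg ho ha hz h2 (y := ((nn b)⁻¹ * nn b').1)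
            (mul_mem (inv_mem (hn1 b hb).1) (hn1 b' hb').1) ((nn b)⁻¹ * nn b').2
            ((mul_mem (inv_mem (hn1 b hb)) (hn1 b' hb')).2 a (Finset.mem_singleton_self a))
            (fun d hd => by
              have h7 := cy_eq.1 (congrArg Subtype.val (DFunLike.congr_fun e ⟨_, hmem d hd⟩))
              have h8 := cy_eq.1 (hr2 ⟨_, hmem d hd⟩)
              have h9 := nm_sc (inv_mem (nn b).2)
                (((nm_sc (nn b).2 h8).symm.trans h7).trans (nm_sc (nn b').2 h8))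
              rwa [ia] at h9)
            (hFm b0 (Finset.mem_filter.1 hb0).1).2
          rw [Subgroup.coe_mul, Subgroup.coe_inv, Perm.mul_apply, Perm.inv_eq_iff_eq,
            hn2 b hb, hn2 b' hb'] at h6
          exact h6.symm
      _ = C.card.factorial := by
          rw [Finset.card_univ, Fintype.card_embedding_eq, Fintype.card_coe,
            Nat.descFactorial_self]
      _ ≤ _ := Nat.factorial_le hCq
  have h3 := Finset.card_le_mul_card_image_of_maps_to (f := fun b => cy g (xx b b)) (s := F)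
    (t := C) (fun b hb => hmem _ (hx3 b (hFm b hb).1)) _ hfib
  have h4 : F.card + 1 = (g.supportᶜ).card := Finset.card_erase_add_one (by simpa using ha)
  have h5 := Finset.card_add_card_compl g.support
  have h6 := Nat.mul_le_mul_left q.factorial hCq
  rw [mul_comm _ q] at h6
  omega

end Cfsg.Agent.H87.PS
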