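import Cfsg.Agent.H87.PSUb

/-!
PS: the minimal degree of a simply primitive group (piece MD).
-/

set_option autoImplicit false
set_option linter.unusedSectionVars false

namespace Cfsg.Agent.H87.PS

open Equiv MulAction
open scoped Pointwise

universe u

theorem md_arith {m a b : ℕ} (hm : 4 ≤ m) (h1 : 2 * (a + b) ≤ m * a)
    (h2 : 2 * (a * (b + 1)) ≤ m * (a + 2 * b)) (h3 : a + b ≤ b * b) : 4 * (a + b) ≤ 3 * m ^ 2 := by
  by_contra hlt
  have h4 : 3 * m < 2 * a := by
    by_contra h; nlinarith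
  have h5 : b + 3 < a := by
    by_contra h; nlinarith
  have h6 : 3 * (a * (b + 1)) ^ 2 < (a + b) * (a + 2 * b) ^ 2 := by
    have h7 := Nat.pow_le_pow_left h2 2
    have h8 : 3 * m ^ 2 * (a + 2 * b) ^ 2 < 4 * (a + b) * (a + 2 * b) ^ 2 :=
      Nat.mul_lt_mul_of_pos_right (by omega) (Nat.pow_pos (by omega))
    nlinarith
  have h7 : a < 3 * b := by
    by_contra h
    have h8 : (a + b) * (a + 2 * b) ^ 2 ≤ b * b * (a + 2 * b) ^ 2 := Nat.mul_le_mul_right _ h3
    have h9 : 3 * (b * (a + 2 * b)) ≤ 5 * (a * (b + 1)) := by nlinarith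
    have h10 := Nat.pow_le_pow_left h9 2
    nlinarith
  have h8 : b ≤ 9 := by
    by_contra h
    have h9 : (a + b) * (a + 2 * b) ^ 2 ≤ 4 * b * (3 * a) ^ 2 :=
      Nat.mul_le_mul (by omega) (Nat.pow_le_pow_left (by omega) 2)
    have h10 : a ^ 2 * (12 * b) ≤ a ^ 2 * (b + 1) ^ 2 := Nat.mul_le_mul_left _ (by nlinarith)
    nlinarith
  have h9 : m ≤ 6 := by
    by_contra h; nlinarith
  interval_cases b <;> interval_cases m <;> omega

variable {α : Type u} [Fintype α] [DecidableEq α]

open Classical in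
/-- The points related to `a`. -/
noncomputable def nb (R : α → α → Prop) (a : α) : Finset α := Finset.univ.filter (R a)

theorem mem_nb {R : α → α → Prop} {a b : α} : b ∈ nb R a ↔ R a b := by simp [nb]

/-- An invariant relation. -/
def Iv (G : Subgroup (Perm α)) (R : α → α → Prop) : Prop :=
  ∀ h ∈ G, ∀ a b, R a b → R (h a) (h b)

/-- Balls. -/
def ball (Γ : α → α → Prop) : ℕ → α → α → Prop
  | 0 => fun a b => a = b
  | i + 1 => fun a b => ball Γ i a b ∨ ∃ c, ball Γ i a c ∧ Γ c b

variable {G : Subgroup (Perm α)} {R Γ : α → α → Prop} {m : ℕ}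

theorem Iv.ball (h : Iv G Γ) (i : ℕ) : Iv G (ball Γ i) := by
  induction i with
  | zero => intro g _ a b e; exact congrArg g e
  | succ i ih =>
    rintro g hg a b (e | ⟨c, e1, e2⟩)
    · exact Or.inl (ih g hg a b e)
    · exact Or.inr ⟨g c, ih g hg a c e1, h g hg c b e2⟩

theorem ball_mono {i j : ℕ} (h : i ≤ j) {a b : α} (e : ball Γ i a b) : ball Γ j a b := by
  induction h with
  | refl => exact e
  | step _ ih => exact Or.inl ih

theorem Iv.card (h : Iv G R) (hG : IsPretransitive G α) (a b : α) :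
    (nb R a).card = (nb R b).card := by
  have key : ∀ a b, (nb R a).card ≤ (nb R b).card := fun a b => by
    obtain ⟨g, rfl⟩ := hG.exists_smul_eq a b
    exact Finset.card_le_card_of_injOn (fun c => (g : Perm α) c)
      (fun c hc => mem_nb.2 (h g g.2 a c (mem_nb.1 hc))) (g : Perm α).injective.injOn
  exact le_antisymm (key a b) (key b a)

theorem Iv.equiv (h : Iv G R) (hG : IsPreprimitive G α) (hr : ∀ a, R a a)
    (ht : ∀ a b c, R a b → R a c → R b c) {a b : α} (hab : a ≠ b) (e : R a b) (c d : α) :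
    R c d := by
  have hs : ∀ a b, R a b → R b a := fun a b e => ht a b a e (hr a)
  rcases blk hG (F := nb R a) (fun y hy => by
    by_cases hd : Disjoint (y • nb R a) (nb R a)
    · exact Or.inr hd
    · obtain ⟨w, w1, w2⟩ := Finset.not_disjoint_iff.1 hd
      have w3 := h y hy _ _ (mem_nb.1 (mem_smul.1 w1))
      rw [ai] at w3
      refine Or.inl (Finset.eq_of_subset_of_card_le (fun v hv => ?_)
        (Finset.card_smul_finset y _).ge)
      have v3 := h y hy _ _ (mem_nb.1 (mem_smul.1 hv))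
      rw [ai] at v3
      exact mem_nb.2 (ht _ _ _ (hs _ _ (mem_nb.1 w2)) (ht _ _ _ w3 v3))) with h1 | h1
  · exact absurd (Finset.card_le_one.1 h1 a (mem_nb.2 (hr a)) b (mem_nb.2 e)) hab
  · exact ht a c d (mem_nb.1 (h1 ▸ Finset.mem_univ c)) (mem_nb.1 (h1 ▸ Finset.mem_univ d))

theorem Iv.mv (h : Iv G R) {z : Perm α} (hz : z ∈ G) {u v w : α} (e : z u = v) (hw : z w = w) :
    (R u w ↔ R v w) ∧ (R w u ↔ R w v) := by
  have e' : z⁻¹ v = u := by rw [Perm.inv_eq_iff_eq, e]
  have hw' : z⁻¹ w = w := by rw [Perm.inv_eq_iff_eq, hw]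
  exact ⟨⟨fun r => e ▸ hw ▸ h z hz _ _ r, fun r => e' ▸ hw' ▸ h _ (inv_mem hz) _ _ r⟩,
    ⟨fun r => e ▸ hw ▸ h z hz _ _ r, fun r => e' ▸ hw' ▸ h _ (inv_mem hz) _ _ r⟩⟩

theorem Iv.sdiff (h : Iv G R) (hG : IsPretransitive G α)
    (hz : ∀ u v, Γ u v → ∃ z ∈ G, z u = v ∧ z.support.card = m) (i : ℕ) :
    ∀ u v, PS.ball Γ i u v → 2 * (nb R u \ nb R v).card ≤ i * m := by
  induction i with
  | zero => rintro u v rfl; simp
  | succ i ih =>
    rintro u v (e | ⟨c, e1, e2⟩)
    · exact (ih u v e).trans (Nat.mul_le_mul_right _ (Nat.le_succ i))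
    · obtain ⟨z, z1, z2, z3⟩ := hz c v e2
      have h1 := ih u c e1
      have h2 : (nb R u \ nb R v).card ≤ (nb R u \ nb R c).card + (nb R c \ nb R v).card :=
        (Finset.card_le_card (sdiff_triangle _ _ _)).trans (Finset.card_union_le _ _)
      have h3 := Finset.card_sdiff_comm (h.card hG c v)
      have h4 : (nb R c \ nb R v ∪ nb R v \ nb R c).card ≤ m := by
        refine z3 ▸ Finset.card_le_card fun w hw => Perm.mem_support.2 fun e => ?_
        have := (h.mv z1 z2 e).1
        simp only [Finset.mem_union, Finset.mem_sdiff, mem_nb] at hw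
        tauto
      rw [Finset.card_union_of_disjoint disjoint_sdiff_sdiff] at h4
      rw [add_mul, one_mul]
      omega

theorem sum_swap (hs : ∀ u v, Γ u v → Γ v u) (f : α → α → ℕ) :
    ∑ v, ∑ u ∈ nb Γ v, f u v = ∑ v, ∑ u ∈ nb Γ v, f v u := by
  refine Finset.sum_comm' fun v u => ?_
  simp only [Finset.mem_univ, true_and, and_true, mem_nb]
  exact ⟨hs _ _, hs _ _⟩

theorem md_a (h : Iv G Γ) (hG : IsPretransitive G α) (hs : ∀ u v, Γ u v → Γ v u)
    (hz : ∀ u v, Γ u v → ∃ z ∈ G, z u = v ∧ z.support.card = m)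
    (hc : ∀ a b, ∃ i, ball Γ i a b) (a : α) :
    2 * (Fintype.card α - 1) ≤ m * (nb Γ a).card := by
  classical
  let A : α → α → Finset α := fun u v => nb (fun _ w => ∃ i, ball Γ i w u ∧ ¬ ball Γ i w v) u
  have h1 : ∀ v, Fintype.card α - 1 ≤ ∑ u ∈ nb Γ v, (A u v).card := fun v => by
    rw [← Finset.card_univ, ← Finset.card_erase_of_mem (Finset.mem_univ v)]
    refine le_trans (Finset.card_le_card fun w hw => ?_) Finset.card_biUnion_le
    obtain ⟨i, hi⟩ : ∃ i, Nat.find (hc w v) = i := ⟨_, rfl⟩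
    have h2 := hi ▸ Nat.find_spec (hc w v)
    rcases i with _ | i
    · exact absurd h2 (Finset.mem_erase.1 hw).1
    · have h3 := Nat.find_min (hc w v) (m := i) (by omega)
      obtain ⟨c, c1, c2⟩ := h2.resolve_left h3
      exact Finset.mem_biUnion.2 ⟨c, mem_nb.2 (hs _ _ c2), mem_nb.2 ⟨i, c1, h3⟩⟩
  have h2 : ∀ v, ∀ u ∈ nb Γ v, (A u v).card + (A v u).card ≤ m := fun v u hu => by
    obtain ⟨z, z1, z2, z3⟩ := hz v u (mem_nb.1 hu)
    rw [← Finset.card_union_of_disjoint (Finset.disjoint_left.2 fun w w1 w2 => by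
      obtain ⟨i, i1, i2⟩ := mem_nb.1 w1
      obtain ⟨j, j1, j2⟩ := mem_nb.1 w2
      rcases le_total i j with e | e
      · exact j2 (ball_mono e i1)
      · exact i2 (ball_mono e j1))]
    refine z3 ▸ Finset.card_le_card fun w hw => Perm.mem_support.2 fun e => ?_
    rcases Finset.mem_union.1 hw with hw | hw <;> obtain ⟨i, i1, i2⟩ := mem_nb.1 hw
    · exact i2 (((h.ball i).mv z1 z2 e).2.2 i1)
    · exact i2 (((h.ball i).mv z1 z2 e).2.1 i1)
  have h3 : ∑ v, ∑ u ∈ nb Γ v, ((A u v).card + (A v u).card) ≤ ∑ _v : α, (nb Γ a).card * m :=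
    Finset.sum_le_sum fun v _ => (Finset.sum_le_sum (h2 v)).trans (by
      rw [Finset.sum_const, smul_eq_mul, h.card hG v a])
  have h4 := Finset.sum_le_sum fun v (_ : v ∈ Finset.univ) => h1 v
  simp only [Finset.sum_add_distrib] at h3
  rw [← sum_swap hs fun u v => (A u v).card] at h3
  rw [Finset.sum_const, smul_eq_mul, Finset.card_univ] at h3 h4
  have h5 : 0 < Fintype.card α := Fintype.card_pos_iff.2 ⟨a⟩
  refine Nat.le_of_mul_le_mul_left ?_ h5
  nlinarith

theorem Iv.card_in (h : Iv G R) (hG : IsPretransitive G α) (a w : α) :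
    (nb (fun x y => R y x) w).card = (nb R a).card := by
  classical
  have h' : Iv G fun x y => R y x := fun g hg x y e => h g hg y x e
  have h1 : ∑ x, (nb R x).card = ∑ y, (nb (fun x y => R y x) y).card := by
    simp only [nb, Finset.card_filter]
    exact Finset.sum_comm
  rw [Finset.sum_congr rfl fun x _ => h.card hG x a,
    Finset.sum_congr rfl fun x _ => h'.card hG x w, Finset.sum_const, Finset.sum_const,
    smul_eq_mul, smul_eq_mul, Finset.card_univ] at h1
  exact (Nat.eq_of_mul_eq_mul_left (Fintype.card_pos_iff.2 ⟨a⟩) h1).symm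

theorem md_c (h : Iv G R) (hG : IsPretransitive G α) (hi : ∀ a, ¬ Γ a a)
    (hz : ∀ u v, Γ u v → ∃ z ∈ G, z u = v ∧ z.support.card = m) (a : α)
    (hd : ∀ v, ball Γ 2 a v) {k' : ℕ} (hk : Fintype.card α = (nb Γ a).card + k' + 1) :
    2 * ((nb R a).card * (Fintype.card α - (nb R a).card)) ≤ m * ((nb Γ a).card + 2 * k') := by
  classical
  have hin := fun w => h.card_in hG a w
  have h1 : ∑ v, (nb R a \ nb R v).card = (nb R a).card * (Fintype.card α - (nb R a).card) := by
    have e : ∑ v, ((nb R a).filter fun w => ¬ R v w).card =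
        ∑ w ∈ nb R a, (Finset.univ.filter fun v => ¬ R v w).card :=
      Finset.sum_card_bipartiteAbove_eq_sum_card_bipartiteBelow (s := Finset.univ) (t := nb R a)
        (fun v w => ¬ R v w)
    rw [← smul_eq_mul, ← Finset.sum_const, Finset.sum_congr rfl (g := fun v =>
      ((nb R a).filter fun w => ¬ R v w).card) fun v _ => by
        congr 1; ext w; simp [mem_nb], e]
    refine Finset.sum_congr rfl fun w _ => ?_
    rw [← hin w, ← Finset.card_compl]
    congr 1; ext v; simp [mem_nb]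
  have h2 : ∀ v, 2 * (nb R a \ nb R v).card + (if v ∈ nb Γ a then m else 0) +
      (if v = a then 2 * m else 0) ≤ 2 * m := fun v => by
    by_cases h3 : v = a
    · subst h3; simp [mem_nb, hi]
    · by_cases h4 : v ∈ nb Γ a
      · have := h.sdiff hG hz 1 a v (Or.inr ⟨a, rfl, mem_nb.1 h4⟩)
        simp only [h3, h4, if_true, if_false]; omega
      · have := h.sdiff hG hz 2 a v (hd v)
        simp only [h3, h4, if_false]; omega
  have h3 := Finset.sum_le_sum fun v (_ : v ∈ Finset.univ) => h2 v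
  simp only [Finset.sum_add_distrib, ← Finset.mul_sum, h1, Finset.sum_ite_mem, Finset.univ_inter,
    Finset.sum_const, smul_eq_mul, Finset.sum_ite_eq', Finset.mem_univ, if_true,
    Finset.card_univ] at h3
  generalize (nb R a).card * (Fintype.card α - (nb R a).card) = X at *
  rw [hk] at h3
  nlinarith

theorem md : MdStmt.{u} := by
  intro α _ _ G g hG h2 hg hm
  classical
  obtain ⟨x, hx⟩ : g.support.Nonempty := Finset.card_pos.1 (by omega)
  have hx' := Perm.mem_support.1 hx
  have hT := hG.toIsPretransitive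
  let O : α → α → Prop := fun u v => ∃ h ∈ G, h x = u ∧ h (g x) = v
  let Γ : α → α → Prop := fun u v => O u v ∨ O v u
  have hO : Iv G O := by
    rintro y hy _ _ ⟨h, hh, rfl, rfl⟩
    exact ⟨y * h, mul_mem hy hh, rfl, rfl⟩
  have hΓ : Iv G Γ := fun y hy a b e => e.imp (hO y hy a b) (hO y hy b a)
  have hs : ∀ u v, Γ u v → Γ v u := fun u v e => e.symm
  have hi0 : ∀ a, ¬ O a a := by
    rintro a ⟨h, -, h1, h3⟩
    exact hx' (h.injective (h3.trans h1.symm))
  have hi : ∀ a, ¬ Γ a a := fun a e => hi0 a (e.elim id id)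
  have hz : ∀ u v, Γ u v → ∃ z ∈ G, z u = v ∧ z.support.card = g.support.card := by
    rintro u v (⟨h, hh, rfl, rfl⟩ | ⟨h, hh, rfl, rfl⟩)
    · exact ⟨h * g * h⁻¹, mul_mem (mul_mem hh hg) (inv_mem hh), by simp,
        Perm.card_support_conj⟩
    · exact ⟨h * g⁻¹ * h⁻¹, mul_mem (mul_mem hh (inv_mem hg)) (inv_mem hh), by simp,
        by rw [Perm.card_support_conj, Perm.support_inv]⟩
  have he : Γ x (g x) := Or.inl ⟨1, one_mem _, rfl, rfl⟩
  have hc : ∀ a b, ∃ i, ball Γ i a b := fun a b => by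
    have hb : ∀ a b c, Relation.ReflTransGen Γ a b → Relation.ReflTransGen Γ a c →
        Relation.ReflTransGen Γ b c := fun a b c e1 e2 => by
      refine Relation.ReflTransGen.trans ?_ e2
      induction e1 with
      | refl => exact .refl
      | tail _ e ih => exact .head (hs _ _ e) ih
    have := Iv.equiv (G := G) (R := Relation.ReflTransGen Γ) (fun y hy a b e =>
      e.lift y (hΓ y hy)) hG (fun _ => .refl) hb hx'.symm (.single he) a b
    induction this with
    | refl => exact ⟨0, rfl⟩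
    | tail _ e ih => obtain ⟨i, hi⟩ := ih; exact ⟨i + 1, Or.inr ⟨_, hi, e⟩⟩
  have ha := md_a hΓ hT hs hz hc x
  by_cases hd : ∀ v, ball Γ 2 x v
  · set K := (insert x (nb Γ x))ᶜ with hK
    have hk : Fintype.card α = (nb Γ x).card + K.card + 1 := by
      have := Finset.card_add_card_compl (insert x (nb Γ x))
      rw [Finset.card_insert_of_notMem fun e => hi x (mem_nb.1 e), ← hK] at this
      omega
    have hKm : ∀ v, v ∈ K ↔ v ≠ x ∧ ¬ Γ x v := fun v => by simp [hK, mem_nb]
    rcases K.eq_empty_or_nonempty with h0 | ⟨w0, hw0⟩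
    · have hall : ∀ v, v ≠ x → Γ x v := fun v hv => by
        by_contra h; exact Finset.notMem_empty v (h0 ▸ (hKm v).2 ⟨hv, h⟩)
      have h3 := md_c hO hT hi hz x hd hk
      have h5 : (nb O x).card + (nb (fun a b => O b a) x).card = (nb Γ x).card := by
        rw [← Finset.card_union_of_disjoint (Finset.disjoint_left.2 fun w w1 w2 => h2 ?_)]
        · congr 1; ext v; simp only [Finset.mem_union, mem_nb, Γ]
        obtain ⟨h, hh, e1, e2⟩ := mem_nb.1 w1
        obtain ⟨h', hh', e3, e4⟩ := mem_nb.1 w2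
        have h6 : ∀ v, v ≠ x → O x v := fun v hv => (hall v hv).elim id (by
          rintro ⟨y, hy, y1, y2⟩
          exact ⟨y * h⁻¹ * h', mul_mem (mul_mem hy (inv_mem hh)) hh',
            by rw [Perm.mul_apply, Perm.mul_apply, e3, ← e2, ia, y2],
            by rw [Perm.mul_apply, Perm.mul_apply, e4, ← y1]; congr 1; rw [Perm.inv_eq_iff_eq, e1]⟩)
        refine two_of_fix hT (a := x) fun b c hb hc => ?_
        obtain ⟨y, hy, y1, y2⟩ := h6 b hb
        obtain ⟨y', hy', y3, y4⟩ := h6 c hc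
        exact ⟨y' * y⁻¹, mul_mem hy' (inv_mem hy),
          by rw [Perm.mul_apply, (Perm.inv_eq_iff_eq.2 y1.symm : y⁻¹ x = x), y3],
          by rw [Perm.mul_apply, ← y2, ia, y4]⟩
      rw [h0, Finset.card_empty] at hk h3
      rw [hO.card_in hT x x] at h5
      rw [hk, ← h5] at h3 ⊢
      generalize (nb O x).card = r at *
      generalize g.support.card = m at *
      rw [show r + r + 0 + 1 - r = r + 1 by omega] at h3
      rw [show r + r + 0 + 1 - 1 = 2 * r by omega]
      rcases Nat.eq_zero_or_pos r with h | h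
      · simp [h]
      · have h4 : r + 1 ≤ m := Nat.le_of_mul_le_mul_left (by nlinarith) (Nat.mul_pos two_pos h)
        nlinarith
    · have h3 := md_c hΓ hT hi hz x hd hk
      have hN : Iv G fun a b => ¬ Γ a b := fun y hy a b e e' => e (by
        simpa using hΓ _ (inv_mem hy) _ _ e')
      obtain ⟨w, u, v, w1, w2, w3⟩ : ∃ w u v, ¬ Γ w u ∧ ¬ Γ w v ∧ O u v := by
        by_contra h
        push Not at h
        exact hN.equiv hG hi (fun a b c e1 e2 e3 => e3.elim (h a b c e1 e2) (h a c b e2 e1))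
          ((hKm w0).1 hw0).1.symm ((hKm w0).1 hw0).2 x (g x) he
      have hall : ∀ a b, O a b → ∃ c, ¬ Γ c a ∧ ¬ Γ c b := by
        rintro _ _ ⟨y, hy, rfl, rfl⟩
        obtain ⟨y', hy', rfl, rfl⟩ := w3
        have hyy := mul_mem hy (inv_mem hy')
        exact ⟨(y * y'⁻¹) w, by simpa using hN _ hyy _ _ w1, by simpa using hN _ hyy _ _ w2⟩
      have h4 : (nb Γ x).card + K.card ≤ K.card * K.card := by
        have h5 : nb Γ x ⊆ K.biUnion fun c => ((insert c (nb Γ c))ᶜ).erase x := fun v hv => by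
          have hv' := mem_nb.1 hv
          obtain ⟨c, c1, c2⟩ : ∃ c, ¬ Γ c x ∧ ¬ Γ c v := hv'.elim (hall _ _)
            fun e => (hall _ _ e).imp fun _ => And.symm
          refine Finset.mem_biUnion.2 ⟨c, (hKm c).2 ⟨fun e => c2 (e ▸ hv'), fun e => c1 e.symm⟩, ?_⟩
          simp only [Finset.mem_erase, Finset.mem_compl, Finset.mem_insert, mem_nb, not_or]
          exact ⟨fun e => hi x (e ▸ hv'), fun e => c1 (e ▸ hv'.symm), c2⟩
        have h6 : ∑ c ∈ K, ((((insert c (nb Γ c))ᶜ).erase x).card + 1) = ∑ _c ∈ K, K.card :=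
          Finset.sum_congr rfl fun c hc => by
            have h7 := Finset.card_add_card_compl (insert c (nb Γ c))
            rw [Finset.card_insert_of_notMem fun e => hi c (mem_nb.1 e), hΓ.card hT c x] at h7
            rw [Finset.card_erase_add_one (by
              simp only [Finset.mem_compl, Finset.mem_insert, mem_nb, not_or]
              exact ⟨((hKm c).1 hc).1.symm, fun e => ((hKm c).1 hc).2 e.symm⟩)]
            omega
        have h7 := (Finset.card_le_card h5).trans Finset.card_biUnion_le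
        simp only [Finset.sum_add_distrib, Finset.sum_const, smul_eq_mul, mul_one] at h6
        omega
      rw [hk] at h3 ha ⊢
      rw [show ∀ a b : ℕ, a + b + 1 - a = b + 1 by omega] at h3
      exact md_arith hm ha h3 h4
  · push Not at hd
    obtain ⟨v0, hv0⟩ := hd
    obtain ⟨v, v1, v2⟩ : ∃ v, ball Γ 3 x v ∧ ¬ ball Γ 2 x v := by
      by_contra h
      push Not at h
      obtain ⟨i, hi⟩ := hc x v0
      have : ∀ i v, ball Γ i x v → ball Γ 2 x v := fun i => by
        induction i with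
        | zero => exact fun v e => ball_mono (Nat.zero_le 2) e
        | succ i ih =>
          rintro v (e | ⟨c, e1, e2⟩)
          · exact ih v e
          · exact h v (Or.inr ⟨c, ih c e1, e2⟩)
      exact hv0 (this i v0 hi)
    have h3 := hΓ.sdiff hT hz 3 x v v1
    rw [Finset.sdiff_eq_self_of_disjoint (Finset.disjoint_left.2 fun w w1 w2 =>
      v2 (Or.inr ⟨w, Or.inr ⟨x, rfl, mem_nb.1 w1⟩, hs _ _ (mem_nb.1 w2)⟩))] at h3
    nlinarith

end Cfsg.Agent.H87.PS
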