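import Cfsg.Agent.H87.PSUb

/-!
PS: `p`-subgroups of 2-closed groups (piece PK).
-/

set_option autoImplicit false
set_option linter.unusedSectionVars false

namespace Cfsg.Agent.H87.PS

open Equiv MulAction

universe u

variable {α : Type u} [Fintype α] [DecidableEq α]

theorem card_le_orbit (K : Subgroup (Perm α)) (x : α) {T : Finset α} (h : ∀ k ∈ K, k x ∈ T) :
    Nat.card K ≤ T.card * Nat.card (fixS K {x}) := by
  have h2 : stabilizer K x = (fixS K {x}).subgroupOf K := by
    ext g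
    rw [mem_stabilizer_iff, Subgroup.mem_subgroupOf, mem_fixS]
    exact ⟨fun h => ⟨g.2, fun y hy => Finset.mem_singleton.1 hy ▸ h⟩, fun h => h.2 x (Finset.mem_singleton_self x)⟩
  rw [← (stabilizer K x).index_mul_card, index_stabilizer, h2,
    Nat.card_congr (Subgroup.subgroupOfEquivOfLe (fun _ h => (mem_fixS.1 h).1)).toEquiv,
    ← Set.ncard_coe_finset]
  refine Nat.mul_le_mul_right _ (Set.ncard_le_ncard ?_ (Finset.finite_toSet _))
  rintro _ ⟨k, rfl⟩
  exact h k k.2

theorem pow_res {g h : Perm α} {A : Finset α} (hA : ∀ x ∈ A, g x ∈ A) (h1 : ∀ x ∈ A, h x = g x)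
    (j : ℕ) : ∀ x ∈ A, (h ^ j) x = (g ^ j) x := by
  induction j with
  | zero => intro x _; rfl
  | succ j ih =>
    intro x hx
    rw [pow_succ, pow_succ, Perm.mul_apply, Perm.mul_apply, h1 x hx, ih _ (hA x hx)]

theorem pow_cyc {z k : Perm α} (hc : Commute k z) {w : α} {a : ℕ} (h : k w = (z ^ a) w) (j : ℕ) :
    (k ^ j) w = ((z ^ a) ^ j) w := by
  induction j with
  | zero => rfl
  | succ j ih =>
    rw [pow_succ', Perm.mul_apply, ih, ← Perm.mul_apply, ((hc.pow_right a).pow_right j).eq,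
      Perm.mul_apply, h, pow_succ, Perm.mul_apply]

theorem exists_z {P : Subgroup (Perm α)} {p : ℕ} (hp : p.Prime) (hP : IsPGroup p P)
    {S : Finset α} (hS : ∀ g ∈ P, g.support ⊆ S) : ∃ z : Perm α, z ^ p = 1 ∧
      (∀ g ∈ P, Commute g z) ∧ z.support ⊆ S ∧ ∀ x, z x = x → ∀ g ∈ P, g x = x := by
  classical
  haveI := Fact.mk hp
  obtain ⟨z, hz, hmax⟩ := Finset.exists_max_image (Finset.univ.filter fun z : Perm α =>
    z ^ p = 1 ∧ (∀ g ∈ P, Commute g z) ∧ z.support ⊆ S) (fun z => z.support.card)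
    ⟨1, by simp⟩
  simp only [Finset.mem_filter, Finset.mem_univ, true_and, and_imp] at hz hmax
  refine ⟨z, hz.1, hz.2.1, hz.2.2, fun x hx g0 hg0 => ?_⟩
  by_contra hmv
  let ρ := MulAction.toPermHom P (orbit P x)
  have hQ : IsPGroup p ρ.range := hP.of_surjective _ ρ.rangeRestrict_surjective
  haveI : Nontrivial ρ.range := by
    refine ⟨⟨⟨ρ ⟨g0, hg0⟩, _, rfl⟩, 1, fun e => hmv ?_⟩⟩
    exact congrArg Subtype.val (DFunLike.congr_fun (congrArg Subtype.val e)
      ⟨x, mem_orbit_self x⟩)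
  haveI := hQ.center_nontrivial
  obtain ⟨k, hk⟩ := IsPGroup.iff_card.1 (hQ.to_subgroup (Subgroup.center _))
  obtain ⟨c, hc⟩ := exists_prime_orderOf_dvd_card' (G := Subgroup.center ρ.range) p (by
    rw [hk]
    refine dvd_pow_self p fun e => ?_
    rw [e, pow_zero] at hk
    exact (Finite.one_lt_card (α := Subgroup.center ρ.range)).ne' hk)
  have hco : orderOf (Perm.ofSubtype c.1.1) = p := by
    rw [orderOf_injective _ Perm.ofSubtype_injective, Subgroup.orderOf_coe, Subgroup.orderOf_coe,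
      hc]
  set d := Perm.ofSubtype c.1.1 with hd
  have hout : ∀ y, y ∉ orbit P x → d y = y := fun y hy => Perm.ofSubtype_apply_of_not_mem _ hy
  have hdis : Perm.Disjoint z d := fun y => by
    by_cases hy : y ∈ orbit P x
    · obtain ⟨g, rfl⟩ := hy
      refine Or.inl ?_
      change z (g.1 x) = g.1 x
      rw [← Perm.mul_apply, ← (hz.2.1 g g.2).eq, Perm.mul_apply, hx]
    · exact Or.inr (hout y hy)
  have hcomm : ∀ g ∈ P, Commute g d := fun g hg => Equiv.ext fun y => by
    rw [Perm.mul_apply, Perm.mul_apply]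
    by_cases hy : y ∈ orbit P x
    · have h1 := Subgroup.mem_center_iff.1 c.2 ⟨ρ ⟨g, hg⟩, _, rfl⟩
      have h2 := congrArg Subtype.val (DFunLike.congr_fun (congrArg Subtype.val h1) ⟨y, hy⟩)
      have h3 : g y ∈ orbit P x := ((⟨g, hg⟩ : P) • (⟨y, hy⟩ : orbit P x)).2
      rw [hd, Perm.ofSubtype_apply_of_mem _ hy, Perm.ofSubtype_apply_of_mem _ h3]
      exact h2
    · rw [hout y hy, hout]
      intro h3
      have := ((⟨g, hg⟩ : P)⁻¹ • (⟨g y, h3⟩ : orbit P x)).2
      exact hy (ia g y ▸ this)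
  have hdS : d.support ⊆ S := fun y hy => by
    have h1 : y ∈ orbit P x := by
      by_contra h; exact Perm.mem_support.1 hy (hout y h)
    obtain ⟨g, rfl⟩ := h1
    by_cases h2 : g.1 x = x
    · change g.1 x ∈ S
      rw [h2]
      exact hS g0 hg0 (Perm.mem_support.2 hmv)
    · exact hS g g.2 (Perm.apply_mem_support.2 (Perm.mem_support.2 h2))
  have h1 := hmax (z * d) (by rw [hdis.commute.mul_pow, hz.1, ← hco, pow_orderOf_eq_one, one_mul])
    (fun g hg => (hz.2.1 g hg).mul_right (hcomm g hg))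
    (by rw [hdis.support_mul]; exact Finset.union_subset hz.2.2 hdS)
  rw [hdis.card_support_mul] at h1
  have h2 : d = 1 := Perm.card_support_eq_zero.1 (by omega)
  rw [h2, orderOf_one] at hco
  exact hp.one_lt.ne hco

theorem pk_ind {G : Subgroup (Perm α)} {z : Perm α} {p : ℕ} (hC : Closed G) (hp : p.Prime)
    (hz : z ^ p = 1) : ∀ (n : ℕ) (K : Subgroup (Perm α)) (S : Finset α), Nat.card K = n → K ≤ G →
    (∀ k ∈ K, Commute k z ∧ (∀ x, z.SameCycle x (k x)) ∧ k.support ⊆ S) →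
    ∃ (r : ℕ) (g : Fin r → Perm α), (∀ i, g i ∈ G ∧ orderOf (g i) = p ∧ (g i).support ⊆ S) ∧
      (∀ i j, i ≠ j → Disjoint (g i).support (g j).support) ∧ Nat.card K ≤ p ^ r := by
  classical
  haveI := Fact.mk hp
  intro n
  induction n using Nat.strong_induction_on with
  | _ n ih =>
    intro K S hn hKG hK
    by_cases hb : ∀ k ∈ K, k = 1
    · refine ⟨0, Fin.elim0, fun i => i.elim0, fun i => i.elim0, ?_⟩
      rw [(Subgroup.eq_bot_iff_forall K).2 hb]; simp
    push Not at hb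
    obtain ⟨k0, hk0, hne⟩ := hb
    obtain ⟨x, hx⟩ : ∃ x, k0 x ≠ x := by
      by_contra h; push Not at h; exact hne (Equiv.ext h)
    have hex : ∀ k ∈ K, ∀ w, ∃ a < p, k w = (z ^ a) w := fun k hk w => by
      obtain ⟨a, h1, h2⟩ := ((hK k hk).2.1 w).exists_pow_eq'
      exact ⟨a, h1.trans_le (orderOf_le_of_pow_eq_one hp.pos hz), h2.symm⟩
    have hab : ∀ k ∈ K, ∀ l ∈ K, ∀ w, k (l w) = l (k w) := fun k hk l hl w => by
      obtain ⟨a, -, ha⟩ := hex k hk w
      obtain ⟨b, -, hb⟩ := hex l hl w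
      rw [hb, ← Perm.mul_apply, ((hK k hk).1.pow_right b).eq, Perm.mul_apply, ha,
        ← Perm.mul_apply l, ((hK l hl).1.pow_right a).eq, Perm.mul_apply, hb, ← Perm.mul_apply,
        ← Perm.mul_apply, pow_mul_comm]
    have hT : ∀ v ∈ K, ∀ w, v w ≠ w → ∃ i : ℕ, (v ^ i) w = k0 w := fun v hv w hw => by
      obtain ⟨a, h1, ha⟩ := hex v hv w
      obtain ⟨b, -, hb⟩ := hex k0 hk0 w
      have h0 : a ≠ 0 := fun e => hw (by rw [ha, e]; rfl)
      obtain ⟨e, he⟩ := exists_pow_eq_self_of_coprime (x := z) (n := a)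
        ((Nat.coprime_of_lt_prime h0 h1 hp).symm.coprime_dvd_right (orderOf_dvd_of_pow_eq_one hz))
      exact ⟨e * b, by rw [pow_cyc (hK v hv).1 ha, pow_mul, he, hb]⟩
    set C := Finset.univ.filter fun y => (∀ v ∈ K, v x = x → v y = y) ∧ k0 y ≠ y with hCdef
    have hCm : ∀ y, y ∈ C ↔ (∀ v ∈ K, v x = x → v y = y) ∧ k0 y ≠ y := fun y => by simp [hCdef]
    have hinv : ∀ y ∈ C, k0 y ∈ C := fun y hy => (hCm _).2
      ⟨fun v hv h => by rw [hab v hv k0 hk0, ((hCm y).1 hy).1 v hv h],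
        fun e => ((hCm y).1 hy).2 (k0.injective e)⟩
    obtain ⟨g0, g1, g2⟩ := exists_res hinv
    have key : ∀ y w, y ∈ C → w ∉ C → ∃ s ∈ G, s y = g0 y ∧ s w = g0 w := by
      intro y w hy hw
      rw [g1 y hy, g2 w hw]
      by_cases h1 : k0 w = w
      · exact ⟨k0, hKG hk0, rfl, h1⟩
      · have h2 : ¬ ∀ v ∈ K, v x = x → v w = w := fun h => hw ((hCm w).2 ⟨h, h1⟩)
        push Not at h2
        obtain ⟨v, hv, v1, v2⟩ := h2
        obtain ⟨i, hi⟩ := hT v hv w v2
        refine ⟨(v ^ i)⁻¹ * k0, hKG (mul_mem (inv_mem (pow_mem hv i)) hk0), ?_, ?_⟩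
        · rw [Perm.mul_apply, Perm.inv_eq_iff_eq, Perm.pow_apply_eq_self_of_apply_eq_self
            (((hCm _).1 (hinv y hy)).1 v hv v1)]
        · rw [Perm.mul_apply, ← hi, ia]
    have hg0 : g0 ∈ G := hC g0 fun a c => by
      by_cases ha : a ∈ C <;> by_cases hc : c ∈ C
      · exact ⟨k0, hKG hk0, (g1 a ha).symm, (g1 c hc).symm⟩
      · exact key a c ha hc
      · obtain ⟨y, hy, e1, e2⟩ := key c a hc ha
        exact ⟨y, hy, e2, e1⟩
      · exact ⟨1, one_mem _, (g2 a ha).symm, (g2 c hc).symm⟩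
    have hxC : x ∈ C := (hCm x).2 ⟨fun _ _ h => h, hx⟩
    have hsup : g0.support ⊆ C := fun y hy => by
      by_contra h; exact Perm.mem_support.1 hy (g2 y h)
    have hord : orderOf g0 = p := orderOf_eq_prime (Equiv.ext fun y => by
      by_cases h : y ∈ C
      · obtain ⟨a, -, ha⟩ := hex k0 hk0 y
        rw [pow_res hinv g1 p y h, pow_cyc (hK k0 hk0).1 ha, pow_right_comm, hz, one_pow]
      · exact Perm.pow_apply_eq_self_of_apply_eq_self (g2 y h) p)
      fun e => hx (by rw [← g1 x hxC, e]; rfl)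
    have hlt : Nat.card (fixS K {x}) < n := by
      have hle : fixS K {x} ≤ K := fun _ h => (mem_fixS.1 h).1
      by_contra h
      exact hx ((mem_fixS.1 ((Subgroup.eq_of_le_of_card_ge hle (by omega)).ge hk0)).2 x
        (Finset.mem_singleton_self x))
    obtain ⟨r, g, h1, h2, h3⟩ := ih _ hlt (fixS K {x}) (S \ C) rfl
      (fun _ h => hKG (mem_fixS.1 h).1) fun k hk => ⟨(hK k hk.1).1, (hK k hk.1).2.1, fun y hy =>
        Finset.mem_sdiff.2 ⟨(hK k hk.1).2.2 hy, fun h => Perm.mem_support.1 hy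
          (((hCm y).1 h).1 k hk.1 (hk.2 x (Finset.mem_singleton_self x)))⟩⟩
    have hd : ∀ i, Disjoint g0.support (g i).support := fun i =>
      Finset.disjoint_sdiff.mono hsup (h1 i).2.2
    refine ⟨r + 1, Fin.cons g0 g, fun i => ?_, fun i j hij => ?_, ?_⟩
    · refine Fin.cases ⟨hg0, hord, fun y hy => (hK k0 hk0).2.2 (Perm.mem_support.2
        ((hCm y).1 (hsup hy)).2)⟩ (fun i => ⟨(h1 i).1, (h1 i).2.1,
          (h1 i).2.2.trans Finset.sdiff_subset⟩) i
    · revert hij
      refine Fin.cases ?_ (fun i => ?_) i <;> refine Fin.cases ?_ (fun j => ?_) j <;> intro hij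
      · exact absurd rfl hij
      · exact hd j
      · exact (hd i).symm
      · exact h2 i j fun e => hij (e ▸ rfl)
    · refine (card_le_orbit K x (T := (Finset.range p).image fun a => (z ^ a) x) fun k hk => ?_).trans ?_
      · obtain ⟨a, ha, e⟩ := hex k hk x
        exact Finset.mem_image.2 ⟨a, Finset.mem_range.2 ha, e.symm⟩
      · rw [pow_succ']
        exact Nat.mul_le_mul (Finset.card_image_le.trans (Finset.card_range p).le) h3

theorem pk : PkStmt.{u} := by
  intro α _ _ G P p S hC hp hPG hP hS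
  classical
  haveI := Fact.mk hp
  obtain ⟨z, z1, z2, z3, z4⟩ := exists_z hp hP hS
  have hle : P ≤ Subgroup.centralizer {z} := fun g hg =>
    Subgroup.mem_centralizer_singleton_iff.2 (z2 g hg).eq
  let φ := (Perm.OnCycleFactors.toPermHom z).comp (Subgroup.inclusion hle)
  obtain ⟨r, g, h1, h2, h3⟩ := pk_ind hC hp z1 _ (φ.ker.map P.subtype) S rfl
    ((Subgroup.map_subtype_le _).trans hPG) (by
      rintro _ ⟨k, hk, rfl⟩
      refine ⟨z2 k k.2, fun x => ?_, hS k k.2⟩
      by_cases hx : z x = x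
      · rw [Subgroup.coe_subtype, z4 x hx k k.2]
      · have h4 := (Perm.OnCycleFactors.mem_ker_toPermHom_iff _ _).1
          (show Subgroup.inclusion hle k ∈ (Perm.OnCycleFactors.toPermHom z).ker from hk) _
          (Perm.cycleOf_mem_cycleFactorsFinset_iff.2 (Perm.mem_support.2 hx))
        have h5 : (k : Perm α) x ∈ (z.cycleOf x).support := Perm.mem_support.2 fun e => hx (by
          rw [← Perm.mul_apply, ← (show Commute (k : Perm α) _ from h4).eq, Perm.mul_apply,
            Perm.cycleOf_apply_self] at e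
          exact (k : Perm α).injective e)
        exact (Perm.mem_support_cycleOf_iff.1 h5).1)
  refine ⟨r, g, h1, h2, ?_⟩
  rw [Subgroup.card_map_of_injective (Subgroup.subtype_injective _)] at h3
  obtain ⟨e, he⟩ := IsPGroup.iff_card.1 hP
  obtain ⟨f, hf⟩ := IsPGroup.iff_card.1 (hP.of_surjective _ φ.rangeRestrict_surjective)
  have hb : z.cycleFactorsFinset.card ≤ S.card / p := by
    by_cases hz : z = 1
    · simp [hz]
    · obtain ⟨n, hn⟩ := Perm.cycleType_prime_order (σ := z) (by rwa [orderOf_eq_prime z1 hz])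
      rw [Nat.le_div_iff_mul_le hp.pos]
      refine le_trans (le_of_eq ?_) (Finset.card_le_card z3)
      have h4 : z.cycleType.card = z.cycleFactorsFinset.card := by
        rw [Perm.cycleType_def, Multiset.card_map]; rfl
      rw [← Perm.sum_cycleType, ← h4, hn, Multiset.sum_replicate, orderOf_eq_prime z1 hz,
        smul_eq_mul, Multiset.card_replicate]
  have h4 : f ≤ (S.card / p).factorial.factorization p := by
    rw [← hp.pow_dvd_iff_le_factorization (Nat.factorial_ne_zero _), ← hf]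
    refine (Subgroup.card_subgroup_dvd_card _).trans ?_
    rw [Nat.card_perm, Nat.card_eq_fintype_card, Fintype.card_coe]
    exact Nat.factorial_dvd_factorial hb
  rw [he, Nat.pow_dvd_pow_iff_le_right hp.one_lt, ← Nat.pow_le_pow_iff_right hp.one_lt, ← he,
    ← φ.ker.card_mul_index, Subgroup.index_ker, hf, pow_add]
  exact Nat.mul_le_mul h3 (Nat.pow_le_pow_right hp.pos h4)

end Cfsg.Agent.H87.PS
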