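import Cfsg.Agent.H87.PSU2

/-!
PS: the numeric piece U1.
-/

set_option autoImplicit false

namespace Cfsg.Agent.H87.PS

/-- The least `m ≥ k` with `4 N ≤ 3 m ^ 2`. -/
def mm (N : ℕ) : ℕ → ℕ → ℕ
  | 0, k => k
  | f + 1, k => if 3 * (k * k) < 4 * N then mm N f (k + 1) else k

theorem mm_le {N m : ℕ} (h : 4 * N ≤ 3 * m ^ 2) : ∀ f k, k ≤ m → mm N f k ≤ m
  | 0, _, hk => hk
  | f + 1, k, hk => by
    rw [mm]
    split_ifs with h1
    · refine mm_le h f _ (lt_of_le_of_ne hk ?_)
      rintro rfl
      rw [pow_two] at h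
      omega
    · exact hk

/-- The primes that do not divide the order. -/
def kill (n t p : ℕ) : Bool := decide (4 ≤ t) && decide (5 ≤ p) && decide (n - t < p * p) &&
  decide (t ≤ p) && decide (((n - t) / p).factorial <
    (n - (n - t) / p * p - 1).descFactorial (t - 1))

theorem not_wok {n t p : ℕ} (hp : 0 < p) (h : kill n t p = true) : ¬ WOK n t p := by
  rintro ⟨q, f, h1, h2, h3, h4⟩
  simp only [kill, Bool.and_eq_true, decide_eq_true_iff] at h
  have h5 : q ≤ (n - t) / p := (Nat.le_div_iff_mul_le hp).2 (by omega)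
  have h6 := Nat.mul_le_mul_right p h5
  have h7 := Nat.mul_le_mul_right p h3
  have h8 := Nat.factorial_le h5
  have h9 := Nat.descFactorial_le (t - 1) (show n - (n - t) / p * p - 1 ≤ f - 1 by omega)
  omega

/-- The test for one pair. -/
def chk (n t m : ℕ) : Bool := decide (n.descFactorial t *
  prodB (fun p => if kill n t p then 0 else ex0 (n - t + 1) (n - t) m p) ((n - t) / 2) PR ≤ 4 ^ n)

/-- The test for one degree. -/
def chkN (n : ℕ) : Bool := (List.range (tm n)).all fun i => chk n (i + 1) (mm (n - (i + 1)) 40 4)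

/-- The test for an interval. -/
def chkI (a k : ℕ) : Bool := (List.range k).all fun i => chkN (a + i)

theorem chk_of {a k n : ℕ} (h : chkI a k = true) (h1 : a ≤ n) (h2 : n < a + k) :
    chkN n = true := by
  have := List.all_eq_true.1 h (n - a) (List.mem_range.2 (by omega))
  rwa [Nat.add_sub_cancel' h1] at this

theorem c0 : chkI 22 178 = true := by decide +kernel

theorem c1 : chkI 200 214 = true := by decide +kernel

/-- The test for larger degrees. -/
def fU (a b m : ℕ) : Bool := decide (b ≤ 1000) && decide (3 * ((m - 1) * (m - 1)) < 4 * (a - 15)) &&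
  decide (b ^ 15 * prodB (ex0 (a - 14) (b - 1) m) ((b - 1) / 2) PR ≤ 4 ^ a)

theorem goU : go fU 1000 414
  [(416, 24), (417, 24), (423, 24), (428, 24), (436, 24), (441, 24), (448, 24), (458, 25), (466,
  25), (476, 25), (486, 25), (504, 26), (524, 26), (540, 27), (556, 27), (573, 27), (597, 28),
  (626, 28), (660, 29), (694, 30), (729, 31), (771, 31), (816, 32), (865, 33), (926, 34), (993,
  35), (1000, 37)] = true := by decide +kernel

theorem u1 : U1Stmt := by
  intro n t m' x h1 h2 ht hT h4 hm hx he hw
  have h15 := tm_le n (by omega) h1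
  have htm := le_tm hT (by omega)
  rcases lt_or_ge n 414 with hn | hn
  · have h3 : chkN n = true := by
      rcases lt_or_ge n 200 with h | h
      · exact chk_of c0 h1 (by omega)
      · exact chk_of c1 h (by omega)
    have h5 := List.all_eq_true.1 h3 (t - 1) (List.mem_range.2 (by omega))
    rw [Nat.sub_add_cancel ht, chk, decide_eq_true_iff] at h5
    refine le_trans (Nat.mul_le_mul_left _
      (Nat.le_of_dvd (PR_pos _ _) (dvd_of_fac hx fun p hp => ?_))) h5
    rcases le_or_gt p ((n - t) / 2) with h | h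
    · refine (pow_dvd_pow p ?_).trans (dvd_prodB _ h PR PR_sorted (mem_PR hp (by omega)))
      by_cases hk : kill n t p = true
      · rw [if_pos hk, Nat.factorization_eq_zero_of_not_dvd fun hd => not_wok hp.pos hk ?_]
        simp only [kill, Bool.and_eq_true, decide_eq_true_iff] at hk
        exact hw hk.1.1.1.1 p hp hk.1.1.1.2 hd hk.1.1.2
      · rw [if_neg hk]
        exact le_ex0 hp le_rfl (by omega) (mm_le hm _ _ h4) (he p hp)
    · rw [exp_zero hp (by omega) (he p hp)]; simp
  · obtain ⟨a, b, m, ha, hb, h⟩ := go_spec h2 _ _ goU hn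
    simp only [fU, Bool.and_eq_true, decide_eq_true_iff] at h
    obtain ⟨⟨h3, h5⟩, h6⟩ := h
    have h7 : m ≤ m' := m_le (N := n - t) (by omega) hm
    refine le_trans (Nat.mul_le_mul ((Nat.descFactorial_le_pow n t).trans
      ((Nat.pow_le_pow_left hb t).trans (Nat.pow_le_pow_right (by omega) (by omega))))
      (Nat.le_of_dvd (PR_pos _ _) (dvd_of_fac hx fun p hp => ?_)))
      (h6.trans (Nat.pow_le_pow_right (by norm_num) ha))
    rcases le_or_gt p ((b - 1) / 2) with h | h
    · exact (pow_dvd_pow p (le_ex0 hp (by omega) (by omega) h7 (he p hp))).trans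
        (dvd_prodB _ h PR PR_sorted (mem_PR hp (by omega)))
    · rw [exp_zero hp (by omega) (he p hp)]; simp

end Cfsg.Agent.H87.PS
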