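import Cfsg.Agent.H87.PSU2

/-!
PS: the numeric piece U3.
-/

set_option autoImplicit false

namespace Cfsg.Agent.H87.PS

theorem sum_sqrt_le (N : ℕ) : ∀ I : ℕ,
    (∑ i ∈ Finset.range I, Nat.sqrt (N / (i + 1))) ^ 2 ≤ 4 * N * I
  | 0 => by simp
  | I + 1 => by
    rw [Finset.sum_range_succ]
    have h1 := sum_sqrt_le N I
    have h2 : Nat.sqrt (N / (I + 1)) ^ 2 * (I + 1) ≤ N :=
      (Nat.mul_le_mul_right _ (Nat.sqrt_le' _)).trans (Nat.div_mul_le_self _ _)
    generalize ∑ i ∈ Finset.range I, Nat.sqrt (N / (i + 1)) = S at *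
    generalize Nat.sqrt (N / (I + 1)) = s at *
    have h3 : 2 * (I + 1) * (S * s) ≤ (I + 1) * (4 * N) - N := by
      rw [← Nat.pow_le_pow_iff_left (n := 2) two_ne_zero,
        show (I + 1) * (4 * N) - N = (4 * I + 3) * N by
          rw [Nat.sub_eq_iff_eq_add (by nlinarith)]; ring]
      have := Nat.mul_le_mul h1 h2
      nlinarith [Nat.mul_le_mul_left (4 * (I + 1)) this]
    have h4 : (I + 1) * (2 * (S * s) + s ^ 2) ≤ (I + 1) * (4 * N) := by
      have : N ≤ (I + 1) * (4 * N) := by nlinarith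
      have h5 := Nat.add_le_add h3 h2
      rw [Nat.sub_add_cancel this] at h5
      nlinarith
    have h5 := Nat.le_of_mul_le_mul_left h4 (Nat.succ_pos I)
    nlinarith

/-- A product of primorials. -/
def fam (N I : ℕ) : ℕ := ∏ i ∈ Finset.range I, primorial (Nat.sqrt (N / (i + 1)) + 1)

theorem fam_pos (N I : ℕ) : 0 < fam N I := Finset.prod_pos fun _ _ => primorial_pos _

theorem dvd_fam {N I p k : ℕ} (hp : p.Prime) (hk : k ≤ I) (h : k * ((p - 1) * (p - 1)) ≤ N) :
    p ^ k ∣ fam N I := by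
  refine dvd_trans ?_ (Finset.prod_dvd_prod_of_subset _ _ _ (Finset.range_subset_range.2 hk))
  conv_lhs => rw [← Finset.card_range k, ← Finset.prod_const]
  refine Finset.prod_dvd_prod_of_dvd _ _ fun i hi => hp.dvd_primorial_iff.2 ?_
  have h1 : p - 1 ≤ Nat.sqrt (N / (i + 1)) := by
    rw [Nat.le_sqrt, Nat.le_div_iff_mul_le (Nat.succ_pos i), mul_comm]
    exact (Nat.mul_le_mul_right _ (Finset.mem_range.1 hi)).trans h
  omega

theorem fam_le {N I c : ℕ} (h : 4 * N * I ≤ c ^ 2) : fam N I ≤ 2 ^ (2 * (c + I)) := by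
  have h1 := (Nat.pow_le_pow_iff_left two_ne_zero).1 ((sum_sqrt_le N I).trans h)
  calc _ ≤ ∏ i ∈ Finset.range I, 4 ^ (Nat.sqrt (N / (i + 1)) + 1) :=
        Finset.prod_le_prod' fun _ _ => primorial_le_four_pow _
    _ = 4 ^ (∑ i ∈ Finset.range I, Nat.sqrt (N / (i + 1)) + I) := by
        rw [Finset.prod_pow_eq_pow_sum, Finset.sum_add_distrib]; simp
    _ ≤ 4 ^ (c + I) := Nat.pow_le_pow_right (by norm_num) (by omega)
    _ = _ := by rw [pow_mul]; rfl

/-- The weights. -/
def CW : List (ℕ × ℕ) :=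
  [(2, 50001), (3, 26417), (5, 11610), (7, 6685), (11, 3145), (13, 2373), (17, 1503), (19,
  1243), (23, 894), (29, 599), (31, 533), (37, 392), (41, 327), (43, 301), (47, 257), (53, 208),
  (59, 172), (61, 163), (67, 138), (71, 124), (73, 118), (79, 103), (83, 94), (89, 83), (97,
  71), (101, 66), (103, 64), (107, 60), (109, 58), (113, 54), (127, 44), (131, 42), (137, 39),
  (139, 38), (149, 33), (151, 32), (157, 30), (163, 28), (167, 27), (173, 25), (179, 24), (181,
  24), (191, 21), (193, 21), (197, 20), (199, 20), (211, 18), (223, 16), (227, 16), (229, 16),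
  (233, 15), (239, 14), (241, 14), (251, 13), (257, 13), (263, 12), (269, 12), (271, 12), (277,
  11), (281, 11), (283, 11), (293, 10), (307, 9), (311, 9), (313, 9), (317, 9), (331, 8), (337,
  8), (347, 8), (349, 7), (353, 7), (359, 7), (367, 7), (373, 7), (379, 6), (383, 6), (389, 6),
  (397, 6), (401, 6), (409, 6), (419, 5), (421, 5), (431, 5), (433, 5), (439, 5), (443, 5),
  (449, 5), (457, 5), (461, 5), (463, 5), (467, 5), (479, 4), (487, 4), (491, 4), (499, 4),
  (503, 4), (509, 4), (521, 4), (523, 4), (541, 4), (547, 4), (557, 3), (563, 3), (569, 3),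
  (571, 3), (577, 3), (587, 3), (593, 3), (599, 3), (601, 3), (607, 3), (613, 3), (617, 3),
  (619, 3), (631, 3), (641, 3), (643, 3), (647, 3), (653, 3), (659, 3), (661, 3), (673, 3),
  (677, 3), (683, 3), (691, 2)]

/-- The weight of `p`. -/
def cw (p : ℕ) : ℕ := (CW.lookup p).getD 0

theorem cw_ok : PR.all (fun p => decide (700 < p) ||
    decide (p ^ 100000 ≤ 2 ^ (cw p * (p * (p - 1))))) = true := by decide +kernel

/-- The sum of the weights. -/
def sumB (B : ℕ) : List ℕ → ℕ
  | [] => 0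
  | p :: l => if B < p then 0 else cw p + sumB B l

theorem sumB_le : sumB 700 PR ≤ 108900 := by decide +kernel

theorem prodB_le (N B D : ℕ) : ∀ l : List ℕ,
    (∀ p ∈ l, B < p ∨ p ^ D ≤ 2 ^ (cw p * (p * (p - 1)))) →
    prodB (fun p => N / (p * (p - 1))) B l ^ D ≤ 2 ^ (sumB B l * N)
  | [], _ => by simp [prodB, sumB]
  | p :: l, h => by
    rw [prodB, sumB]
    split_ifs with h0
    · simp
    · rw [mul_pow, add_mul, pow_add]
      refine Nat.mul_le_mul ?_ (prodB_le N B D l fun q hq => h q (List.mem_cons_of_mem _ hq))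
      have h1 := (h p (by simp)).resolve_left h0
      rw [pow_right_comm]
      refine (Nat.pow_le_pow_left h1 _).trans ?_
      rw [← pow_mul, mul_assoc]
      exact Nat.pow_le_pow_right two_pos (Nat.mul_le_mul_left _ (Nat.mul_div_le _ _))

theorem b3 (N : ℕ) : prodB (fun p => N / (p * (p - 1))) 700 PR ≤ 2 ^ (1089 * N / 1000 + 1) := by
  obtain ⟨D, hD, h⟩ : ∃ D, D = 100000 ∧ PR.all (fun p => decide (700 < p) ||
    decide (p ^ D ≤ 2 ^ (cw p * (p * (p - 1))))) = true := ⟨_, rfl, cw_ok⟩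
  rw [← Nat.pow_le_pow_iff_left (n := D) (by omega), ← pow_mul]
  refine (prodB_le N 700 D PR fun p hp => ?_).trans (Nat.pow_le_pow_right two_pos ?_)
  · simpa using List.all_eq_true.1 h p hp
  · have := Nat.mul_le_mul_right N sumB_le
    subst hD
    omega

theorem lin_le : ∀ k, 14 ≤ k → 1000 * (k + 1) ≤ 2 ^ k := fun k hk => by
  induction k, hk using Nat.le_induction with
  | base => norm_num
  | succ k _ ih => rw [pow_succ]; omega

theorem u3 : U3Stmt := by
  intro n hn m x hm hx he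
  obtain ⟨N, rfl⟩ : ∃ N, n = N + 1 := ⟨n - 1, by omega⟩
  rw [Nat.add_sub_cancel] at hm
  have hm0 : 0 < m := Nat.pos_of_ne_zero (by rintro rfl; omega)
  set T := Nat.sqrt (27 * N / 16) with hT
  have h1 : x ∣ primorial (N / 4) * W N * (prodB (fun p => N / (p * (p - 1))) 700 PR *
      fam N (N / 490700) * (fam N (N / m) * primorial T ^ 5)) := dvd_of_fac hx fun p hp => by
    obtain ⟨c, r, e1, e2, e3⟩ := exp_split hp (by omega) hm (he p hp)
    rw [Nat.add_sub_cancel] at e1 e2 e3
    refine (pow_dvd_pow p e1).trans ?_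
    rw [pow_add, pow_add]
    refine mul_dvd_mul e2 (mul_dvd_mul ?_ ?_)
    · have h2 := Nat.factorization_factorial_le_div_pred hp (N / p)
      rw [Nat.div_div_eq_div_mul] at h2
      refine (pow_dvd_pow p h2).trans ?_
      rcases le_or_gt p 700 with h | h
      · exact (dvd_prodB _ h PR PR_sorted (mem_PR hp (by omega))).mul_right _
      · refine (dvd_fam hp (Nat.div_le_div_left (Nat.mul_le_mul h (show 700 ≤ p - 1 by omega))
          (by norm_num)) ?_).mul_left _
        exact (Nat.mul_le_mul_left _ (Nat.mul_le_mul_right _ (Nat.sub_le _ _))).trans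
          (Nat.div_mul_le_self _ _)
    · rcases e3 with rfl | ⟨q, q1, q2, q3, q4, q5⟩
      · simp
      by_cases h : r * (p * p) ≤ N
      · refine (dvd_fam hp ((Nat.le_div_iff_mul_le hm0).2
          ((Nat.mul_le_mul (Nat.le_succ r) q4).trans q2)) ?_).mul_right _
        exact (Nat.mul_le_mul_left _ (Nat.mul_le_mul (Nat.sub_le _ _) (Nat.sub_le _ _))).trans h
      · have h3 := sq_le (by omega) hm q2 (q5.resolve_left fun h4 =>
          h ((Nat.mul_le_mul (Nat.le_succ r) (Nat.mul_le_mul_right p h4)).trans q2))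
        have h4 : r ≤ 5 := by
          by_contra h5
          have := Nat.mul_le_mul_right (r * (p * p)) (show 6 ≤ r by omega)
          nlinarith
        have h5 : p ≤ T := by
          rw [hT, Nat.le_sqrt, Nat.le_div_iff_mul_le (by norm_num)]
          have := Nat.pow_le_pow_left (Nat.mul_le_mul_right p (show 2 ≤ r + 1 by omega)) 2
          nlinarith
        exact ((pow_dvd_pow p h4).trans
          (pow_dvd_pow_of_dvd (hp.dvd_primorial_iff.2 h5) 5)).mul_left _
  have hI : 4 * (N / m) ^ 2 ≤ 3 * N := by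
    have h2 := Nat.pow_le_pow_left (Nat.div_mul_le_self N m) 2
    refine Nat.le_of_mul_le_mul_left ?_ (show 0 < N by omega)
    nlinarith [Nat.mul_le_mul_right ((N / m) ^ 2) hm]
  have hI' : 500 * (N / m) ≤ N := by
    rw [← Nat.pow_le_pow_iff_left (n := 2) two_ne_zero]
    nlinarith
  have hT' : 390 * T ≤ N := by
    have h2 : T ^ 2 * 16 ≤ 27 * N :=
      (Nat.mul_le_mul_right _ (Nat.sqrt_le' _)).trans (Nat.div_mul_le_self _ _)
    rw [← Nat.pow_le_pow_iff_left (n := 2) two_ne_zero]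
    nlinarith
  have b1 : primorial (N / 4) ≤ 2 ^ (2 * (N / 4)) := by
    rw [pow_mul]; exact primorial_le_four_pow _
  have b2 : W N ≤ 2 ^ (N / 1000 * 10) := by
    rw [pow_mul]
    exact (W_le N).trans (Nat.pow_le_pow_left (le_trans (by omega) (lin_le _ (by omega))) _)
  have b3 := b3 N
  have b4 := fam_le (N := N) (I := N / 490700) (c := N / 350 + 1) (by
    have h2 := Nat.div_mul_le_self N 490700
    have h3 : N ≤ 350 * (N / 350 + 1) := by omega
    nlinarith [Nat.mul_le_mul h3 h3])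
  have b5 := fam_le (N := N) (I := N / m) (c := N / 12 + 1) (by
    have h3 : N ≤ 12 * (N / 12 + 1) := by omega
    have h4 : 576 * (N / m) ≤ N := by
      rw [← Nat.pow_le_pow_iff_left (n := 2) two_ne_zero]
      nlinarith
    nlinarith [Nat.mul_le_mul h3 h3, Nat.mul_le_mul_left N h4])
  have b6 : primorial T ^ 5 ≤ 2 ^ (2 * T * 5) := by
    rw [pow_mul, pow_mul]; exact Nat.pow_le_pow_left (primorial_le_four_pow _) _
  have h2 := (Nat.le_of_dvd (Nat.mul_pos (Nat.mul_pos (primorial_pos _) (W_pos (by omega)))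
    (Nat.mul_pos (Nat.mul_pos (PR_pos _ _) (fam_pos _ _)) (Nat.mul_pos (fam_pos _ _)
      (Nat.pow_pos (primorial_pos _))))) h1).trans
    (Nat.mul_le_mul (Nat.mul_le_mul b1 b2) (Nat.mul_le_mul (Nat.mul_le_mul b3 b4)
      (Nat.mul_le_mul b5 b6)))
  simp only [← pow_add] at h2
  refine (Nat.pow_le_pow_left h2 6).trans ?_
  rw [← pow_mul]
  exact Nat.pow_le_pow_right two_pos (by omega)

end Cfsg.Agent.H87.PS
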