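import Cfsg.Agent.H87.PSFl

/-!
PS: the point stabilizer of a 2-closed group (piece UB).
-/

set_option autoImplicit false
set_option linter.unusedSectionVars false

namespace Cfsg.Agent.H87.PS

open Equiv MulAction

universe u

variable {α : Type u} [Fintype α] [DecidableEq α]

theorem exists_q {g : Perm α} {p : ℕ} (hp : p.Prime) (ho : orderOf g = p) :
    ∃ q, 1 ≤ q ∧ g.support.card = q * p := by
  obtain ⟨n, hn⟩ := Perm.cycleType_prime_order (σ := g) (ho ▸ hp)
  refine ⟨n + 1, by omega, ?_⟩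
  rw [← Perm.sum_cycleType, hn, Multiset.sum_replicate, ho, smul_eq_mul]

theorem exists_indec {G : Subgroup (Perm α)} {p : ℕ} (hp : p.Prime) :
    ∀ (k : ℕ) (g : Perm α), g.support.card = k → g ∈ G → orderOf g = p →
      ∃ h ∈ G, orderOf h = p ∧ h.support ⊆ g.support ∧ Indec G h := by
  intro k
  induction k using Nat.strong_induction_on with
  | _ k ih =>
    intro g hk hg ho
    by_cases hI : Indec G g
    · exact ⟨g, hg, ho, le_rfl, hI⟩
    · simp only [Indec, not_forall, not_or] at hI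
      obtain ⟨h, hh, hx, h1, h2⟩ := hI
      have hon : ∀ x ∈ h.support, h x = g x := fun x hx' =>
        (hx x).resolve_right (Perm.mem_support.1 hx')
      have hsub : h.support ⊆ g.support := fun x hx' =>
        Perm.mem_support.2 (hon x hx' ▸ Perm.mem_support.1 hx')
      have hne : h.support ≠ g.support := fun e => h2 (Equiv.ext fun x => by
        by_cases h3 : x ∈ h.support
        · exact hon x h3
        · rw [Perm.notMem_support.1 h3, Perm.notMem_support.1 (e ▸ h3)])
      have hpow : ∀ j, ∀ x ∈ h.support, (h ^ j) x = (g ^ j) x := by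
        intro j
        induction j with
        | zero => intro x _; rfl
        | succ j ihj =>
          intro x hx'
          rw [pow_succ, pow_succ, Perm.mul_apply, Perm.mul_apply, ← hon x hx',
            ihj _ (Perm.apply_mem_support.2 hx')]
      have hp1 : h ^ p = 1 := Equiv.ext fun x => by
        by_cases h3 : x ∈ h.support
        · rw [hpow p x h3, ← ho, pow_orderOf_eq_one]
        · exact Perm.pow_apply_eq_self_of_apply_eq_self (Perm.notMem_support.1 h3) p
      haveI := Fact.mk hp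
      obtain ⟨w, hw, w1, w2, w3⟩ := ih _ (hk ▸ Finset.card_lt_card ⟨hsub, fun e =>
        hne (Finset.Subset.antisymm hsub e)⟩) h rfl hh (orderOf_eq_prime hp1 h1)
      exact ⟨w, hw, w1, w2.trans hsub, w3⟩

theorem two_of_fix {G : Subgroup (Perm α)} (hG : IsPretransitive G α) {a : α}
    (h : ∀ b c, b ≠ a → c ≠ a → ∃ x ∈ G, x a = a ∧ x b = c) : IsMultiplyPretransitive G α 2 := by
  rw [is_two_pretransitive_iff]
  intro b c d e h1 h2
  obtain ⟨x, hx⟩ := hG.exists_smul_eq b a
  obtain ⟨y, hy⟩ := hG.exists_smul_eq d a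
  have hx' : (x : Perm α) b = a := hx
  have hy' : (y : Perm α) d = a := hy
  obtain ⟨z, hz, z1, z2⟩ := h ((x : Perm α) c) ((y : Perm α) e)
    (fun h3 => h1 ((x : Perm α).injective (hx'.trans h3.symm)))
    (fun h3 => h2 ((y : Perm α).injective (hy'.trans h3.symm)))
  refine ⟨y⁻¹ * ⟨z, hz⟩ * x, ?_, ?_⟩
  · change (y : Perm α)⁻¹ (z ((x : Perm α) b)) = d
    rw [hx', z1, ← hy', ia]
  · change (y : Perm α)⁻¹ (z ((x : Perm α) c)) = e
    rw [z2, ia]

theorem two_le_q {G : Subgroup (Perm α)} {g : Perm α} {p q : ℕ} (hG : IsPreprimitive G α)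
    (hC : Closed G) (h2 : ¬ IsMultiplyPretransitive G α 2) (hp : p.Prime) (hg : g ∈ G)
    (ho : orderOf g = p) (hs : g.support.card = q * p) (hq : 1 ≤ q) (hI : Indec G g)
    (ha : ∃ a, g a = a) : 2 ≤ q := by
  by_contra hlt
  obtain rfl : q = 1 := by omega
  obtain ⟨a, h1, h3⟩ := sub α G g p 1 hG hC hp hg ho hs hp.one_lt hI ha
  refine h2 (two_of_fix hG.toIsPretransitive (a := a) fun b c hb hc => ?_)
  obtain ⟨x, hx, x1, x2⟩ := h3 b hb
  obtain ⟨y, hy, y1, y2⟩ := h3 c hc
  have h4 := Finset.card_le_one.1 (card_cy_le hp ho hs) _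
    (Finset.mem_image_of_mem _ (Perm.mem_support.2 x2)) _
    (Finset.mem_image_of_mem _ (Perm.mem_support.2 y2))
  obtain ⟨k, hk⟩ := cy_eq.1 h4
  refine ⟨y⁻¹ * g ^ k * x, mul_mem (mul_mem (inv_mem hy) (zpow_mem hg k)) hx, ?_, ?_⟩
  · rw [Perm.mul_apply, Perm.mul_apply, x1, Perm.zpow_apply_eq_self_of_apply_eq_self h1,
      Perm.inv_eq_iff_eq, y1]
  · rw [Perm.mul_apply, Perm.mul_apply, hk, ia]

theorem ub (hpk : PkStmt.{u}) : UbStmt.{u} := by
  intro α _ _ G m p a hG hC h2 hm hp
  haveI := Fact.mk hp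
  obtain ⟨Q⟩ := (inferInstance : Nonempty (Sylow p (fixS G {a})))
  have hcard : Nat.card ((Q : Subgroup (fixS G {a})).map (fixS G {a}).subtype) =
      p ^ (Nat.card (fixS G {a})).factorization p := by
    rw [Subgroup.card_map_of_injective (Subgroup.subtype_injective _), Sylow.card_eq_multiplicity]
  obtain ⟨r, g0, hg0, hd0, hdiv⟩ := hpk α G _ p (Finset.univ.erase a) hC hp
    ((Subgroup.map_subtype_le _).trans fun _ h => (mem_fixS.1 h).1) (IsPGroup.of_card hcard) (by
      rintro _ ⟨y, _, rfl⟩ x hx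
      refine Finset.mem_erase.2 ⟨fun e => Perm.mem_support.1 hx ?_, Finset.mem_univ _⟩
      rw [e]
      exact y.2.2 a (Finset.mem_singleton_self a))
  have hS : (Finset.univ.erase a).card = Fintype.card α - 1 := by
    rw [Finset.card_erase_of_mem (Finset.mem_univ a), Finset.card_univ]
  rw [hcard, hS, Nat.pow_dvd_pow_iff_le_right hp.one_lt] at hdiv
  choose g hg ho hsub hI using fun i => exists_indec (G := G) hp _ (g0 i) rfl (hg0 i).1 (hg0 i).2.1
  choose q hq1 hq using fun i => exists_q hp (ho i)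
  have hgS : ∀ i, (g i).support ⊆ Finset.univ.erase a := fun i => (hsub i).trans (hg0 i).2.2
  have hga : ∀ i, g i a = a := fun i =>
    Perm.notMem_support.1 fun h => (Finset.mem_erase.1 (hgS i h)).1 rfl
  have hd : ∀ i j, i ≠ j → Disjoint (g i).support (g j).support := fun i j h =>
    (hd0 i j h).mono (hsub i) (hsub j)
  have hne : ∀ i, g i ≠ 1 := fun i h => by
    have := ho i
    rw [h, orderOf_one] at this
    exact hp.one_lt.ne this
  have hq2 : ∀ i, 2 ≤ q i := fun i =>
    two_le_q hG hC h2 hp (hg i) (ho i) (hq i) (hq1 i) (hI i) ⟨a, hga i⟩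
  have hmq : ∀ i, m ≤ q i * p := fun i => hq i ▸ hm _ (hg i) (hne i)
  have hqn : ∀ i, q i * p ≤ Fintype.card α - 1 := fun i =>
    hq i ▸ hS ▸ Finset.card_le_card (hgS i)
  refine ⟨r, hdiv, ?_⟩
  rcases Nat.lt_or_ge r 2 with hr | hr
  · rcases Nat.eq_zero_or_pos r with h0 | h0
    · exact Or.inl h0
    refine Or.inr (Or.inl ⟨by omega, ?_⟩)
    let i : Fin r := ⟨0, h0⟩
    refine ⟨q i, hq2 i, hmq i, hqn i, ?_⟩
    rcases le_or_gt (p * p) (Fintype.card α - 1) with hpp | hpp
    · exact Or.inl hpp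
    have hqp : q i < p := Nat.lt_of_mul_lt_mul_right ((hqn i).trans_lt hpp)
    by_cases hz : ∀ z ∈ G, Disjoint z.support (g i).support → z = 1
    · obtain ⟨b, hb, hb'⟩ := sub α G (g i) p (q i) hG hC hp (hg i) (ho i) (hq i) hqp (hI i)
        ⟨a, hga i⟩
      refine Or.inr (Or.inr (fl α G (g i) p (q i) b hG.toIsPretransitive hC hp (hg i) (ho i)
        (hq i) hb hb' hz fun h => ?_))
      rw [card_fixS_eq hG.toIsPretransitive b a, hp.pow_dvd_iff_le_factorization
        Nat.card_pos.ne'] at h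
      have h3 : ((Fintype.card α - 1) / p).factorial.factorization p = 0 :=
        Nat.factorization_eq_zero_of_not_dvd fun h4 =>
          absurd (hp.dvd_factorial.1 h4) (not_le.2 (Nat.div_lt_of_lt_mul hpp))
      omega
    · push Not at hz
      obtain ⟨z, z1, z2, z3⟩ := hz
      exact Or.inr (Or.inl (rs α G (g i) z p (q i) m hG hC hm hp (hg i) (ho i) (hq i) hqp (hI i)
        z1 z3 z2))
  · obtain ⟨i, -, hi⟩ := Finset.exists_min_image Finset.univ q ⟨⟨0, by omega⟩, Finset.mem_univ _⟩
    refine Or.inr (Or.inr ⟨q i, hr, ?_, hq2 i, hmq i, ?_⟩)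
    · calc r * (q i * p) = ∑ _j : Fin r, q i * p := by simp
        _ ≤ ∑ j : Fin r, (g j).support.card := Finset.sum_le_sum fun j _ =>
          hq j ▸ Nat.mul_le_mul_right p (hi j (Finset.mem_univ j))
        _ = (Finset.univ.biUnion fun j => (g j).support).card :=
          (Finset.card_biUnion fun j _ k _ h => hd j k h).symm
        _ ≤ _ := hS ▸ Finset.card_le_card (Finset.biUnion_subset.2 fun j _ => hgS j)
    · rcases le_or_gt p (q i) with h | h
      · exact Or.inl h
      haveI : Nontrivial (Fin r) := Fin.nontrivial_iff_two_le.2 hr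
      obtain ⟨j, hj⟩ := exists_ne i
      exact Or.inr (rs α G (g i) (g j) p (q i) m hG hC hm hp (hg i) (ho i) (hq i) h (hI i)
        (hg j) (hne j) (hd j i hj))

end Cfsg.Agent.H87.PS
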