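import Cfsg.Agent.H18.RfSc

/-! Project RF, piece WQG: weak closure of `Q` in the centralizer, code case. -/

set_option autoImplicit false

namespace Cfsg.Agent.H87.RfWqG

open Cfsg Subgroup Cfsg.Agent.H18.MaxOff Cfsg.Agent.H18.Rf
open Cfsg.Agent.H48 (IsWord)
open Cfsg.Agent.H49 (XS LX)
open scoped symmDiff Pointwise

universe u

/-- A 2-subgroup of an overgroup of a weakly closed 2-subgroup is conjugate into its normalizer. -/
theorem into {G : Type u} [Group G] [Finite G] {V H R : Subgroup G} (hw : WC V)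
    (hV : IsPGroup 2 V) (hR : IsPGroup 2 R) (hVH : V ≤ H) (hRH : R ≤ H) :
    ∃ h ∈ H, cj h R ≤ NN V := by
  have : Fact (Nat.Prime 2) := ⟨Nat.prime_two⟩
  obtain ⟨S, hS⟩ := (hV.comap_subtype (K := H)).exists_le_sylow
  obtain ⟨S', hS'⟩ := (hR.comap_subtype (K := H)).exists_le_sylow
  obtain ⟨n, hn⟩ := MulAction.exists_smul_eq H S' S
  let S0 : Subgroup G := (S : Subgroup H).map H.subtype
  have hS0 : IsPGroup 2 S0 := S.isPGroup'.map _
  have hVS : V ≤ S0 := fun x hx => ⟨⟨x, hVH hx⟩, hS (mem_subgroupOf.2 hx), rfl⟩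
  refine ⟨n, n.2, le_trans ?_ (hw.le_norm hS0 hVS)⟩
  intro x hx
  rw [mem_cj] at hx
  have hxN : x ∈ H := by
    have := H.mul_mem (H.mul_mem n.2 (hRH hx)) (H.inv_mem n.2)
    simpa [mul_assoc] using this
  refine ⟨⟨x, hxN⟩, ?_, rfl⟩
  have h1 : (n⁻¹ * ⟨x, hxN⟩ * n : H) ∈ (S' : Subgroup H) := hS' (mem_subgroupOf.2 hx)
  rw [← hn]
  show _ ∈ ((n • S' : Sylow 2 H) : Subgroup H)
  rw [Sylow.coe_subgroup_smul, Subgroup.mem_pointwise_smul_iff_inv_smul_mem]
  simpa [mul_assoc] using h1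

theorem card_pt : Fintype.card GolayPt = 24 := by
  simp [GolayPt]

theorem card_sd (c d : Finset GolayPt) : (c ∆ d).card + 2 * (c ∩ d).card = c.card + d.card := by
  have h1 : c ∆ d = (c ∪ d) \ (c ∩ d) := symmDiff_eq_sup_sdiff_inf c d
  have h2 := Finset.card_sdiff_add_card_eq_card
    (Finset.inter_subset_union : c ∩ d ⊆ c ∪ d)
  have h3 := Finset.card_union_add_card_inter c d
  rw [h1]
  omega

section

variable {G : Type u} [Group G] {V : Subgroup G} {ρ : NN V →* M24} {ψ : Finset GolayPt → G}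

theorem psi_compl (g : Gol V ρ ψ) {e : Finset GolayPt} (he : IsWord e) : ψ eᶜ = ψ e := by
  have h1 : eᶜ = e ∆ Finset.univ := by
    ext x
    simp [Finset.mem_symmDiff]
  rw [h1, g.add _ _ he H48.isWord_univ, (g.ker _ H48.isWord_univ).2 (Or.inr rfl), mul_one]

/-- An element of `V` conjugate to a dodecad is a dodecad. -/
theorem dod [Finite G] (fc : FcStmt.{u}) (st : St V ρ) (g : Gol V ρ ψ) (wc : WC V)
    {e d : Finset GolayPt} (he : IsWord e) (hd : d ∈ dodecads) {c : G}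
    (h : c * ψ e * c⁻¹ = ψ d) : e.card = 12 := by
  have hdw : IsWord d := hd.1
  have hd12 : d.card = 12 := hd.2
  obtain ⟨n, hn, hc⟩ := fc G V st.el wc {ψ e} c (by
    rintro b rfl
    exact ⟨g.mem _ he, h ▸ g.mem _ hdw⟩)
  have h1 := hc _ rfl
  have h2 := g.act ⟨n, hn⟩ e he
  have hw : IsWord (ρ ⟨n, hn⟩ • e) := H48.IsWord.smul (ρ ⟨n, hn⟩).2 he
  have hcard : (ρ ⟨n, hn⟩ • e).card = e.card := Finset.card_smul_finset _ _
  have h3 : ψ (ρ ⟨n, hn⟩ • e) = ψ d := by rw [← h2, ← h, h1]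
  have h4 : ψ ((ρ ⟨n, hn⟩ • e) ∆ d) = 1 := by
    rw [g.add _ _ hw hdw, h3]
    exact st.el _ (g.mem _ hdw)
  rcases (g.ker _ (hw.symmDiff hdw)).1 h4 with h5 | h5
  · rw [← Finset.bot_eq_empty, symmDiff_eq_bot] at h5
    rw [← hcard, h5, hd12]
  · rw [← Finset.top_eq_univ, symmDiff_eq_top] at h5
    rw [← hcard, h5.eq_compl, Finset.card_compl, card_pt, hd12]

end

theorem wqG (fc : FcStmt.{u}) (fg : Fg1Stmt.{u}) (dk : DkStmt.{u}) : WqGStmt.{u} := by
  intro G _ _ V ρ ψ O Q W gs c hc hcQ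
  have st := gs.st
  have gol := gs.gol
  have lc := gs.lc
  have lg := gs.lg
  have hO : IsWord O := gs.oct.1
  have hO8 : O.card = 8 := gs.oct.2
  have hpV : IsPGroup 2 V := pg_of_sq st.el
  have hpQ : IsPGroup 2 Q := lc.xs.isPGroup
  have hVC : V ≤ C1 (ψ O) := fun v hv => by
    rw [mem_centralizer_singleton_iff]
    exact comm_of_sq st.el hv lc.zV
  have hVM : V ≤ MM V (ψ O) := le_inf le_normalizer hVC
  have hVQ : V ≤ NN Q := hVM.trans lc.mq
  have hQC : Q ≤ C1 (ψ O) := lc.qm.trans inf_le_right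
  have hQV : Q ≤ NN V := lc.qm.trans inf_le_left
  have hcjC : ∀ a ∈ C1 (ψ O), ∀ A : Subgroup G, A ≤ C1 (ψ O) → cj a A ≤ C1 (ψ O) := by
    intro a ha A hA x hx
    have := mul_mem (mul_mem ha (hA (mem_cj.1 hx))) (inv_mem ha)
    simpa [mul_assoc] using this
  have hpcj : ∀ (a : G) (A : Subgroup G), IsPGroup 2 A → IsPGroup 2 (cj a A) :=
    fun a A hA => hA.map _
  obtain ⟨n, hn, hnV⟩ := into (H := C1 (ψ O) ⊓ NN Q) gs.wc hpV (hpcj c Q hpQ)
    (le_inf hVC hVQ) (le_inf (hcjC c hc Q hQC) hcQ)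
  rw [cj_cj] at hnV
  have hc' : n * c ∈ C1 (ψ O) := mul_mem hn.1 hc
  suffices h : cj (n * c) Q = Q by
    have h1 := congrArg (cj n⁻¹) h
    rw [cj_cj, inv_mul_cancel_left, mem_norm_iff.1 (inv_mem hn.2)] at h1
    exact h1
  generalize n * c = a at hnV hc'
  have haz : a * ψ O * a⁻¹ = ψ O := by
    rw [mem_centralizer_singleton_iff.1 hc', mul_inv_cancel_right]
  have hxs : XS (cj a Q) (ψ O) := by
    have := lc.xs.map_conj a
    rwa [haz] at this
  have hWV : W ≤ V := lc.qv ▸ inf_le_right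
  have hnd : ∀ d ∈ dodecads, ψ d ∉ cj a Q := by
    intro d hd hmem
    rw [mem_cj] at hmem
    by_cases hW : a⁻¹ * ψ d * a ∈ W
    · obtain ⟨e, he, hee⟩ := gol.sur _ (hWV hW)
      have h12 : e.card = 12 := dod fc st gol gs.wc he hd (c := a) (by rw [hee]; group)
      have h1 := card_sd e O
      have h2 := (he.symmDiff hO).card_cases
      rcases (lg.mw e he).1 (hee ▸ hW) with h | h
      · rw [Finset.disjoint_iff_inter_eq_empty.1 h, Finset.card_empty] at h1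
        omega
      · rw [Finset.inter_eq_right.2 h] at h1
        omega
    · exact dk G V ρ ψ O Q W gs _ hmem hW d hd a⁻¹ (by rw [inv_inv])
  obtain ⟨f1, f2⟩ := fg G V ρ ψ st gol O gs.oct (cj a Q) hxs (by rw [card_cj, lg.cQ]) hnV hnd
  have hle : cj a Q ≤ Q ⊔ V := fun x hx => (lg.im ⟨x, hnV hx⟩).2 (f1 ⟨x, hnV hx⟩ hx)
  have hWQ : W ≤ cj a Q := by
    intro w hw
    obtain ⟨e, he, rfl⟩ := gol.sur _ (hWV hw)
    rcases (lg.mw e he).1 hw with h | h
    · exact f2 e he h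
    · rw [← psi_compl gol he]
      refine f2 _ he.compl ?_
      exact (Finset.disjoint_left.2 fun x hx hxO => Finset.mem_compl.1 hx (h hxO))
  have hVQ' : V ≤ NN (cj a Q) := by
    intro v hv
    refine mem_norm_of_le fun x hx => ?_
    obtain ⟨y, hy, b, hb, rfl⟩ := mem_sup_prod hQV (hle hx)
    have h1 := mul_mem (hWQ (lc.vq v hv y hy)) hx
    have h2 : v * (y * b) * v⁻¹ = v * y * v⁻¹ * y⁻¹ * (y * b) := by
      have h3 := comm_of_sq st.el hb (inv_mem hv)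
      calc v * (y * b) * v⁻¹ = v * y * (b * v⁻¹) := by group
        _ = v * y * (v⁻¹ * b) := by rw [h3]
        _ = _ := by group
    rw [h2]
    exact h1
  have hVa : cj a V ≤ NN (cj a Q) := by
    have := cj_mono a hVQ
    rwa [cj_norm] at this
  obtain ⟨k, hk, hkV⟩ := into (H := C1 (ψ O) ⊓ NN (cj a Q)) gs.wc hpV (hpcj a V hpV)
    (le_inf hVC hVQ') (le_inf (hcjC a hc' V hVC) hVa)
  rw [cj_cj] at hkV
  have h1 : k * a ∈ MM V (ψ O) := ⟨mem_norm_iff.2 (gs.wc _ hkV), mul_mem hk.1 hc'⟩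
  have h2 := mem_norm_iff.1 (lc.mq h1)
  rw [← cj_cj, mem_norm_iff.1 hk.2] at h2
  exact h2

end Cfsg.Agent.H87.RfWqG
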