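import Cfsg.Agent.H87.LQ2

/-! Sylow 2-subgroups of type `L_n(q)`, `q > 2` even: unitriangular matrices. -/

set_option autoImplicit false
set_option linter.unusedSectionVars false

namespace Cfsg.Agent.H87.US

open Matrix Cfsg.Agent.H87.LQ

universe v

variable {n : ℕ} {F : Type v} [Field F]

/-- strictly upper triangular -/
def SU (N : Matrix (Fin n) (Fin n) F) : Prop := ∀ i j : Fin n, j ≤ i → N i j = 0

/-- `v` lies in the span `V_k` of the first `k` basis vectors -/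
def Lo (k : ℕ) (v : Fin n → F) : Prop := ∀ j : Fin n, k ≤ (j : ℕ) → v j = 0

/-- `η` kills `V_k` -/
def Hi (k : ℕ) (η : Fin n → F) : Prop := ∀ j : Fin n, (j : ℕ) < k → η j = 0

/-- `N` maps everything to `V_k` and kills `V_k` -/
def Blk (k : ℕ) (N : Matrix (Fin n) (Fin n) F) : Prop :=
  ∀ i j : Fin n, k ≤ (i : ℕ) ∨ (j : ℕ) < k → N i j = 0

/-- the basis vector number `i` (counting from `0`) -/
def bv (i : ℕ) : Fin n → F := fun j => if (j : ℕ) = i then 1 else 0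

/-- first basis vector -/
abbrev ve : Fin n → F := bv 0
/-- second basis vector -/
abbrev vb : Fin n → F := bv 1
/-- last but one coordinate -/
abbrev va : Fin n → F := bv (n - 2)
/-- last coordinate -/
abbrev vf : Fin n → F := bv (n - 1)

section

variable {N N' : Matrix (Fin n) (Fin n) F} {u v η ψ : Fin n → F} {k l : ℕ}

theorem SU.zero : SU (0 : Matrix (Fin n) (Fin n) F) := fun _ _ _ => rfl
theorem SU.add (h : SU N) (h' : SU N') : SU (N + N') := fun i j e => by simp [h i j e, h' i j e]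
theorem SU.smul (h : SU N) (c : F) : SU (c • N) := fun i j e => by simp [h i j e]
theorem SU.mul (h : SU N) (h' : SU N') : SU (N * N') := fun i j e => by
  rw [mul_apply]
  refine Finset.sum_eq_zero fun m _ => ?_
  rcases le_total m i with k | k
  · rw [h i m k, zero_mul]
  · rw [h' m j (e.trans k), mul_zero]

theorem Lo.zero : Lo k (0 : Fin n → F) := fun _ _ => rfl
theorem Lo.add (h : Lo k u) (h' : Lo k v) : Lo k (u + v) := fun j e => by simp [h j e, h' j e]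
theorem Lo.smul (h : Lo k u) (c : F) : Lo k (c • u) := fun j e => by simp [h j e]
theorem Lo.mono (h : Lo k u) (e : k ≤ l) : Lo l u := fun j e' => h j (e.trans e')
theorem lo_top (v : Fin n → F) : Lo n v := fun j e => absurd j.2 (by omega)
theorem lo_zero : Lo 0 v ↔ v = 0 := ⟨fun h => funext fun j => h j (Nat.zero_le _), fun e => e ▸ Lo.zero⟩
theorem lo_bv {i : ℕ} (e : i < k) : Lo k (bv i : Fin n → F) := fun j e' => if_neg (by omega)

theorem Hi.zero : Hi k (0 : Fin n → F) := fun _ _ => rfl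
theorem Hi.add (h : Hi k u) (h' : Hi k v) : Hi k (u + v) := fun j e => by simp [h j e, h' j e]
theorem Hi.smul (h : Hi k u) (c : F) : Hi k (c • u) := fun j e => by simp [h j e]
theorem Hi.mono (h : Hi k u) (e : l ≤ k) : Hi l u := fun j e' => h j (e'.trans_le e)
theorem hi_bot (v : Fin n → F) : Hi 0 v := fun j e => absurd e (by omega)
theorem hi_top : Hi n v ↔ v = 0 := ⟨fun h => funext fun j => h j j.2, fun e => e ▸ Hi.zero⟩
theorem hi_bv {i : ℕ} (e : k ≤ i) : Hi k (bv i : Fin n → F) := fun j e' => if_neg (by omega)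

theorem Hi.dot (h : Hi k η) (h' : Lo k u) : η ⬝ᵥ u = 0 :=
  Finset.sum_eq_zero fun j _ => by
    rcases lt_or_ge (j : ℕ) k with e | e
    · rw [h j e, zero_mul]
    · rw [h' j e, mul_zero]

theorem su_vv (h : Lo k u) (h' : Hi k η) : SU (u ⊙ η) := fun i j e => by
  rw [vecMulVec_apply]
  rcases lt_or_ge (j : ℕ) k with e' | e'
  · rw [h' j e', mul_zero]
  · rw [h i (e'.trans e), zero_mul]

theorem SU.lo (h : SU N) (h' : Lo (k + 1) v) : Lo k (N *ᵥ v) := fun i e => by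
  change ∑ j, N i j * v j = 0
  refine Finset.sum_eq_zero fun j _ => ?_
  rcases le_or_gt j i with e' | e'
  · rw [h i j e', zero_mul]
  · rw [h' j (by have : (i : ℕ) < j := e'; omega), mul_zero]

theorem SU.hi (h : SU N) (h' : Hi k η) : Hi (k + 1) (η ᵥ* N) := fun j e => by
  change ∑ i, η i * N i j = 0
  refine Finset.sum_eq_zero fun i _ => ?_
  rcases le_or_gt j i with e' | e'
  · rw [h i j e', mul_zero]
  · rw [h' i (by have : (i : ℕ) < j := e'; omega), zero_mul]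

theorem SU.lo' (h : SU N) (h' : Lo k v) : Lo k (N *ᵥ v) := h.lo (h'.mono (Nat.le_succ _))

theorem SU.hi' (h : SU N) (h' : Hi k η) : Hi k (η ᵥ* N) := (h.hi h').mono (Nat.le_succ _)

theorem dot_bv {i : ℕ} (h : i < n) (η : Fin n → F) : η ⬝ᵥ bv i = η ⟨i, h⟩ := by
  rw [dotProduct, Finset.sum_eq_single ⟨i, h⟩]
  · simp [bv]
  · intro j _ e; rw [bv, if_neg fun k => e (Fin.ext k), mul_zero]
  · simp

theorem bv_dot {i : ℕ} (h : i < n) (v : Fin n → F) : bv i ⬝ᵥ v = v ⟨i, h⟩ := by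
  rw [dotProduct_comm, dot_bv]

theorem bv_dot_self {i : ℕ} (h : i < n) : (bv i : Fin n → F) ⬝ᵥ bv i = 1 := by
  rw [dot_bv h, bv, if_pos rfl]

theorem bv_dot_ne {i j : ℕ} (h : i ≠ j) : (bv i : Fin n → F) ⬝ᵥ bv j = 0 :=
  Finset.sum_eq_zero fun m _ => by
    by_cases e : (m : ℕ) = i
    · simp [bv, e, h]
    · rw [bv, if_neg e, zero_mul]

theorem bv_ne {i : ℕ} (h : i < n) : (bv i : Fin n → F) ≠ 0 := fun e => by
  have := bv_dot_self (F := F) h
  rw [e, zero_dotProduct] at this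
  exact zero_ne_one this

theorem not_ln_bv {i j : ℕ} (h : j < n) (e : i ≠ j) : ¬ Ln (bv i : Fin n → F) (bv j) := fun k => by
  have := k.dot' (bv_dot_ne e)
  rw [bv_dot_self h] at this
  exact one_ne_zero this

theorem hi_iff : Hi k η ↔ ∀ u, Lo k u → η ⬝ᵥ u = 0 :=
  ⟨fun h _ => h.dot, fun h j e => (dot_bv j.2 η).symm.trans (h _ (lo_bv e))⟩

theorem lo_iff : Lo k u ↔ ∀ η, Hi k η → η ⬝ᵥ u = 0 :=
  ⟨fun h _ h' => h'.dot h, fun h j e => (bv_dot j.2 u).symm.trans (h _ (hi_bv e))⟩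

theorem lo_succ (h : k < n) : Lo (k + 1) v ↔ ∃ u, ∃ t : F, Lo k u ∧ v = u + t • bv k := by
  refine ⟨fun e => ⟨v - v ⟨k, h⟩ • bv k, v ⟨k, h⟩, fun j e' => ?_, by simp⟩, ?_⟩
  · by_cases a : (j : ℕ) = k
    · obtain rfl : j = ⟨k, h⟩ := Fin.ext a
      simp [bv]
    · simp [bv, a, e j (by omega)]
  · rintro ⟨u, t, e, rfl⟩
    exact (e.mono (Nat.le_succ _)).add ((lo_bv (Nat.lt_succ_self _)).smul t)

theorem hi_pred (h : k < n) : Hi k η ↔ ∃ ψ, ∃ t : F, Hi (k + 1) ψ ∧ η = ψ + t • bv k := by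
  refine ⟨fun e => ⟨η - η ⟨k, h⟩ • bv k, η ⟨k, h⟩, fun j e' => ?_, by simp⟩, ?_⟩
  · by_cases a : (j : ℕ) = k
    · obtain rfl : j = ⟨k, h⟩ := Fin.ext a
      simp [bv]
    · simp [bv, a, e j (by omega)]
  · rintro ⟨u, t, e, rfl⟩
    exact (e.mono (Nat.le_succ _)).add ((hi_bv le_rfl).smul t)

theorem Lo.pred (h : Lo (k + 1) v) (e : bv k ⬝ᵥ v = 0) : Lo k v := fun j e' => by
  by_cases a : (j : ℕ) = k
  · exact (bv_dot j.2 v).symm.trans (a ▸ e)
  · exact h j (by omega)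

theorem Hi.succ (h : Hi k η) (e : η ⬝ᵥ bv k = 0) : Hi (k + 1) η := fun j e' => by
  by_cases a : (j : ℕ) = k
  · exact (dot_bv j.2 η).symm.trans (a ▸ e)
  · exact h j (by omega)

/-- the largest index of a non-zero vector -/
theorem ex_lo (h : v ≠ 0) : ∃ k < n, Lo (k + 1) v ∧ bv k ⬝ᵥ v ≠ 0 := by
  have : ∀ m, Lo m v → ∃ k < m, Lo (k + 1) v ∧ bv k ⬝ᵥ v ≠ 0 := fun m => by
    induction m with
    | zero => exact fun e => absurd (lo_zero.1 e) h
    | succ m ih =>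
      intro e
      by_cases a : bv m ⬝ᵥ v = 0
      · obtain ⟨k, k1, k2⟩ := ih (e.pred a)
        exact ⟨k, by omega, k2⟩
      · exact ⟨m, by omega, e, a⟩
  exact this n (lo_top v)

/-- the smallest index of a non-zero vector -/
theorem ex_hi (h : η ≠ 0) : ∃ k < n, Hi k η ∧ η ⬝ᵥ bv k ≠ 0 := by
  by_contra hc
  push Not at hc
  have : ∀ m ≤ n, Hi m η := fun m => by
    induction m with
    | zero => exact fun _ => hi_bot η
    | succ m ih => exact fun e => (ih (by omega)).succ (hc m (by omega) (ih (by omega)))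
  exact h (hi_top.1 (this n le_rfl))

theorem lo_one (h : 0 < n) : Lo 1 v ↔ Ln ve v := by
  rw [lo_succ h]
  exact ⟨fun ⟨u, t, a, b⟩ => ⟨t, by rw [b, lo_zero.1 a, zero_add]⟩,
    fun ⟨t, b⟩ => ⟨0, t, Lo.zero, by rw [b, zero_add]⟩⟩

theorem lo_two (h : 1 < n) : Lo 2 v ↔ ∃ s t : F, v = s • ve + t • vb := by
  rw [lo_succ h]
  refine ⟨fun ⟨u, t, a, b⟩ => ?_, fun ⟨s, t, b⟩ => ⟨_, t, (lo_bv one_pos).smul s, b⟩⟩
  obtain ⟨s, rfl⟩ := (lo_one (by omega)).1 a
  exact ⟨s, t, b⟩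

theorem hi_one (h : 0 < n) : Hi 1 η ↔ η ⬝ᵥ ve = 0 :=
  ⟨fun e => e.dot (lo_bv one_pos), fun e => (hi_bot η).succ (by have := h; exact e)⟩

theorem lo_pred (h : 0 < n) : Lo (n - 1) v ↔ vf ⬝ᵥ v = 0 :=
  ⟨fun e => (hi_bv le_rfl).dot e, fun e => Lo.pred (fun j a => absurd j.2 (by omega)) e⟩

theorem hi_pred1 (h : 0 < n) : Hi (n - 1) η ↔ Ln vf η := by
  rw [hi_pred (by omega), show n - 1 + 1 = n by omega]
  exact ⟨fun ⟨u, t, a, b⟩ => ⟨t, by rw [b, hi_top.1 a, zero_add]⟩,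
    fun ⟨t, b⟩ => ⟨0, t, Hi.zero, by rw [b, zero_add]⟩⟩

theorem hi_pred2 (h : 1 < n) : Hi (n - 2) η ↔ ∃ s t : F, η = s • vf + t • va := by
  rw [hi_pred (by omega), show n - 2 + 1 = n - 1 by omega]
  refine ⟨fun ⟨u, t, a, b⟩ => ?_, fun ⟨s, t, b⟩ => ⟨_, t, (hi_bv le_rfl).smul s, b⟩⟩
  obtain ⟨s, rfl⟩ := (hi_pred1 (by omega)).1 a
  exact ⟨s, t, b⟩

theorem lo_pred2 (h : 1 < n) : Lo (n - 2) v ↔ vf ⬝ᵥ v = 0 ∧ va ⬝ᵥ v = 0 :=
  ⟨fun e => ⟨(hi_bv (by omega)).dot e, (hi_bv le_rfl).dot e⟩, fun e => Lo.pred (by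
    rw [show n - 2 + 1 = n - 1 by omega]; exact (lo_pred (by omega)).2 e.1) e.2⟩

theorem hi_two (h : 1 < n) : Hi 2 η ↔ η ⬝ᵥ ve = 0 ∧ η ⬝ᵥ vb = 0 :=
  ⟨fun e => ⟨e.dot (lo_bv two_pos), e.dot (lo_bv one_lt_two)⟩,
    fun e => ((hi_one (by omega)).2 e.1).succ e.2⟩

theorem SU.e (h : SU N) : N *ᵥ ve = 0 := lo_zero.1 (h.lo (lo_bv one_pos))

theorem SU.f (h : SU N) : vf ᵥ* N = 0 := by
  funext j
  exact h.hi (hi_bv (k := n - 1) le_rfl) j (by have := j.2; omega)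

theorem SU.dotf (h : SU N) (v : Fin n → F) : vf ⬝ᵥ (N *ᵥ v) = 0 := by
  rw [dot_mulVec, h.f, zero_dotProduct]

theorem SU.dote (h : SU N) (η : Fin n → F) : (η ᵥ* N) ⬝ᵥ ve = 0 := by
  rw [← dot_mulVec, h.e, dotProduct_zero]

theorem SU.a (h : SU N) (h1 : 1 < n) : Ln vf (va ᵥ* N) :=
  (hi_pred1 (by omega)).1 ((h.hi (hi_bv (k := n - 2) le_rfl)).mono (by omega))

theorem SU.b (h : SU N) (h1 : 1 < n) : Ln ve (N *ᵥ vb) :=
  (lo_one (by omega)).1 (h.lo (lo_bv one_lt_two))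

theorem suY (h : ψ ⬝ᵥ ve = 0) : SU (ve ⊙ ψ) := su_vv (lo_bv one_pos) ((hi_bot ψ).succ h)

theorem suY' (h : vf ⬝ᵥ v = 0) : SU (v ⊙ vf) :=
  su_vv (k := n - 1) (Lo.pred (fun j a => absurd j.2 (by omega)) h) (hi_bv le_rfl)

theorem Blk.su (h : Blk k N) : SU N := fun i j e => h i j (by have : (j : ℕ) ≤ i := e; omega)
theorem Blk.zero : Blk k (0 : Matrix (Fin n) (Fin n) F) := fun _ _ _ => rfl
theorem Blk.add (h : Blk k N) (h' : Blk k N') : Blk k (N + N') := fun i j e => by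
  simp [h i j e, h' i j e]
theorem Blk.smul (h : Blk k N) (c : F) : Blk k (c • N) := fun i j e => by simp [h i j e]
theorem Blk.mul (h : Blk k N) (h' : Blk k N') : N * N' = 0 := by
  ext i j
  change ∑ m, N i m * N' m j = 0
  refine Finset.sum_eq_zero fun m _ => ?_
  rcases lt_or_ge (m : ℕ) k with e | e
  · rw [h i m (Or.inr e), zero_mul]
  · rw [h' m j (Or.inl e), mul_zero]

theorem blk_vv (h : Lo k u) (h' : Hi k η) : Blk k (u ⊙ η) := fun i j e => by
  rw [vecMulVec_apply]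
  rcases e with e | e
  · rw [h i e, zero_mul]
  · rw [h' j e, mul_zero]

theorem blk_iff : Blk k N ↔ (∀ η, Hi k η → η ᵥ* N = 0) ∧ ∀ u, Lo k u → N *ᵥ u = 0 := by
  refine ⟨fun h => ⟨fun η e => funext fun j => ?_, fun u e => funext fun i => ?_⟩, fun h i j e => ?_⟩
  · change ∑ i, η i * N i j = 0
    refine Finset.sum_eq_zero fun i _ => ?_
    rcases lt_or_ge (i : ℕ) k with a | a
    · rw [e i a, zero_mul]
    · rw [h i j (Or.inl a), mul_zero]
  · change ∑ j, N i j * u j = 0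
    refine Finset.sum_eq_zero fun j _ => ?_
    rcases lt_or_ge (j : ℕ) k with a | a
    · rw [h i j (Or.inr a), zero_mul]
    · rw [e j a, mul_zero]
  · have : N i j = (bv i ᵥ* N) ⬝ᵥ bv j := by
      rw [← dot_mulVec, bv_dot i.2, mulVec, dot_bv j.2]
    rw [this]
    rcases e with e | e
    · rw [h.1 _ (hi_bv e), zero_dotProduct]
    · rw [← dot_mulVec, h.2 _ (lo_bv e), dotProduct_zero]

end

/-- reversal of the coordinates -/
def rv (v : Fin n → F) : Fin n → F := fun j => v j.rev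

/-- transposition in the second diagonal -/
def tr (N : Matrix (Fin n) (Fin n) F) : Matrix (Fin n) (Fin n) F := Matrix.of fun i j => N j.rev i.rev

section

variable {N N' : Matrix (Fin n) (Fin n) F} {u v η ψ : Fin n → F} {k l : ℕ}

theorem rv_rv (v : Fin n → F) : rv (rv v) = v := by ext; simp [rv]
theorem tr_tr (N : Matrix (Fin n) (Fin n) F) : tr (tr N) = N := by ext; simp [tr]
theorem tr_add (N N' : Matrix (Fin n) (Fin n) F) : tr (N + N') = tr N + tr N' := rfl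
theorem tr_smul (c : F) (N : Matrix (Fin n) (Fin n) F) : tr (c • N) = c • tr N := rfl
theorem tr_zero : tr (0 : Matrix (Fin n) (Fin n) F) = 0 := rfl
theorem tr_mul (N N' : Matrix (Fin n) (Fin n) F) : tr (N * N') = tr N' * tr N := by
  ext i j
  simp only [tr, of_apply, mul_apply]
  exact Fintype.sum_equiv Fin.revPerm _ _ fun m => by simp [mul_comm]
theorem tr_vv (u η : Fin n → F) : tr (u ⊙ η) = rv η ⊙ rv u := by
  ext; simp [tr, rv, vecMulVec_apply, mul_comm]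
theorem rv_dot (u v : Fin n → F) : rv u ⬝ᵥ rv v = u ⬝ᵥ v :=
  Fintype.sum_equiv Fin.revPerm _ _ fun _ => rfl
theorem rv_bv {i : ℕ} (h : i < n) : rv (bv i : Fin n → F) = bv (n - 1 - i) := by
  ext j
  have := j.2
  simp only [rv, bv, Fin.val_rev]
  exact if_congr (by omega) rfl rfl
theorem rv_e (h : 0 < n) : rv (ve : Fin n → F) = vf := rv_bv h
theorem rv_f (h : 0 < n) : rv (vf : Fin n → F) = ve := by rw [← rv_e h, rv_rv]
theorem rv_b (h : 1 < n) : rv (vb : Fin n → F) = va := rv_bv h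
theorem rv_a (h : 1 < n) : rv (va : Fin n → F) = vb := by rw [← rv_b h, rv_rv]
theorem SU.tr (h : SU N) : SU (tr N) := fun _ _ e => h _ _ (Fin.rev_le_rev.2 e)
theorem Lo.rv (h : Lo k v) : Hi (n - k) (rv v) := fun j e => h _ (by rw [Fin.val_rev]; omega)
theorem Hi.rv (h : Hi k v) : Lo (n - k) (rv v) := fun j e => h _ (by
  have := j.2; rw [Fin.val_rev]; omega)
theorem Blk.tr (h : Blk k N) : Blk (n - k) (tr N) := fun i j e => h _ _ (by
  have := i.2; have := j.2; simp only [Fin.val_rev]; omega)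
theorem tr_mulVec (N : Matrix (Fin n) (Fin n) F) (v : Fin n → F) : tr N *ᵥ rv v = rv (v ᵥ* N) := by
  ext i
  exact Fintype.sum_equiv Fin.revPerm _ _ fun m => by simp [tr, rv, mul_comm]
theorem vecMul_tr (N : Matrix (Fin n) (Fin n) F) (v : Fin n → F) : rv v ᵥ* tr N = rv (N *ᵥ v) := by
  ext i
  exact Fintype.sum_equiv Fin.revPerm _ _ fun m => by simp [tr, rv, mul_comm]

end

end Cfsg.Agent.H87.US
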