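import Cfsg.Agent.H87.US0

/-! A chart of a Sylow 2-subgroup by unitriangular matrices. -/

set_option autoImplicit false
set_option linter.unusedSectionVars false

namespace Cfsg.Agent.H87.US

open Subgroup Matrix Cfsg.Agent.H85 Cfsg.Agent.H87.LQ

universe u v

/-- `w N` is the image of `1 + N`; the image `S` of the unitriangular group is a Sylow 2-subgroup -/
structure Uc (n : ℕ) (F : Type v) [Field F] (G : Type u) [Group G] where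
  w : Matrix (Fin n) (Fin n) F → G
  S : Subgroup G
  mem : ∀ g, g ∈ S ↔ ∃ N, SU N ∧ g = w N
  mul : ∀ N N', SU N → SU N' → w N * w N' = w (N + N' + N * N')
  inj : ∀ N N', SU N → SU N' → w N = w N' → N = N'
  syl : IsSyl 2 S ⊤
  n4 : 4 ≤ n
  q2 : ∃ t : F, t ≠ 0 ∧ t ≠ 1

namespace Uc

variable {n : ℕ} {F : Type v} [Field F] {G : Type u} [Group G] (c : Uc n F G)

section Dot

include c

theorem e0 : (ve : Fin n → F) ≠ 0 := bv_ne (by have := c.n4; omega)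
theorem b0 : (vb : Fin n → F) ≠ 0 := bv_ne (by have := c.n4; omega)
theorem a0 : (va : Fin n → F) ≠ 0 := bv_ne (by have := c.n4; omega)
theorem f0 : (vf : Fin n → F) ≠ 0 := bv_ne (by have := c.n4; omega)
theorem fe : (vf : Fin n → F) ⬝ᵥ ve = 0 := bv_dot_ne (by have := c.n4; omega)
theorem fb : (vf : Fin n → F) ⬝ᵥ vb = 0 := bv_dot_ne (by have := c.n4; omega)
theorem ae : (va : Fin n → F) ⬝ᵥ ve = 0 := bv_dot_ne (by have := c.n4; omega)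
theorem ab : (va : Fin n → F) ⬝ᵥ vb = 0 := bv_dot_ne (by have := c.n4; omega)
theorem fa : (vf : Fin n → F) ⬝ᵥ va = 0 := bv_dot_ne (by have := c.n4; omega)
theorem be : (vb : Fin n → F) ⬝ᵥ ve = 0 := bv_dot_ne one_ne_zero
theorem aa : (va : Fin n → F) ⬝ᵥ va = 1 := bv_dot_self (by have := c.n4; omega)
theorem bb : (vb : Fin n → F) ⬝ᵥ vb = 1 := bv_dot_self (by have := c.n4; omega)
theorem ee : (ve : Fin n → F) ⬝ᵥ ve = 1 := bv_dot_self (by have := c.n4; omega)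
theorem ff : (vf : Fin n → F) ⬝ᵥ vf = 1 := bv_dot_self (by have := c.n4; omega)
theorem nfa : ¬ Ln (vf : Fin n → F) va :=
  not_ln_bv (by have := c.n4; omega) (by have := c.n4; omega)
theorem neb : ¬ Ln (ve : Fin n → F) vb := not_ln_bv (by have := c.n4; omega) zero_ne_one

end Dot

variable {N N' X X' : Matrix (Fin n) (Fin n) F} {η ψ p v : Fin n → F} {g y y' z : G}

theorem w_zero : c.w 0 = 1 := by
  have := c.mul 0 0 SU.zero SU.zero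
  simpa using this

variable {c}

theorem w_mem (h : SU N) : c.w N ∈ c.S := (c.mem _).2 ⟨N, h, rfl⟩

theorem ex (h : g ∈ c.S) : ∃ N, SU N ∧ g = c.w N := (c.mem g).1 h

theorem w_mul (h : SU N) (k : SU N') (e : N * N' = 0) : c.w N * c.w N' = c.w (N + N') := by
  rw [c.mul _ _ h k, e, add_zero]

theorem w_eq_iff (h : SU N) (k : SU N') : c.w N = c.w N' ↔ N = N' :=
  ⟨c.inj _ _ h k, fun e => by rw [e]⟩

theorem w_eq_one (h : SU N) : c.w N = 1 ↔ N = 0 := by rw [← c.w_zero, w_eq_iff h SU.zero]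

theorem w_comm (h : SU N) (k : SU N') : c.w N * c.w N' = c.w N' * c.w N ↔ N * N' = N' * N := by
  rw [c.mul _ _ h k, c.mul _ _ k h, w_eq_iff ((h.add k).add (h.mul k)) ((k.add h).add (k.mul h)),
    add_comm N' N, add_right_inj]

theorem ex_inv (h : SU N) :
    ∃ N', SU N' ∧ (c.w N)⁻¹ = c.w N' ∧ (1 + N) * (1 + N') = 1 ∧ (1 + N') * (1 + N) = 1 := by
  obtain ⟨N', k, e⟩ := ex (inv_mem (w_mem (c := c) h))
  have h1 := (w_eq_one ((h.add k).add (h.mul k))).1 (by rw [← c.mul _ _ h k, ← e, mul_inv_cancel])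
  have h2 := (w_eq_one ((k.add h).add (k.mul h))).1 (by rw [← c.mul _ _ k h, ← e, inv_mul_cancel])
  exact ⟨N', k, e, by rw [show (1 + N) * (1 + N') = 1 + (N + N' + N * N') by noncomm_ring, h1, add_zero],
    by rw [show (1 + N') * (1 + N) = 1 + (N' + N + N' * N) by noncomm_ring, h2, add_zero]⟩

theorem conj_w (h : SU N) (k : SU X) (k' : SU X') (e : (1 + N) * X = X' * (1 + N)) :
    c.w N * c.w X * (c.w N)⁻¹ = c.w X' := by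
  rw [mul_inv_eq_iff_eq_mul, c.mul _ _ h k, c.mul _ _ k' h]
  congr 1
  rw [add_mul, mul_add, one_mul, mul_one] at e
  rw [add_assoc, e]; abel

theorem conj_w' (h : SU N) (k : SU X) (k' : SU X') (e : X * (1 + N) = (1 + N) * X') :
    (c.w N)⁻¹ * c.w X * c.w N = c.w X' := by
  rw [← conj_w h k' k e.symm]; group

theorem conj_Yw (h : SU N) (k : ψ ⬝ᵥ ve = 0) :
    (c.w N)⁻¹ * c.w (ve ⊙ ψ) * c.w N = c.w (ve ⊙ (ψ + ψ ᵥ* N)) :=
  conj_w' h (suY k) (suY (by rw [add_dotProduct, k, h.dote, add_zero])) (by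
    rw [vv_mul, mul_vv, add_mulVec, h.e, add_zero, one_mulVec, vecMul_add, vecMul_one])

theorem conj_Y'w (h : SU N) (k : vf ⬝ᵥ v = 0) :
    c.w N * c.w (v ⊙ vf) * (c.w N)⁻¹ = c.w ((v + N *ᵥ v) ⊙ vf) :=
  conj_w h (suY' k) (suY' (by rw [dotProduct_add, k, h.dotf, add_zero])) (by
    rw [vv_mul, mul_vv, vecMul_add, h.f, add_zero, vecMul_one, add_mulVec, one_mulVec])

theorem comm_ea (h : SU N) (k : ψ ⬝ᵥ ve = 0) :
    c.w N * c.w (ve ⊙ ψ) = c.w (ve ⊙ ψ) * c.w N ↔ ψ ᵥ* N = 0 := by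
  rw [w_comm h (suY k), mul_vv, h.e, vv_mul, zero_vecMulVec]
  exact ⟨fun e => vv_inj_right c.e0 (by rw [← e, vecMulVec_zero]), fun e => by simp [e]⟩

theorem comm_vf (h : SU N) (k : vf ⬝ᵥ v = 0) :
    c.w N * c.w (v ⊙ vf) = c.w (v ⊙ vf) * c.w N ↔ N *ᵥ v = 0 := by
  rw [w_comm h (suY' k), mul_vv, vv_mul, h.f, vecMulVec_zero]
  exact ⟨fun e => vv_inj_left c.f0 (by rw [e, zero_vecMulVec]), fun e => by simp [e]⟩

theorem conj_vv {u u' η' : Fin n → F} (h : SU N) (k : SU (u ⊙ η)) (k' : SU (u' ⊙ η'))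
    (e : u + N *ᵥ u = u') (e' : η' + η' ᵥ* N = η) :
    c.w N * c.w (u ⊙ η) * (c.w N)⁻¹ = c.w (u' ⊙ η') :=
  conj_w h k k' (by
    rw [mul_vv, vv_mul, add_mulVec, one_mulVec, vecMul_add, vecMul_one, e, e'])

variable (c) in
include c in
theorem suZ (s : F) : SU (s • (ve ⊙ vf) : Matrix (Fin n) (Fin n) F) := (suY c.fe).smul s

variable [CharP F 2]

theorem w_sq (h : SU N) : c.w N * c.w N = c.w (N * N) := by rw [c.mul _ _ h h, madd_self, zero_add]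

theorem w_sq_one (h : SU N) : c.w N * c.w N = 1 ↔ N * N = 0 := by rw [w_sq h, w_eq_one (h.mul h)]

theorem w_inv (h : SU N) (k : N * N = 0) : (c.w N)⁻¹ = c.w N :=
  inv_eq_of_mul_eq_one_right ((w_sq_one h).2 k)

/-- conjugation by an involution -/
theorem conj_sq (h : SU N) (k : N * N = 0) (k' : SU X) :
    c.w N * c.w X * (c.w N)⁻¹ = c.w (X + N * X + X * N + N * X * N) :=
  conj_w h k' (((k'.add (h.mul k')).add (k'.mul h)).add ((h.mul k').mul h)) (by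
    have : (X + N * X + X * N + N * X * N) * (1 + N) = (1 + N) * X + ((X * N + N * X * N) +
      (X * N + N * X * N)) + (X + N * X) * (N * N) := by noncomm_ring
    rw [this, k, madd_self, mul_zero, add_zero, add_zero])

theorem conj_e (hη : η ⬝ᵥ ve = 0) (k : SU N) :
    c.w (ve ⊙ η) * c.w N * (c.w (ve ⊙ η))⁻¹ = c.w (N + ve ⊙ (η ᵥ* N)) := by
  rw [conj_sq (suY hη) (by rw [vv_mul_vv, hη, zero_smul]) k, vv_mul, mul_vv, k.e, vv_mul_vv, k.dote]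
  simp

theorem conj_f (hp : vf ⬝ᵥ p = 0) (k : SU N) :
    c.w (p ⊙ vf) * c.w N * (c.w (p ⊙ vf))⁻¹ = c.w (N + (N *ᵥ p) ⊙ vf) := by
  rw [conj_sq (suY' hp) (by rw [vv_mul_vv, hp, zero_smul]) k, vv_mul, mul_vv, k.f]
  simp

theorem w_sub (h : SU N) (h' : SU X) (k : N * N = 0) (e : X * N = 0) :
    c.w (N + X) * c.w N = c.w X := by
  rw [w_mul (h.add h') h (by rw [add_mul, k, e, add_zero]), add_right_comm, madd_self, zero_add]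

variable (c)

/-- transvections with centre `e` and axis containing `V_k` -/
def Yk (k : ℕ) : Subgroup G where
  carrier := {g | ∃ ψ, ψ ⬝ᵥ ve = 0 ∧ Hi k ψ ∧ g = c.w (ve ⊙ ψ)}
  one_mem' := ⟨0, by simp, Hi.zero, by simp [w_zero]⟩
  mul_mem' := by
    rintro _ _ ⟨a, h, h', rfl⟩ ⟨b, k, k', rfl⟩
    exact ⟨a + b, by simp [h, k], h'.add k', by
      rw [w_mul (suY h) (suY k) (by rw [vv_mul_vv, h, zero_smul]), vecMulVec_add]⟩
  inv_mem' := by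
    rintro _ ⟨a, h, h', rfl⟩
    exact ⟨a, h, h', w_inv (suY h) (by rw [vv_mul_vv, h, zero_smul])⟩

/-- transvections with axis `f` and centre in `V_k` -/
def Yk' (k : ℕ) : Subgroup G where
  carrier := {g | ∃ v, vf ⬝ᵥ v = 0 ∧ Lo k v ∧ g = c.w (v ⊙ vf)}
  one_mem' := ⟨0, by simp, Lo.zero, by simp [w_zero]⟩
  mul_mem' := by
    rintro _ _ ⟨a, h, h', rfl⟩ ⟨b, k, k', rfl⟩
    exact ⟨a + b, by simp [h, k], h'.add k', by
      rw [w_mul (suY' h) (suY' k) (by rw [vv_mul_vv, k, zero_smul]), add_vecMulVec]⟩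
  inv_mem' := by
    rintro _ ⟨a, h, h', rfl⟩
    exact ⟨a, h, h', w_inv (suY' h) (by rw [vv_mul_vv, h, zero_smul])⟩

/-- the unipotent radical of the stabiliser of `V_k` -/
def A (k : ℕ) : Subgroup G where
  carrier := {g | ∃ N, Blk k N ∧ g = c.w N}
  one_mem' := ⟨0, Blk.zero, c.w_zero.symm⟩
  mul_mem' := by
    rintro _ _ ⟨a, h, rfl⟩ ⟨b, k, rfl⟩
    exact ⟨a + b, h.add k, w_mul h.su k.su (h.mul k)⟩
  inv_mem' := by
    rintro _ ⟨a, h, rfl⟩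
    exact ⟨a, h, w_inv h.su (h.mul h)⟩

/-- transvections with centre `e` -/
def Y : Subgroup G := c.Yk 0

/-- transvections with axis `f` -/
def Y' : Subgroup G := c.Yk' n

/-- the centre of `S` -/
def Z : Subgroup G := c.Y ⊓ c.Y'

/-- the special group -/
def Q : Subgroup G := c.Y ⊔ c.Y'

/-- the unipotent radical of the minimal parabolic normalising `Y` but not `Z` -/
def U : Subgroup G := c.S ⊓ centralizer {c.w (ve ⊙ va)}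

/-- the unipotent radical of the minimal parabolic normalising `Y'` but not `Z` -/
def U' : Subgroup G := c.S ⊓ centralizer {c.w (vb ⊙ vf)}

/-- the base transvection -/
def z0 : G := c.w (ve ⊙ vf)

variable {c}

theorem mem_Y : g ∈ c.Y ↔ ∃ ψ, ψ ⬝ᵥ ve = 0 ∧ g = c.w (ve ⊙ ψ) :=
  exists_congr fun ψ => and_congr_right fun _ => and_iff_right (hi_bot ψ)

theorem mem_Y' : g ∈ c.Y' ↔ ∃ v, vf ⬝ᵥ v = 0 ∧ g = c.w (v ⊙ vf) :=
  exists_congr fun v => and_congr_right fun _ => and_iff_right (lo_top v)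

theorem memY (h : ψ ⬝ᵥ ve = 0) : c.w (ve ⊙ ψ) ∈ c.Y := mem_Y.2 ⟨ψ, h, rfl⟩

theorem memY' (h : vf ⬝ᵥ v = 0) : c.w (v ⊙ vf) ∈ c.Y' := mem_Y'.2 ⟨v, h, rfl⟩

theorem w_mem_Y (h : SU N) : c.w N ∈ c.Y ↔ ∃ ψ, ψ ⬝ᵥ ve = 0 ∧ N = ve ⊙ ψ := by
  rw [mem_Y]; exact exists_congr fun _ => and_congr_right fun k => w_eq_iff h (suY k)

theorem w_mem_Y' (h : SU N) : c.w N ∈ c.Y' ↔ ∃ v, vf ⬝ᵥ v = 0 ∧ N = v ⊙ vf := by
  rw [mem_Y']; exact exists_congr fun _ => and_congr_right fun k => w_eq_iff h (suY' k)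

theorem w_mem_A {k : ℕ} (h : SU N) : c.w N ∈ c.A k ↔ Blk k N :=
  ⟨fun ⟨_, a, b⟩ => c.inj _ _ h a.su b ▸ a, fun a => ⟨N, a, rfl⟩⟩

theorem wY_mem_Yk {k : ℕ} (h : ψ ⬝ᵥ ve = 0) : c.w (ve ⊙ ψ) ∈ c.Yk k ↔ Hi k ψ :=
  ⟨fun ⟨_, a, b, e⟩ => vv_inj_right c.e0 (c.inj _ _ (suY h) (suY a) e) ▸ b, fun a => ⟨ψ, h, a, rfl⟩⟩

theorem wY'_mem_Yk' {k : ℕ} (h : vf ⬝ᵥ v = 0) : c.w (v ⊙ vf) ∈ c.Yk' k ↔ Lo k v :=
  ⟨fun ⟨_, a, b, e⟩ => vv_inj_left c.f0 (c.inj _ _ (suY' h) (suY' a) e) ▸ b,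
    fun a => ⟨v, h, a, rfl⟩⟩

theorem mem_Z : g ∈ c.Z ↔ ∃ s : F, g = c.w (s • (ve ⊙ vf)) := by
  constructor
  · rintro ⟨h, k⟩
    obtain ⟨ψ, h', rfl⟩ := mem_Y.1 h
    obtain ⟨v, -, e⟩ := (w_mem_Y' (suY h')).1 k
    obtain ⟨α, rfl⟩ := ln_of_vv' c.e0 e.symm
    exact ⟨α, by rw [vecMulVec_smul]⟩
  · rintro ⟨α, rfl⟩
    exact ⟨mem_Y.2 ⟨α • vf, by simp [c.fe], by rw [vecMulVec_smul]⟩,
      mem_Y'.2 ⟨α • ve, by simp [c.fe], by rw [smul_vecMulVec]⟩⟩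

theorem memZ (s : F) : c.w (s • (ve ⊙ vf)) ∈ c.Z := mem_Z.2 ⟨s, rfl⟩

theorem wZ_eq_one {s : F} : c.w (s • (ve ⊙ vf)) = 1 ↔ s = 0 := by
  rw [w_eq_one (c.suZ s), ← vecMulVec_smul]
  exact ⟨fun e => (smul_eq_zero.1 (vv_inj_right c.e0 (e.trans (vecMulVec_zero _).symm))).resolve_right
    c.f0, fun e => by simp [e]⟩

theorem wY_mem_Y' (h : ψ ⬝ᵥ ve = 0) : c.w (ve ⊙ ψ) ∈ c.Y' ↔ Ln vf ψ :=
  ⟨fun k => by
    obtain ⟨_, -, e⟩ := (w_mem_Y' (suY h)).1 k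
    exact ln_of_vv' c.e0 e.symm, fun ⟨α, e⟩ => (mem_Z.2 ⟨α, by rw [e, vecMulVec_smul]⟩).2⟩

theorem wY'_mem_Y (h : vf ⬝ᵥ v = 0) : c.w (v ⊙ vf) ∈ c.Y ↔ Ln ve v :=
  ⟨fun k => by
    obtain ⟨_, -, e⟩ := (w_mem_Y (suY' h)).1 k
    exact ln_of_vv c.f0 e, fun ⟨α, e⟩ => (mem_Z.2 ⟨α, by rw [e, smul_vecMulVec]⟩).1⟩

theorem wY_mem_Z (h : ψ ⬝ᵥ ve = 0) : c.w (ve ⊙ ψ) ∈ c.Z ↔ Ln vf ψ :=
  (and_iff_right (memY h)).trans (wY_mem_Y' h)

theorem wY'_mem_Z (h : vf ⬝ᵥ v = 0) : c.w (v ⊙ vf) ∈ c.Z ↔ Ln ve v :=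
  (and_iff_left (memY' h)).trans (wY'_mem_Y h)

theorem w_mem_U (h : SU N) : c.w N ∈ c.U ↔ va ᵥ* N = 0 :=
  (and_iff_right (w_mem h)).trans (mem_centralizer_singleton_iff.trans (comm_ea h c.ae))

theorem w_mem_U' (h : SU N) : c.w N ∈ c.U' ↔ N *ᵥ vb = 0 :=
  (and_iff_right (w_mem h)).trans (mem_centralizer_singleton_iff.trans (comm_vf h c.fb))

theorem z0_mem : c.z0 ∈ c.Z := mem_Z.2 ⟨1, by rw [one_smul]; rfl⟩

theorem z0_ne : c.z0 ≠ 1 := fun e =>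
  one_ne_zero ((wZ_eq_one (c := c) (s := 1)).1 (by rw [one_smul]; exact e))

theorem Z_ne : c.Z ≠ ⊥ := fun e => z0_ne (mem_bot.1 (e ▸ z0_mem))

theorem Yk_le {k : ℕ} : c.Yk k ≤ c.Y := fun _ ⟨_, h, _, e⟩ => e ▸ memY h
theorem Yk'_le {k : ℕ} : c.Yk' k ≤ c.Y' := fun _ ⟨_, h, _, e⟩ => e ▸ memY' h
theorem A_le {k : ℕ} : c.A k ≤ c.S := fun _ ⟨_, h, e⟩ => e ▸ w_mem h.su
theorem Y_le : c.Y ≤ c.S := fun _ ⟨_, h, _, e⟩ => e ▸ w_mem (suY h)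
theorem Y'_le : c.Y' ≤ c.S := fun _ ⟨_, h, _, e⟩ => e ▸ w_mem (suY' h)
theorem Z_le : c.Z ≤ c.S := inf_le_left.trans Y_le
theorem Q_le : c.Q ≤ c.S := sup_le Y_le Y'_le
theorem U_le : c.U ≤ c.S := inf_le_left
theorem U'_le : c.U' ≤ c.S := inf_le_left
theorem Z_le_Q : c.Z ≤ c.Q := inf_le_left.trans le_sup_left

theorem isP_S : IsPGroup 2 c.S := c.syl.isPGroup

theorem Y_sq (h : y ∈ c.Y) : y * y = 1 := by
  obtain ⟨a, k, rfl⟩ := mem_Y.1 h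
  exact (w_sq_one (suY k)).2 (by rw [vv_mul_vv, k, zero_smul])

theorem Y'_sq (h : y ∈ c.Y') : y * y = 1 := by
  obtain ⟨a, k, rfl⟩ := mem_Y'.1 h
  exact (w_sq_one (suY' k)).2 (by rw [vv_mul_vv, k, zero_smul])

theorem A_sq {k : ℕ} (h : y ∈ c.A k) : y * y = 1 := by
  obtain ⟨a, h, rfl⟩ := h
  exact (w_sq_one h.su).2 (h.mul h)

theorem Y_comm (h : y ∈ c.Y) (k : y' ∈ c.Y) : y * y' = y' * y := comm_of_sq (fun _ => Y_sq) h k

theorem Y'_comm (h : y ∈ c.Y') (k : y' ∈ c.Y') : y * y' = y' * y := comm_of_sq (fun _ => Y'_sq) h k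

theorem Y_le_U : c.Y ≤ c.U := fun _ h =>
  ⟨Y_le h, mem_centralizer_singleton_iff.2 (Y_comm h (memY c.ae))⟩

theorem Y'_le_U' : c.Y' ≤ c.U' := fun _ h =>
  ⟨Y'_le h, mem_centralizer_singleton_iff.2 (Y'_comm h (memY' c.fb))⟩

theorem nrm_of {R : Subgroup G} (h : ∀ s ∈ c.S, ∀ x ∈ R, s * x * s⁻¹ ∈ R) :
    c.S ≤ normalizer (R : Set G) := fun s hs =>
  mem_normalizer_iff.2 fun x => ⟨h s hs x, fun k => by simpa [mul_assoc] using h _ (inv_mem hs) _ k⟩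

theorem nYk {k : ℕ} : c.S ≤ normalizer (c.Yk k : Set G) := nrm_of fun s hs _ ⟨ψ, h, h', e⟩ => by
  obtain ⟨N, hN, e'⟩ := ex (inv_mem hs)
  have := conj_Yw (c := c) hN h
  rw [← e', inv_inv, ← e] at this
  exact ⟨_, by rw [add_dotProduct, h, hN.dote, add_zero], h'.add (hN.hi' h'), this⟩

theorem nYk' {k : ℕ} : c.S ≤ normalizer (c.Yk' k : Set G) := nrm_of fun s hs _ ⟨v, h, h', e⟩ => by
  obtain ⟨N, hN, rfl⟩ := ex hs
  exact ⟨_, by rw [dotProduct_add, h, hN.dotf, add_zero], h'.add (hN.lo' h'), e ▸ conj_Y'w hN h⟩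

theorem nY : c.S ≤ normalizer (c.Y : Set G) := nYk
theorem nY' : c.S ≤ normalizer (c.Y' : Set G) := nYk'
theorem nZ : c.S ≤ normalizer (c.Z : Set G) := le_normalizer_inf nY nY'
theorem nQ : c.S ≤ normalizer (c.Q : Set G) := le_normalizer_sup nY nY'

theorem conj_Y (hg : g ∈ c.S) (h : y ∈ c.Y) : g * y * g⁻¹ ∈ c.Y := (mem_normalizer_iff.1 (nY hg) y).1 h

theorem conj_Y' (hg : g ∈ c.S) (h : y ∈ c.Y') : g * y * g⁻¹ ∈ c.Y' :=
  (mem_normalizer_iff.1 (nY' hg) y).1 h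

theorem comm_Z (hz : z ∈ c.Z) (hg : g ∈ c.S) : g * z = z * g := by
  obtain ⟨s, rfl⟩ := mem_Z.1 hz
  obtain ⟨N, hN, rfl⟩ := ex hg
  rw [← vecMulVec_smul, comm_ea hN (by simp [c.fe]), smul_vecMul, hN.f, smul_zero]

theorem cent_Y (hg : g ∈ c.S) (h : ∀ y ∈ c.Y, g * y = y * g) : g ∈ c.Y := by
  obtain ⟨N, hN, rfl⟩ := ex hg
  obtain ⟨x, rfl⟩ := eq_vv_of_range (N := N) (e := ve) fun p => ann1 fun η hη => by
    rw [dot_mulVec, (comm_ea hN hη).1 (h _ (memY hη)), zero_dotProduct]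
  have := hN.e
  rw [vv_mulVec] at this
  exact memY ((smul_eq_zero.1 this).resolve_right c.e0)

theorem cent_Y' (hg : g ∈ c.S) (h : ∀ y ∈ c.Y', g * y = y * g) : g ∈ c.Y' := by
  obtain ⟨N, hN, rfl⟩ := ex hg
  have : N = (N *ᵥ vf) ⊙ vf := ext_mulVec fun p => by
    have := (comm_vf hN (v := p - (vf ⬝ᵥ p) • vf) (by simp [c.ff])).1 (h _ (memY' (by simp [c.ff])))
    rwa [mulVec_sub, mulVec_smul, sub_eq_zero, ← vv_mulVec] at this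
  rw [this]
  exact memY' (hN.dotf _)

theorem cent_Q (hg : g ∈ c.S) (h : ∀ y ∈ c.Q, g * y = y * g) : g ∈ c.Z :=
  ⟨cent_Y hg fun y hy => h y (mem_sup_left hy), cent_Y' hg fun y hy => h y (mem_sup_right hy)⟩

theorem Z_eq : c.Z = c.S ⊓ centralizer (c.S : Set G) :=
  le_antisymm (fun _ h => ⟨Z_le h, fun _ k => comm_Z h k⟩)
    fun _ h => cent_Q h.1 fun y hy => (h.2 y (Q_le hy)).symm

theorem cj_Z_of_cj_S (h : cj g c.S = c.S) : cj g c.Z = c.Z := by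
  rw [Z_eq, cj_inf, cj_centralizer, h]

theorem Z_eq' : c.Z = c.Q ⊓ centralizer (c.Q : Set G) :=
  le_antisymm (fun _ h => ⟨Z_le_Q h, fun _ k => comm_Z h (Q_le k)⟩)
    fun _ h => cent_Q (Q_le h.1) fun y hy => (h.2 y hy).symm

theorem cj_Z_of_cj_Q (h : cj g c.Q = c.Q) : cj g c.Z = c.Z := by
  rw [Z_eq', cj_inf, cj_centralizer, h]

theorem wY_mul (h : ψ ⬝ᵥ ve = 0) (k : vf ⬝ᵥ v = 0) :
    c.w (ve ⊙ ψ) * c.w (v ⊙ vf) = c.w (ve ⊙ (ψ + (ψ ⬝ᵥ v) • vf) + v ⊙ vf) := by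
  rw [c.mul _ _ (suY h) (suY' k), vv_mul_vv, vecMulVec_add, vecMulVec_smul, add_right_comm]

theorem wY'_mul (h : ψ ⬝ᵥ ve = 0) (k : vf ⬝ᵥ v = 0) :
    c.w (v ⊙ vf) * c.w (ve ⊙ ψ) = c.w (ve ⊙ ψ + v ⊙ vf) := by
  rw [w_mul (suY' k) (suY h) (by rw [vv_mul_vv, c.fe, zero_smul]), add_comm]

theorem mem_Q : g ∈ c.Q ↔ ∃ ψ v, ψ ⬝ᵥ ve = 0 ∧ vf ⬝ᵥ v = 0 ∧ g = c.w (ve ⊙ ψ + v ⊙ vf) := by
  rw [Q, sup_comm, mem_sup_of_le_normalizer (Y_le.trans nY')]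
  constructor
  · rintro ⟨a, ha, b, hb, rfl⟩
    obtain ⟨v, hv, rfl⟩ := mem_Y'.1 ha
    obtain ⟨ψ, hψ, rfl⟩ := mem_Y.1 hb
    exact ⟨ψ, v, hψ, hv, wY'_mul hψ hv⟩
  · rintro ⟨ψ, v, hψ, hv, rfl⟩
    exact ⟨_, memY' hv, _, memY hψ, wY'_mul hψ hv⟩

theorem w_mem_Q (h : SU N) : c.w N ∈ c.Q ↔ ∀ p, vf ⬝ᵥ p = 0 → Ln ve (N *ᵥ p) := by
  rw [mem_Q]
  constructor
  · rintro ⟨ψ, v, hψ, hv, e⟩ p hp
    rw [c.inj _ _ h ((suY hψ).add (suY' hv)) e]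
    exact ⟨ψ ⬝ᵥ p, by rw [add_mulVec, vv_mulVec, vv_mulVec, hp, zero_smul, add_zero]⟩
  · intro k
    obtain ⟨x, v, rfl⟩ := decomp1 c.f0 k
    have k1 := h.e
    have k2 := h.f
    rw [add_mulVec, vv_mulVec, vv_mulVec, c.fe, zero_smul, add_zero] at k1
    rw [vecMul_add, vecMul_vv, vecMul_vv, c.fe, zero_smul, zero_add] at k2
    exact ⟨x, v, (smul_eq_zero.1 k1).resolve_right c.e0, (smul_eq_zero.1 k2).resolve_right c.f0, rfl⟩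

theorem w_mem_Q' (h : SU N) : c.w N ∈ c.Q ↔ ∀ η, η ⬝ᵥ ve = 0 → Ln vf (η ᵥ* N) := by
  rw [w_mem_Q h]
  exact ⟨fun k η hη => ann1 fun p hp => by
      rw [dotProduct_comm] at hp ⊢; rw [← dot_mulVec]; exact (k p hp).dot hη,
    fun k p hp => ann1 fun η hη => by rw [dot_mulVec]; exact (k η hη).dot' hp⟩

/-- `[g, e ψ] = e (ψ N)` -/
theorem br_Y (h : SU N) (k : ψ ⬝ᵥ ve = 0) :
    (c.w N)⁻¹ * c.w (ve ⊙ ψ) * c.w N * c.w (ve ⊙ ψ) = c.w (ve ⊙ (ψ ᵥ* N)) := by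
  rw [conj_Yw h k, vecMulVec_add, w_sub (suY k) (suY (h.dote ψ)) (by rw [vv_mul_vv, k, zero_smul])
    (by rw [vv_mul_vv, h.dote, zero_smul])]

/-- `[g, v f] = (N v) f` -/
theorem br_Y' (h : SU N) (k : vf ⬝ᵥ v = 0) :
    c.w N * c.w (v ⊙ vf) * (c.w N)⁻¹ * c.w (v ⊙ vf) = c.w ((N *ᵥ v) ⊙ vf) := by
  rw [conj_Y'w h k, add_vecMulVec, w_sub (suY' k) (suY' (h.dotf v)) (by rw [vv_mul_vv, k, zero_smul])
    (by rw [vv_mul_vv, k, zero_smul])]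

/-- `C_S(Y / Z) = Q` -/
theorem mem_Q_iff_Y (hg : g ∈ c.S) : g ∈ c.Q ↔ ∀ y ∈ c.Y, g⁻¹ * y * g * y ∈ c.Z := by
  obtain ⟨N, hN, rfl⟩ := ex hg
  rw [w_mem_Q' hN]
  refine ⟨fun k y hy => ?_, fun k η hη => ?_⟩
  · obtain ⟨η, hη, rfl⟩ := mem_Y.1 hy
    rw [br_Y hN hη, wY_mem_Z (hN.dote η)]
    exact k η hη
  · have := k _ (memY hη)
    rwa [br_Y hN hη, wY_mem_Z (hN.dote η)] at this

/-- `C_S(Y' / Z) = Q` -/
theorem mem_Q_iff_Y' (hg : g ∈ c.S) : g ∈ c.Q ↔ ∀ y ∈ c.Y', g * y * g⁻¹ * y ∈ c.Z := by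
  obtain ⟨N, hN, rfl⟩ := ex hg
  rw [w_mem_Q hN]
  refine ⟨fun k y hy => ?_, fun k η hη => ?_⟩
  · obtain ⟨η, hη, rfl⟩ := mem_Y'.1 hy
    rw [br_Y' hN hη, wY'_mem_Z (hN.dotf η)]
    exact k η hη
  · have := k _ (memY' hη)
    rwa [br_Y' hN hη, wY'_mem_Z (hN.dotf η)] at this

theorem Y_not_le : ¬ c.Y ≤ c.Y' := fun h => c.nfa ((wY_mem_Y' c.ae).1 (h (memY c.ae)))

theorem Y'_not_le : ¬ c.Y' ≤ c.Y := fun h => c.neb ((wY'_mem_Y c.fb).1 (h (memY' c.fb)))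

omit [CharP F 2] in
/-- the order of a subgroup parametrised by matrices -/
theorem card_of_param {B : Subgroup G} {X : Type*} (N : X → Matrix (Fin n) (Fin n) F)
    (hN : ∀ x, SU (N x)) (inj : Function.Injective N)
    (h : ∀ g, g ∈ B ↔ ∃ x, g = c.w (N x)) : Nat.card B = Nat.card X :=
  (Nat.card_congr (Equiv.ofBijective (fun x => (⟨c.w (N x), (h _).2 ⟨x, rfl⟩⟩ : B))
    ⟨fun x y e => inj (c.inj _ _ (hN x) (hN y) (congrArg Subtype.val e)), fun g => by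
      obtain ⟨x, e⟩ := (h _).1 g.2
      exact ⟨x, Subtype.ext e.symm⟩⟩)).symm

variable [Fintype F]

theorem card_Y' : Nat.card c.Y' = Fintype.card F ^ (n - 1) := by
  rw [← card_ker1 c.f0]
  exact card_of_param (fun x : {w : Fin n → F // vf ⬝ᵥ w = 0} => x.1 ⊙ vf) (fun x => suY' x.2)
    (fun x y e => Subtype.ext (vv_inj_left c.f0 e)) fun g => mem_Y'.trans
      ⟨fun ⟨v, h, e⟩ => ⟨⟨v, h⟩, e⟩, fun ⟨v, e⟩ => ⟨v, v.2, e⟩⟩

theorem card_Y : Nat.card c.Y = Fintype.card F ^ (n - 1) := by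
  rw [← card_ker1 c.e0]
  exact card_of_param (fun x : {w : Fin n → F // ve ⬝ᵥ w = 0} => ve ⊙ x.1)
    (fun x => suY (by rw [dotProduct_comm]; exact x.2))
    (fun x y e => Subtype.ext (vv_inj_right c.e0 e)) fun g => mem_Y.trans
      ⟨fun ⟨v, h, e⟩ => ⟨⟨v, by rwa [dotProduct_comm]⟩, e⟩,
        fun ⟨v, e⟩ => ⟨v, by rw [dotProduct_comm]; exact v.2, e⟩⟩

theorem card_Z : Nat.card c.Z = Fintype.card F := by
  rw [← Nat.card_eq_fintype_card]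
  exact card_of_param (fun α : F => α • (ve ⊙ vf)) c.suZ (fun x y e => by
    simp only [← smul_vecMulVec] at e
    exact smul_left_injective F c.e0 (vv_inj_left c.f0 e)) fun g => mem_Z

omit [CharP F 2] in
include c in
theorem two_lt : 2 < Fintype.card F := by
  obtain ⟨t, h0, h1⟩ := c.q2
  exact Fintype.two_lt_card_iff.2 ⟨0, 1, t, zero_ne_one, h0.symm, h1.symm⟩

end Uc

end Cfsg.Agent.H87.US
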