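import Cfsg.Agent.H87.US1

/-! Dual, image, conjugate and restriction of a chart. -/

set_option autoImplicit false
set_option linter.unusedSectionVars false

namespace Cfsg.Agent.H87.US

open Subgroup Matrix Cfsg.Agent.H85 Cfsg.Agent.H87.LQ

universe u u' v

namespace Uc

variable {n : ℕ} {F : Type v} [Field F] {G : Type u} [Group G] (c : Uc n F G)

/-- the dual chart -/
def dual : Uc n F G where
  w N := (c.w (tr N))⁻¹
  S := c.S
  mem g := ⟨fun h => by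
    obtain ⟨N, hN, e⟩ := ex (inv_mem h)
    exact ⟨tr N, hN.tr, by rw [tr_tr, ← e, inv_inv]⟩, fun ⟨N, hN, e⟩ => e ▸ inv_mem (w_mem hN.tr)⟩
  mul N N' h k := by
    rw [← _root_.mul_inv_rev, c.mul _ _ k.tr h.tr, tr_add, tr_add, tr_mul, add_comm (tr N')]
  inj N N' h k e := by rw [← tr_tr N, c.inj _ _ h.tr k.tr (inv_injective e), tr_tr]
  syl := c.syl
  n4 := c.n4
  q2 := c.q2

theorem dual_S : c.dual.S = c.S := rfl

section Map

variable {G' : Type u'} [Group G'] [Finite G] (π : G →* G') (hs : Function.Surjective π)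
  (hi : ∀ s ∈ c.S, π s = 1 → s = 1)

/-- the image of a chart -/
def map : Uc n F G' where
  w N := π (c.w N)
  S := c.S.map π
  mem g := ⟨fun ⟨_, h, e⟩ => by
    obtain ⟨N, hN, rfl⟩ := ex h
    exact ⟨N, hN, e.symm⟩, fun ⟨N, hN, e⟩ => ⟨_, w_mem hN, e.symm⟩⟩
  mul N N' h k := by rw [← map_mul, c.mul _ _ h k]
  inj N N' h k e := c.inj _ _ h k (eq_of_mul_inv_eq_one (hi _ (mul_mem (w_mem h) (inv_mem (w_mem k)))
    (by rw [map_mul, map_inv, e, mul_inv_cancel])))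
  syl := by
    have := c.syl.map π
    rwa [map_top_of_surjective π hs] at this
  n4 := c.n4
  q2 := c.q2

theorem map_w (N : Matrix (Fin n) (Fin n) F) : (c.map π hs hi).w N = π (c.w N) := rfl

theorem map_S : (c.map π hs hi).S = c.S.map π := rfl

variable [CharP F 2]

theorem map_Yk (k : ℕ) : (c.map π hs hi).Yk k = (c.Yk k).map π := by
  ext g
  exact ⟨fun ⟨ψ, a, b, e⟩ => ⟨_, ⟨ψ, a, b, rfl⟩, e.symm⟩, fun ⟨_, ⟨ψ, a, b, e⟩, e'⟩ =>
    ⟨ψ, a, b, by rw [← e', e]; rfl⟩⟩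

theorem map_Yk' (k : ℕ) : (c.map π hs hi).Yk' k = (c.Yk' k).map π := by
  ext g
  exact ⟨fun ⟨ψ, a, b, e⟩ => ⟨_, ⟨ψ, a, b, rfl⟩, e.symm⟩, fun ⟨_, ⟨ψ, a, b, e⟩, e'⟩ =>
    ⟨ψ, a, b, by rw [← e', e]; rfl⟩⟩

theorem map_A (k : ℕ) : (c.map π hs hi).A k = (c.A k).map π := by
  ext g
  exact ⟨fun ⟨ψ, a, e⟩ => ⟨_, ⟨ψ, a, rfl⟩, e.symm⟩, fun ⟨_, ⟨ψ, a, e⟩, e'⟩ =>
    ⟨ψ, a, by rw [← e', e]; rfl⟩⟩

theorem map_Y : (c.map π hs hi).Y = c.Y.map π := c.map_Yk π hs hi 0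

theorem map_Y' : (c.map π hs hi).Y' = c.Y'.map π := c.map_Yk' π hs hi n

theorem map_Z : (c.map π hs hi).Z = c.Z.map π := by
  ext g
  rw [mem_Z]
  exact ⟨fun ⟨s, e⟩ => ⟨_, memZ s, e.symm⟩, fun ⟨_, h, e⟩ => by
    obtain ⟨s, rfl⟩ := mem_Z.1 h
    exact ⟨s, e.symm⟩⟩

theorem map_Q : (c.map π hs hi).Q = c.Q.map π := by rw [Q, map_Y, map_Y', ← Subgroup.map_sup, Q]

theorem map_U : (c.map π hs hi).U = c.U.map π := by
  ext g
  refine ⟨fun h => ?_, fun ⟨_, h, e⟩ => ?_⟩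
  · obtain ⟨N, hN, rfl⟩ := ex h.1
    exact ⟨_, (w_mem_U hN).2 ((w_mem_U hN).1 h), rfl⟩
  · obtain ⟨N, hN, rfl⟩ := ex h.1
    exact e ▸ (w_mem_U (c := c.map π hs hi) hN).2 ((w_mem_U hN).1 h)

theorem map_U' : (c.map π hs hi).U' = c.U'.map π := by
  ext g
  refine ⟨fun h => ?_, fun ⟨_, h, e⟩ => ?_⟩
  · obtain ⟨N, hN, rfl⟩ := ex h.1
    exact ⟨_, (w_mem_U' hN).2 ((w_mem_U' hN).1 h), rfl⟩
  · obtain ⟨N, hN, rfl⟩ := ex h.1
    exact e ▸ (w_mem_U' (c := c.map π hs hi) hN).2 ((w_mem_U' hN).1 h)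

end Map

/-- an odd kernel meets `S` trivially -/
theorem inj_of_odd {G' : Type u'} [Group G'] [Finite G] {π : G →* G'} (h : Odd (Nat.card π.ker)) :
    ∀ s ∈ c.S, π s = 1 → s = 1 := fun s hs e => by
  obtain ⟨k, hk⟩ := c.syl.isPGroup ⟨s, hs⟩
  have h1 : orderOf s ∣ 2 ^ k := orderOf_dvd_of_pow_eq_one (congrArg Subtype.val hk)
  have h2 : orderOf s ∣ Nat.card π.ker := orderOf_dvd_natCard _ (MonoidHom.mem_ker.2 e)
  exact orderOf_eq_one_iff.1 (Nat.eq_one_of_dvd_coprimes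
    ((Nat.coprime_two_left.2 h).pow_left k) h1 h2)

section Conj

variable [Finite G] (g : G)

/-- the conjugate chart -/
def conj : Uc n F G :=
  c.map (MulAut.conj g).toMonoidHom (MulAut.conj g).surjective fun _ _ e =>
    (MulAut.conj g).injective (e.trans (map_one _).symm)

theorem conj_w_eq (N : Matrix (Fin n) (Fin n) F) : (c.conj g).w N = g * c.w N * g⁻¹ := rfl

theorem conj_S : (c.conj g).S = cj g c.S := rfl

variable [CharP F 2]

theorem conj_Yk (k : ℕ) : (c.conj g).Yk k = cj g (c.Yk k) := c.map_Yk _ _ _ k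
theorem conj_Yk' (k : ℕ) : (c.conj g).Yk' k = cj g (c.Yk' k) := c.map_Yk' _ _ _ k
theorem conj_A (k : ℕ) : (c.conj g).A k = cj g (c.A k) := c.map_A _ _ _ k
theorem conj_Y_eq : (c.conj g).Y = cj g c.Y := c.map_Y _ _ _
theorem conj_Y'_eq : (c.conj g).Y' = cj g c.Y' := c.map_Y' _ _ _
theorem conj_Z : (c.conj g).Z = cj g c.Z := c.map_Z _ _ _
theorem conj_Q : (c.conj g).Q = cj g c.Q := c.map_Q _ _ _
theorem conj_U : (c.conj g).U = cj g c.U := c.map_U _ _ _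
theorem conj_U' : (c.conj g).U' = cj g c.U' := c.map_U' _ _ _

end Conj

section Sub

variable (H : Subgroup G) (hH : c.S ≤ H)

open Classical in
/-- the chart inside an overgroup of `S` -/
noncomputable def sub : Uc n F H where
  w N := if h : c.w N ∈ H then ⟨_, h⟩ else 1
  S := c.S.subgroupOf H
  mem g := ⟨fun h => by
    obtain ⟨N, hN, e⟩ := ex (mem_subgroupOf.1 h)
    exact ⟨N, hN, by rw [dif_pos (hH (w_mem hN))]; exact Subtype.ext e⟩, fun ⟨N, hN, e⟩ => by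
    rw [e, dif_pos (hH (w_mem hN))]; exact w_mem hN⟩
  mul N N' h k := by
    rw [dif_pos (hH (w_mem h)), dif_pos (hH (w_mem k)), dif_pos (hH (w_mem ((h.add k).add (h.mul k))))]
    exact Subtype.ext (c.mul _ _ h k)
  inj N N' h k e := by
    rw [dif_pos (hH (w_mem h)), dif_pos (hH (w_mem k))] at e
    exact c.inj _ _ h k (congrArg Subtype.val e)
  syl := isSyl_top (c.syl.of_le hH le_top).toSylow
  n4 := c.n4
  q2 := c.q2

theorem sub_w {N : Matrix (Fin n) (Fin n) F} (h : SU N) : ((c.sub H hH).w N : G) = c.w N := by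
  simp only [sub, dif_pos (hH (w_mem h))]

theorem sub_S : (c.sub H hH).S = c.S.subgroupOf H := rfl

theorem sub_eq {N : Matrix (Fin n) (Fin n) F} (h : SU N) {g : H} :
    g = (c.sub H hH).w N ↔ (g : G) = c.w N := by rw [← c.sub_w H hH h, Subtype.ext_iff]

variable [CharP F 2]

theorem sub_Yk (k : ℕ) : (c.sub H hH).Yk k = (c.Yk k).subgroupOf H := by
  ext g
  exact exists_congr fun _ => and_congr_right fun a => and_congr_right fun _ => c.sub_eq H hH (suY a)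

theorem sub_Yk' (k : ℕ) : (c.sub H hH).Yk' k = (c.Yk' k).subgroupOf H := by
  ext g
  exact exists_congr fun _ => and_congr_right fun a => and_congr_right fun _ => c.sub_eq H hH (suY' a)

theorem sub_A (k : ℕ) : (c.sub H hH).A k = (c.A k).subgroupOf H := by
  ext g
  exact exists_congr fun _ => and_congr_right fun a => c.sub_eq H hH a.su

theorem sub_Y : (c.sub H hH).Y = c.Y.subgroupOf H := c.sub_Yk H hH 0

theorem sub_Y' : (c.sub H hH).Y' = c.Y'.subgroupOf H := c.sub_Yk' H hH n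

theorem sub_Z : (c.sub H hH).Z = c.Z.subgroupOf H := by rw [Z, sub_Y, sub_Y']; rfl

theorem sub_Q : (c.sub H hH).Q = c.Q.subgroupOf H := by
  rw [Q, sub_Y, sub_Y', ← subgroupOf_sup (Y_le.trans hH) (Y'_le.trans hH), Q]

theorem sub_U : (c.sub H hH).U = c.U.subgroupOf H := by
  ext g
  refine ⟨fun h => ?_, fun h => ?_⟩
  · obtain ⟨N, hN, rfl⟩ := ex h.1
    rw [mem_subgroupOf, c.sub_w H hH hN, w_mem_U hN]
    exact (w_mem_U hN).1 h
  · obtain ⟨N, hN, rfl⟩ := ex (c := c.sub H hH) h.1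
    rw [mem_subgroupOf, c.sub_w H hH hN, w_mem_U hN] at h
    exact (w_mem_U hN).2 h

theorem sub_U' : (c.sub H hH).U' = c.U'.subgroupOf H := by
  ext g
  refine ⟨fun h => ?_, fun h => ?_⟩
  · obtain ⟨N, hN, rfl⟩ := ex h.1
    rw [mem_subgroupOf, c.sub_w H hH hN, w_mem_U' hN]
    exact (w_mem_U' hN).1 h
  · obtain ⟨N, hN, rfl⟩ := ex (c := c.sub H hH) h.1
    rw [mem_subgroupOf, c.sub_w H hH hN, w_mem_U' hN] at h
    exact (w_mem_U' hN).2 h

end Sub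

variable [CharP F 2]

theorem dual_w {N : Matrix (Fin n) (Fin n) F} (h : SU N) (k : N * N = 0) :
    c.dual.w (tr N) = c.w N := by
  change (c.w (tr (tr N)))⁻¹ = _
  rw [tr_tr, w_inv h k]

theorem dual_wY {v : Fin n → F} (h : vf ⬝ᵥ v = 0) : c.dual.w (ve ⊙ rv v) = c.w (v ⊙ vf) := by
  rw [← c.dual_w (suY' h) (by rw [vv_mul_vv, h, zero_smul]), tr_vv, rv_f (by have := c.n4; omega)]

theorem dual_wY' {ψ : Fin n → F} (h : ψ ⬝ᵥ ve = 0) : c.dual.w (rv ψ ⊙ vf) = c.w (ve ⊙ ψ) := by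
  rw [← c.dual_w (suY h) (by rw [vv_mul_vv, h, zero_smul]), tr_vv, rv_e (by have := c.n4; omega)]

theorem dual_Yk {k : ℕ} (hk : k ≤ n) : c.dual.Yk k = c.Yk' (n - k) := by
  have h0 : 0 < n := by have := c.n4; omega
  ext g
  refine ⟨fun ⟨ψ, a, b, e⟩ => ?_, fun ⟨v, a, b, e⟩ => ?_⟩
  · have : vf ⬝ᵥ rv ψ = 0 := by rw [← rv_e h0, rv_dot, dotProduct_comm, a]
    exact ⟨_, this, b.rv, by rw [e, ← c.dual_wY this, rv_rv]⟩
  · exact ⟨rv v, by rw [← rv_f h0, rv_dot, dotProduct_comm, a], b.rv.mono (by omega),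
      by rw [e, c.dual_wY a]⟩

theorem dual_Yk' {k : ℕ} (hk : k ≤ n) : c.dual.Yk' k = c.Yk (n - k) := by
  have h0 : 0 < n := by have := c.n4; omega
  ext g
  refine ⟨fun ⟨ψ, a, b, e⟩ => ?_, fun ⟨v, a, b, e⟩ => ?_⟩
  · have : rv ψ ⬝ᵥ ve = 0 := by rw [← rv_f h0, rv_dot, dotProduct_comm, a]
    exact ⟨_, this, b.rv, by rw [e, ← c.dual_wY' this, rv_rv]⟩
  · exact ⟨rv v, by rw [← rv_e h0, rv_dot, dotProduct_comm, a], b.rv.mono (by omega),
      by rw [e, c.dual_wY' a]⟩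

theorem dual_A {k : ℕ} (hk : k ≤ n) : c.dual.A k = c.A (n - k) := by
  ext g
  refine ⟨fun ⟨N, a, e⟩ => ⟨tr N, a.tr, ?_⟩, fun ⟨N, a, e⟩ => ⟨tr N, ?_, ?_⟩⟩
  · rw [e, ← c.dual_w a.tr.su (a.tr.mul a.tr), tr_tr]
  · have := a.tr
    rwa [show n - (n - k) = k by omega] at this
  · rw [e, c.dual_w a.su (a.mul a)]

theorem dual_Y : c.dual.Y = c.Y' := c.dual_Yk (Nat.zero_le _)

theorem dual_Y' : c.dual.Y' = c.Y := by rw [Y', c.dual_Yk' le_rfl, Nat.sub_self, Y]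

theorem dual_Z : c.dual.Z = c.Z := by rw [Z, dual_Y, dual_Y', inf_comm, Z]

theorem dual_Q : c.dual.Q = c.Q := by rw [Q, dual_Y, dual_Y', sup_comm, Q]

theorem dual_U : c.dual.U = c.U' := by
  rw [U, ← rv_b (by have := c.n4; omega), c.dual_wY c.fb]; rfl

theorem dual_U' : c.dual.U' = c.U := by
  rw [U', ← rv_a (by have := c.n4; omega), c.dual_wY' c.ae]; rfl

end Uc

end Cfsg.Agent.H87.US
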